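import Mathlib
import Cfsg.Prelude.Def_LinearParabolics

/-!
# Steinberg character values of `GL_n(q)` at `p'`-elements (S2425): foundation (helper48)

Definitions shared by all pieces.  The route: the Steinberg character value at `x` is an alternating
sum of numbers of `x`-stable flags, which is `(-1)^n` times the Möbius function of the lattice of
`x`-stable subspaces (= `F[X]`-submodules of `Module.AEval' x`), computed by Weisner's theorem.
-/

set_option autoImplicit false

namespace Cfsg.Agent.Lib.Helper48.SV

open Cfsg
open scoped MatrixGroups Polynomial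

/-- the finset of a set in a finite type -/
noncomputable def fs {α : Type*} [Finite α] (S : Set α) : Finset α := (Set.toFinite S).toFinset

@[simp] theorem mem_fs {α : Type*} [Finite α] (S : Set α) (a : α) : a ∈ fs S ↔ a ∈ S :=
  Set.Finite.mem_toFinset _

theorem card_fs {α : Type*} [Finite α] (S : Set α) : (fs S).card = Nat.card S := by
  unfold fs
  rw [← Set.ncard_eq_toFinset_card S (Set.toFinite S), Set.ncard_def]
  rfl

/-! ## Möbius function of a finite poset with bottom -/

section Mob

variable {α : Type*} [PartialOrder α] [OrderBot α] [Finite α]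

open Classical in
/-- `ch k w`: the number of chains `⊥ = a₀ < a₁ < ⋯ < a_k = w`. -/
noncomputable def ch : ℕ → α → ℤ
  | 0, w => if w = ⊥ then 1 else 0
  | k + 1, w => ∑ w' ∈ fs {w' : α | w' < w}, ch k w'

/-- the Möbius function `μ(⊥, w)` (Philip Hall's chain formula) -/
noncomputable def mob (w : α) : ℤ :=
  ∑ k ∈ Finset.range (Nat.card α + 1), (-1 : ℤ) ^ k * ch k w

open Classical in
/-- one step of flag counting: sum over the `w' ≤ w` of "codimension" `m` -/
noncomputable def step (d : α → ℕ) (m : ℕ) (f : α → ℤ) : α → ℤ :=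
  fun w => ∑ w' ∈ fs {w' : α | w' ≤ w ∧ d w = d w' + m}, f w'

open Classical in
/-- `cnt d l w`: the number of flags `⊥ = c₀ ≤ c₁ ≤ ⋯ ≤ c_len = w` whose successive jumps of `d`
are the entries of `l`. -/
noncomputable def cnt (d : α → ℕ) (l : List ℕ) : α → ℤ :=
  l.foldl (fun f m => step d m f) (fun w => if w = ⊥ then 1 else 0)

/-- the signed Möbius function -/
noncomputable def tfun (d : α → ℕ) (w : α) : ℤ := (-1 : ℤ) ^ d w * mob w

open Classical in
theorem cnt_nil (d : α → ℕ) (w : α) : cnt d [] w = if w = ⊥ then 1 else 0 := rfl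

theorem cnt_concat (d : α → ℕ) (l : List ℕ) (m : ℕ) : cnt d (l ++ [m]) = step d m (cnt d l) := by
  unfold cnt
  rw [List.foldl_append]
  rfl

end Mob

/-! ## permutations `κ` with `κ i ≤ i + 1` -/

/-- the condition on `κ` in the definition of the Steinberg character -/
def valid {n : ℕ} (κ : Equiv.Perm (Fin n)) : Prop := ∀ i : Fin n, (κ i).val ≤ 1 + i.val

instance {n : ℕ} (κ : Equiv.Perm (Fin n)) : Decidable (valid κ) := by
  unfold valid; infer_instance

/-- the composition attached to `κ`, as a list -/
def muList {n : ℕ} (κ : Equiv.Perm (Fin n)) : List ℕ :=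
  List.ofFn (fun i : Fin n => 1 + i.val - (κ i).val)

/-! ## the standard flag -/

/-- vectors supported on the first `s` coordinates -/
def stdSub (F : Type*) [Field F] (n s : ℕ) : Submodule F (Fin n → F) where
  carrier := {v | ∀ j : Fin n, s ≤ j.val → v j = 0}
  add_mem' := fun {a b} ha hb j hj => by
    show a j + b j = 0
    rw [ha j hj, hb j hj, add_zero]
  zero_mem' := fun _ _ => rfl
  smul_mem' := fun c a ha j hj => by
    show c * a j = 0
    rw [ha j hj, mul_zero]

theorem mem_stdSub {F : Type*} [Field F] {n s : ℕ} (v : Fin n → F) :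
    v ∈ stdSub F n s ↔ ∀ j : Fin n, s ≤ j.val → v j = 0 := Iff.rfl

/-- partial sums of a composition: `psum μ i = μ 0 + ⋯ + μ (i-1)` -/
def psum {n : ℕ} (μ : Fin n → ℕ) (i : ℕ) : ℕ := ∑ k : Fin n, if k.val < i then μ k else 0

theorem psum_zero {n : ℕ} (μ : Fin n → ℕ) : psum μ 0 = 0 := by
  unfold psum
  simp

theorem psum_succ {n : ℕ} (μ : Fin n → ℕ) (i : Fin n) : psum μ (i.val + 1) = psum μ i.val + μ i := by
  unfold psum
  have h : ∀ k : Fin n, (if k.val < i.val + 1 then μ k else 0) =
      (if k.val < i.val then μ k else 0) + (if k = i then μ i else 0) := by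
    intro k
    by_cases h1 : k.val < i.val
    · have h2 : k ≠ i := fun h => by rw [h] at h1; exact lt_irrefl _ h1
      have h3 : k.val < i.val + 1 := by omega
      simp [h1, h2, h3]
    · by_cases h2 : k = i
      · subst h2
        simp
      · have h3 : ¬ k.val < i.val + 1 := by
          intro h3
          exact h2 (Fin.ext (by omega))
        simp [h1, h2, h3]
  rw [Finset.sum_congr rfl (fun k _ => h k), Finset.sum_add_distrib]
  simp

theorem psum_mono {n : ℕ} (μ : Fin n → ℕ) : Monotone (psum μ) := by
  intro a b hab
  unfold psum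
  apply Finset.sum_le_sum
  intro k _
  by_cases h1 : k.val < a
  · have h2 : k.val < b := by omega
    simp [h1, h2]
  · simp [h1]

theorem psum_top {n : ℕ} (μ : Fin n → ℕ) : psum μ n = ∑ k, μ k := by
  unfold psum
  apply Finset.sum_congr rfl
  intro k _
  simp [k.isLt]

/-! ## the `F[X]`-module of a matrix -/

section Mod

variable {F : Type*} [Field F]

/-- the `F`-dimension of an `F[X]`-submodule -/
noncomputable def dimS {N : Type*} [AddCommGroup N] [Module F[X] N] [Module F N]
    [IsScalarTower F F[X] N] (W : Submodule F[X] N) : ℕ := Module.finrank F W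

/-- multiplication by `X` on a submodule, as an `F`-linear endomorphism -/
noncomputable def xEnd {N : Type*} [AddCommGroup N] [Module F[X] N] [Module F N]
    [IsScalarTower F F[X] N] (W : Submodule F[X] N) : Module.End F W :=
  ((LinearMap.lsmul F[X] W) Polynomial.X).restrictScalars F

/-- the characteristic polynomial of `X` on a submodule -/
noncomputable def chi {N : Type*} [AddCommGroup N] [Module F[X] N] [Module F N]
    [IsScalarTower F F[X] N] [Finite N] (W : Submodule F[X] N) : F[X] := (xEnd W).charpoly

theorem xEnd_apply {N : Type*} [AddCommGroup N] [Module F[X] N] [Module F N]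
    [IsScalarTower F F[X] N] (W : Submodule F[X] N) (w : W) :
    xEnd W w = (Polynomial.X : F[X]) • w := rfl

variable {n : ℕ}

/-- the linear map of a matrix -/
noncomputable abbrev phi (x : GL (Fin n) F) : Module.End F (Fin n → F) :=
  Matrix.toLin' (x : Matrix (Fin n) (Fin n) F)

/-- the `F[X]`-module of a matrix -/
abbrev Nx (x : GL (Fin n) F) : Type _ := Module.AEval' (phi x)

instance [Finite F] (x : GL (Fin n) F) : Finite (Nx x) :=
  Finite.of_equiv _ (Module.AEval'.of (phi x)).toEquiv

/-- the value of the formula at a polynomial -/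
noncomputable def ffun [DecidableEq F] (q : ℕ) (χ : F[X]) : ℂ :=
  ∏ f ∈ (UniqueFactorizationMonoid.normalizedFactors χ).toFinset,
    (-1 : ℂ) ^ ((f.natDegree - 1) * (UniqueFactorizationMonoid.normalizedFactors χ).count f) *
      (q : ℂ) ^ (f.natDegree * (UniqueFactorizationMonoid.normalizedFactors χ).count f *
        ((UniqueFactorizationMonoid.normalizedFactors χ).count f - 1) / 2)

end Mod

end Cfsg.Agent.Lib.Helper48.SV
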