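import Mathlib

set_option autoImplicit false

namespace Cfsg.Agent.Lib.Helper48

variable {K : Type*} [Field K]

/-- the product of two non-squares of a finite field is a square -/
theorem nonsq_mul_nonsq [Finite K] {x y : K} (hx : ¬ IsSquare x) (hy : ¬ IsSquare y) :
    ∃ s : K, s ≠ 0 ∧ y = s ^ 2 * x := by
  classical
  haveI := Fintype.ofFinite K
  have hx0 : x ≠ 0 := fun h => hx (h ▸ IsSquare.zero)
  have hy0 : y ≠ 0 := fun h => hy (h ▸ IsSquare.zero)
  have h1 : quadraticChar K (y * x) = 1 := by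
    rw [map_mul, quadraticChar_neg_one_iff_not_isSquare.mpr hx,
      quadraticChar_neg_one_iff_not_isSquare.mpr hy]; norm_num
  obtain ⟨z, hz⟩ := (quadraticChar_one_iff_isSquare (mul_ne_zero hy0 hx0)).mp h1
  have hz0 : z ≠ 0 := by
    rintro rfl
    rw [mul_zero] at hz
    exact mul_ne_zero hy0 hx0 hz
  refine ⟨z / x, div_ne_zero hz0 hx0, ?_⟩
  field_simp
  rw [hz]; ring

theorem nonsq_of_mul_sq {n z : K} (hn : ¬ IsSquare n) (hz : z ≠ 0) : ¬ IsSquare (n * (z * z)) := by
  rintro ⟨y, hy⟩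
  apply hn
  refine ⟨y / z, ?_⟩
  field_simp
  linear_combination hy

/-- if `-1` is a square and some non-square exists, there are two consecutive non-squares -/
theorem exists_consecutive_nonsq [Finite K] (hm : IsSquare (-1 : K)) (n : K) (hn : ¬ IsSquare n) :
    ∃ r : K, ¬ IsSquare r ∧ ¬ IsSquare (1 + r) := by
  by_contra hcon
  push Not at hcon
  have key : ∀ t : {x : K // IsSquare x}, IsSquare (1 + n * t.1) := by
    rintro ⟨t, z, rfl⟩
    by_cases hz : z = 0
    · subst hz; simp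
    · exact hcon _ (nonsq_of_mul_sq hn hz)
  let f : {x : K // IsSquare x} → {x : K // IsSquare x} := fun t => ⟨1 + n * t.1, key t⟩
  have hn0 : n ≠ 0 := fun h => hn (h ▸ IsSquare.zero)
  have hinj : Function.Injective f := by
    rintro ⟨a, ha⟩ ⟨b, hb⟩ hab
    have : 1 + n * a = 1 + n * b := congrArg Subtype.val hab
    have : a = b := mul_left_cancel₀ hn0 (add_left_cancel this)
    exact Subtype.ext this
  obtain ⟨⟨t, z, rfl⟩, ht⟩ := (Finite.injective_iff_surjective.mp hinj) ⟨0, IsSquare.zero⟩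
  have h0 : 1 + n * (z * z) = 0 := congrArg Subtype.val ht
  obtain ⟨i, hi⟩ := hm
  have hz : z ≠ 0 := by
    rintro rfl
    simp at h0
  apply hn
  refine ⟨i / z, ?_⟩
  field_simp
  linear_combination h0 + hi

/-- if `-1` is not a square, some nonzero square is followed by a non-square -/
theorem exists_sq_succ_nonsq [Finite K] (hm : ¬ IsSquare (-1 : K)) :
    ∃ r : K, r ≠ 0 ∧ IsSquare r ∧ ¬ IsSquare (1 + r) := by
  by_contra hcon
  push Not at hcon
  have key : ∀ k : ℕ, IsSquare (k : K) := by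
    intro k
    induction k with
    | zero => simp
    | succ k ih =>
      by_cases hk : (k : K) = 0
      · rw [Nat.cast_succ, hk, zero_add]; exact IsSquare.one
      · have := hcon _ hk ih
        rwa [Nat.cast_succ, add_comm]
  apply hm
  haveI := ringChar.charP K
  have hp : ringChar K ≠ 0 := CharP.char_ne_zero_of_finite K (ringChar K)
  have := key (ringChar K - 1)
  rwa [Nat.cast_sub (Nat.one_le_iff_ne_zero.mpr hp), CharP.cast_eq_zero, Nat.cast_one, zero_sub]
    at this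

/-- the symbol argument: a function on a finite field satisfying the torus relations is
multiplicative -/
theorem symbol_trivial [Finite K] {A : Type*} [Group A] (h : K → A)
    (hc : ∀ s t : K, s ≠ 0 → t ≠ 0 → h s * h t = h t * h s)
    (h1 : h 1 = 1)
    (i2 : ∀ s t : K, s ≠ 0 → t ≠ 0 → h s * h t = h (s ^ 2 * t) * h s⁻¹)
    (i3 : ∀ r : K, r ≠ 0 → 1 + r ≠ 0 → h (-(1 + r)⁻¹) * (h (-1))⁻¹ * h r = h (r / (1 + r))) :
    ∀ s t : K, s ≠ 0 → t ≠ 0 → h (s * t) = h s * h t := by
  -- squares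
  have A0 : ∀ s : K, s ≠ 0 → h (s ^ 2) = h s * (h s⁻¹)⁻¹ := by
    intro s hs
    have := i2 s 1 hs one_ne_zero
    rw [h1, mul_one, mul_one] at this
    rw [this]; group
  have A1 : ∀ s t : K, s ≠ 0 → t ≠ 0 → h (s ^ 2 * t) = h (s ^ 2) * h t := by
    intro s t hs ht
    have e := i2 s t hs ht
    have e2 : h (s ^ 2 * t) = h s * h t * (h s⁻¹)⁻¹ := by rw [e]; group
    have e3 : h t * (h s⁻¹)⁻¹ = (h s⁻¹)⁻¹ * h t := by
      have := hc t s⁻¹ ht (inv_ne_zero hs)
      rw [eq_inv_mul_iff_mul_eq, ← mul_assoc, ← this, mul_assoc, mul_inv_cancel, mul_one]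
    rw [e2, A0 s hs, mul_assoc, e3, mul_assoc]
  have A2 : ∀ x t : K, x ≠ 0 → t ≠ 0 → IsSquare x → h (x * t) = h x * h t := by
    rintro x t hx ht ⟨s, rfl⟩
    have hs : s ≠ 0 := by rintro rfl; simp at hx
    rw [← sq]
    exact A1 s t hs ht
  -- non-squares
  have N : ∀ x y : K, ¬ IsSquare x → ¬ IsSquare y → h x * h y = h x * h x⁻¹ * h (x * y) := by
    intro x y hx hy
    have hx0 : x ≠ 0 := fun h => hx (h ▸ IsSquare.zero)
    obtain ⟨s, hs, rfl⟩ := nonsq_mul_nonsq hx hy
    have e1 : h (s ^ 2 * x) = h (s ^ 2) * h x := A1 s x hs hx0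
    have e2 : h (x * (s ^ 2 * x)) = h (s ^ 2) * (h x * (h x⁻¹)⁻¹) := by
      rw [show x * (s ^ 2 * x) = s ^ 2 * x ^ 2 by ring, A1 s (x ^ 2) hs (pow_ne_zero 2 hx0),
        A0 x hx0]
    have c1 : h x * h (s ^ 2) = h (s ^ 2) * h x := hc x (s ^ 2) hx0 (pow_ne_zero 2 hs)
    have c2 : h x * h x⁻¹ = h x⁻¹ * h x := hc x x⁻¹ hx0 (inv_ne_zero hx0)
    have c3 : h x⁻¹ * h (s ^ 2) = h (s ^ 2) * h x⁻¹ :=
      hc x⁻¹ (s ^ 2) (inv_ne_zero hx0) (pow_ne_zero 2 hs)
    rw [e1, e2]
    generalize h x = a at *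
    generalize h x⁻¹ = b at *
    generalize h (s ^ 2) = c at *
    symm
    calc a * b * (c * (a * b⁻¹)) = a * (b * c) * a * b⁻¹ := by group
      _ = a * (c * b) * a * b⁻¹ := by rw [c3]
      _ = a * c * (b * a) * b⁻¹ := by group
      _ = a * c * (a * b) * b⁻¹ := by rw [c2]
      _ = _ := by group
  -- the special instance
  have E : ∀ x : K, ¬ IsSquare x → h x * h x⁻¹ = 1 := by
    intro x hx
    have hx0 : x ≠ 0 := fun h => hx (h ▸ IsSquare.zero)
    -- find non-squares n₁, n₂ with h n₁ * h n₂ = h (n₁ n₂)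
    have hsp : ∃ n₁ n₂ : K, ¬ IsSquare n₁ ∧ ¬ IsSquare n₂ ∧ h n₁ * h n₂ = h (n₁ * n₂) := by
      by_cases hm : IsSquare (-1 : K)
      · obtain ⟨r, hr, hr1⟩ := exists_consecutive_nonsq hm x hx
        have hr0 : r ≠ 0 := fun h => hr (h ▸ IsSquare.zero)
        have hr10 : 1 + r ≠ 0 := fun h => hr1 (h ▸ IsSquare.zero)
        have hn1 : ¬ IsSquare (-(1 + r)⁻¹) := by
          obtain ⟨i, hi⟩ := hm
          rintro ⟨z, hz⟩
          have hz0 : z ≠ 0 := by
            rintro rfl
            simp at hz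
            exact hr10 hz
          apply hr1
          refine ⟨i / z, ?_⟩
          have : (1 + r) * (z * z) = -1 := by
            rw [← hz]; field_simp
          field_simp
          linear_combination this + hi
        refine ⟨-(1 + r)⁻¹, r, hn1, hr, ?_⟩
        have e := i3 r hr0 hr10
        have hm1 : (-1 : K) ≠ 0 := neg_ne_zero.mpr one_ne_zero
        have e2 : h (-(1 + r)⁻¹ * r) = h (-1) * h (r / (1 + r)) := by
          rw [show -(1 + r)⁻¹ * r = (-1) * (r / (1 + r)) by field_simp]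
          exact A2 _ _ hm1 (div_ne_zero hr0 hr10) hm
        have c1 := hc (-(1 + r)⁻¹) (-1) (neg_ne_zero.mpr (inv_ne_zero hr10)) hm1
        rw [e2, ← e]
        calc h (-(1 + r)⁻¹) * h r = h (-(1 + r)⁻¹) * h (-1) * ((h (-1))⁻¹ * h r) := by group
          _ = h (-1) * h (-(1 + r)⁻¹) * ((h (-1))⁻¹ * h r) := by rw [c1]
          _ = _ := by group
      · obtain ⟨r, hr0, hr, hr1⟩ := exists_sq_succ_nonsq hm
        have hr10 : 1 + r ≠ 0 := fun h => hr1 (h ▸ IsSquare.zero)
        have hn2 : ¬ IsSquare (r / (1 + r)) := by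
          obtain ⟨s, hs⟩ := hr
          rintro ⟨z, hz⟩
          have hz0 : z ≠ 0 := by
            rintro rfl
            simp at hz
            rcases hz with hz | hz
            · exact hr0 hz
            · exact hr10 hz
          apply hr1
          refine ⟨s / z, ?_⟩
          have : r = (1 + r) * (z * z) := by
            rw [← hz]; field_simp
          field_simp
          linear_combination (-1 : K) * this + hs
        refine ⟨-1, r / (1 + r), hm, hn2, ?_⟩
        have e := i3 r hr0 hr10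
        have hm1 : (-1 : K) ≠ 0 := neg_ne_zero.mpr one_ne_zero
        have hq : -(1 + r)⁻¹ ≠ 0 := neg_ne_zero.mpr (inv_ne_zero hr10)
        have e2 : h (-1 * (r / (1 + r))) = h r * h (-(1 + r)⁻¹) := by
          rw [show -1 * (r / (1 + r)) = r * (-(1 + r)⁻¹) by field_simp]
          exact A2 _ _ hr0 hq hr
        have c1 := hc (-(1 + r)⁻¹) (-1) hq hm1
        have c2 := hc (-(1 + r)⁻¹) r hq hr0
        rw [e2, ← e, ← c2]
        calc h (-1) * (h (-(1 + r)⁻¹) * (h (-1))⁻¹ * h r)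
            = (h (-1) * h (-(1 + r)⁻¹)) * (h (-1))⁻¹ * h r := by group
          _ = (h (-(1 + r)⁻¹) * h (-1)) * (h (-1))⁻¹ * h r := by rw [c1]
          _ = _ := by group
    obtain ⟨n₁, n₂, hn1, hn2, hsp⟩ := hsp
    have hn10 : n₁ ≠ 0 := fun h => hn1 (h ▸ IsSquare.zero)
    have e1 : h n₁ * h n₁⁻¹ = 1 := by
      have := N n₁ n₂ hn1 hn2
      rw [hsp] at this
      exact (mul_eq_right.mp this.symm)
    have e2 := N x n₁ hx hn1
    have e3 := N n₁ x hn1 hx
    rw [e1, one_mul] at e3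
    rw [hc x n₁ hx0 hn10, e3, mul_comm n₁ x] at e2
    exact (mul_eq_right.mp e2.symm)
  intro s t hs ht
  by_cases h1s : IsSquare s
  · exact A2 s t hs ht h1s
  · by_cases h1t : IsSquare t
    · rw [mul_comm, A2 t s ht hs h1t, hc t s ht hs]
    · rw [N s t h1s h1t, E s h1s, one_mul]

end Cfsg.Agent.Lib.Helper48
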