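import Cfsg.Agent.Lib.Helper48.SPe
import Cfsg.Agent.Lib.Helper48.SPf

set_option autoImplicit false

namespace Cfsg.Agent.Lib.Helper48

open Matrix

variable {K : Type*} [Field K] {G : Type*} [Group G]

/-- diagonal matrices of `SL₂` -/
def spDg (t : Kˣ) : Matrix.SpecialLinearGroup (Fin 2) K :=
  ⟨!![(t : K), 0; 0, (t : K)⁻¹], by simp [Matrix.det_fin_two_of]⟩

theorem spDg_coe (t : Kˣ) : (spDg t : Matrix (Fin 2) (Fin 2) K) = !![(t : K), 0; 0, (t : K)⁻¹] := rfl

/-- the diagonal torus of `SL₂` -/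
def spDiag : Kˣ →* Matrix.SpecialLinearGroup (Fin 2) K where
  toFun := spDg
  map_one' := by
    apply sl2_ext <;> simp [spDg_coe]
  map_mul' s t := by
    apply sl2_ext <;>
      simp [spDg_coe, Matrix.SpecialLinearGroup.coe_mul, Matrix.mul_apply, Fin.sum_univ_two, mul_comm]

namespace SPRel

variable {X : Bool → K → G} (hX : SPRel X)
  (π : G →* Matrix.SpecialLinearGroup (Fin 2) K) (hπ : ∀ b t, π (X b t) = spM b t)
  (hgen : ∀ P : G → Prop, P 1 → (∀ b t g, P g → P (X b t * g)) → ∀ g, P g)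
include hX hπ hgen

theorem ker_sub (g : G) (hg : π g = 1) : g ∈ spHs X ∧ ∀ b u, g * X b u = X b u * g := by
  rcases hX.br_all π hπ hgen g with ⟨u, k, hk, rfl⟩ | ⟨u, k, hk, v, rfl⟩
  · obtain ⟨a, ha, hka, h1, h2⟩ := hX.Hs_prop π hπ k hk
    have h00 := congrArg (fun m : Matrix.SpecialLinearGroup (Fin 2) K =>
      (m : Matrix (Fin 2) (Fin 2) K) 0 0) hg
    have h01 := congrArg (fun m : Matrix.SpecialLinearGroup (Fin 2) K =>
      (m : Matrix (Fin 2) (Fin 2) K) 0 1) hg
    simp [map_mul, hπ, spM_true, spXm_coe, hka, Matrix.mul_apply, Fin.sum_univ_two] at h00 h01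
    subst h00
    simp at h01
    subst h01
    rw [hX.zero, one_mul]
    refine ⟨hk, ?_⟩
    intro b u
    cases b
    · rw [h2]; simp
    · rw [h1]; simp
  · exfalso
    obtain ⟨a, ha, hka, h1, h2⟩ := hX.Hs_prop π hπ k hk
    have h10 := congrArg (fun m : Matrix.SpecialLinearGroup (Fin 2) K =>
      (m : Matrix (Fin 2) (Fin 2) K) 1 0) hg
    simp [map_mul, hπ, spM_true, spXm_coe, hka, Matrix.mul_apply, Fin.sum_univ_two,
      pi_W π hπ, spW_spM_coe (1 : K) one_ne_zero] at h10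
    exact ha h10

theorem ker_central (g : G) (hg : π g = 1) (z : G) : g * z = z * g := by
  obtain ⟨-, hc⟩ := hX.ker_sub π hπ hgen g hg
  refine hgen (fun z => g * z = z * g) (by simp) ?_ z
  intro b t z hz
  rw [← mul_assoc, hc, mul_assoc, hz, mul_assoc]

theorem Hs_comm [Finite K] : ∀ a ∈ spHs X, ∀ b ∈ spHs X, a * b = b * a := by
  intro a ha b hb
  have hr : ∀ k : spHs X, π k ∈ (spDiag (K := K)).range := by
    rintro ⟨k, hk⟩
    obtain ⟨c, hc, hkc, -, -⟩ := hX.Hs_prop π hπ k hk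
    refine ⟨Units.mk0 c hc, ?_⟩
    apply Subtype.ext
    rw [hkc]; rfl
  let f : spHs X →* (spDiag (K := K)).range :=
    (π.comp (spHs X).subtype).codRestrict _ hr
  haveI : IsCyclic (spDiag (K := K)).range :=
    isCyclic_of_surjective (spDiag (K := K)).rangeRestrict (spDiag (K := K)).rangeRestrict_surjective
  have hker : f.ker ≤ Subgroup.center (spHs X) := by
    intro k hk
    rw [MonoidHom.mem_ker] at hk
    have hk' : π (k : G) = 1 := congrArg Subtype.val hk
    rw [Subgroup.mem_center_iff]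
    intro z
    apply Subtype.ext
    simp only [Subgroup.coe_mul]
    exact (hX.ker_central π hπ hgen k hk' z).symm
  have := commutative_of_cyclic_center_quotient f hker ⟨a, ha⟩ ⟨b, hb⟩
  exact congrArg Subtype.val this

theorem h_mul [Finite K] (s t : K) (hs : s ≠ 0) (ht : t ≠ 0) :
    spH X (s * t) = spH X s * spH X t := by
  refine symbol_trivial (spH X) ?_ hX.h_one (fun s t hs ht => hX.I2 s t hs ht)
    (fun r hr hr1 => hX.I3 r hr hr1) s t hs ht
  intro s t hs ht
  exact hX.Hs_comm π hπ hgen _ (hX.spH_mem s hs) _ (hX.spH_mem t ht)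

theorem Hs_eq [Finite K] : ∀ k ∈ spHs X, ∃ t : K, t ≠ 0 ∧ k = spH X t := by
  intro k hk
  refine Subgroup.closure_induction (p := fun k _ => ∃ t : K, t ≠ 0 ∧ k = spH X t) ?_ ?_ ?_ ?_ hk
  · rintro x ⟨t, ht, rfl⟩
    exact ⟨t, ht, rfl⟩
  · exact ⟨1, one_ne_zero, hX.h_one.symm⟩
  · rintro x y _ _ ⟨s, hs, rfl⟩ ⟨t, ht, rfl⟩
    exact ⟨s * t, mul_ne_zero hs ht, (hX.h_mul π hπ hgen s t hs ht).symm⟩
  · rintro x _ ⟨s, hs, rfl⟩
    refine ⟨s⁻¹, inv_ne_zero hs, ?_⟩
    rw [inv_eq_iff_mul_eq_one, ← hX.h_mul π hπ hgen s s⁻¹ hs (inv_ne_zero hs), mul_inv_cancel₀ hs,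
      hX.h_one]

theorem pi_injective [Finite K] : Function.Injective π := by
  rw [injective_iff_map_eq_one]
  intro g hg
  obtain ⟨hgH, -⟩ := hX.ker_sub π hπ hgen g hg
  obtain ⟨t, ht, rfl⟩ := hX.Hs_eq π hπ hgen g hgH
  rw [pi_H π hπ] at hg
  have h00 := congrArg (fun m : Matrix.SpecialLinearGroup (Fin 2) K =>
    (m : Matrix (Fin 2) (Fin 2) K) 0 0) hg
  simp [spH_spM_coe t ht] at h00
  rw [h00, hX.h_one]

end SPRel

/-- the elementary matrices generate `SL₂` -/
theorem spM_generate (g : Matrix.SpecialLinearGroup (Fin 2) K) :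
    g ∈ Subgroup.closure (Set.range fun p : Bool × K =>
      (spM p.1 p.2 : Matrix.SpecialLinearGroup (Fin 2) K)) := by
  have hx : ∀ t : K, spXm t ∈ Subgroup.closure (Set.range fun p : Bool × K =>
      (spM p.1 p.2 : Matrix.SpecialLinearGroup (Fin 2) K)) :=
    fun t => Subgroup.subset_closure ⟨(true, t), rfl⟩
  have hy : ∀ t : K, spYm t ∈ Subgroup.closure (Set.range fun p : Bool × K =>
      (spM p.1 p.2 : Matrix.SpecialLinearGroup (Fin 2) K)) :=
    fun t => Subgroup.subset_closure ⟨(false, t), rfl⟩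
  have main : ∀ g : Matrix.SpecialLinearGroup (Fin 2) K,
      (g : Matrix (Fin 2) (Fin 2) K) 1 0 ≠ 0 →
      g ∈ Subgroup.closure (Set.range fun p : Bool × K =>
        (spM p.1 p.2 : Matrix.SpecialLinearGroup (Fin 2) K)) := by
    intro g hc
    have hdet : (g : Matrix (Fin 2) (Fin 2) K) 0 0 * (g : Matrix (Fin 2) (Fin 2) K) 1 1
        - (g : Matrix (Fin 2) (Fin 2) K) 0 1 * (g : Matrix (Fin 2) (Fin 2) K) 1 0 = 1 := by
      have := g.2
      rwa [Matrix.det_fin_two] at this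
    have : g = spXm (((g : Matrix (Fin 2) (Fin 2) K) 0 0 - 1) / (g : Matrix (Fin 2) (Fin 2) K) 1 0)
        * spYm ((g : Matrix (Fin 2) (Fin 2) K) 1 0)
        * spXm (((g : Matrix (Fin 2) (Fin 2) K) 1 1 - 1) / (g : Matrix (Fin 2) (Fin 2) K) 1 0) := by
      apply sl2_ext
      all_goals simp [spXm_coe, spYm_coe, Matrix.mul_apply, Fin.sum_univ_two]
      all_goals field_simp
      all_goals (first | ring1 | linear_combination (-1 : K) * hdet | linear_combination hdet)
    rw [this]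
    exact mul_mem (mul_mem (hx _) (hy _)) (hx _)
  by_cases hc : (g : Matrix (Fin 2) (Fin 2) K) 1 0 = 0
  · have hdet : (g : Matrix (Fin 2) (Fin 2) K) 0 0 * (g : Matrix (Fin 2) (Fin 2) K) 1 1
        - (g : Matrix (Fin 2) (Fin 2) K) 0 1 * (g : Matrix (Fin 2) (Fin 2) K) 1 0 = 1 := by
      have := g.2
      rwa [Matrix.det_fin_two] at this
    have ha : (g : Matrix (Fin 2) (Fin 2) K) 0 0 ≠ 0 := by
      intro h
      rw [h, hc] at hdet
      simp at hdet
    have h1 : spYm 1 * g ∈ Subgroup.closure (Set.range fun p : Bool × K =>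
        (spM p.1 p.2 : Matrix.SpecialLinearGroup (Fin 2) K)) := by
      apply main
      simp [spYm_coe, Matrix.mul_apply, Fin.sum_univ_two, hc, ha]
    have : g = (spYm 1)⁻¹ * (spYm 1 * g) := by group
    rw [this]
    exact mul_mem (inv_mem (hy 1)) h1
  · exact main g hc

end Cfsg.Agent.Lib.Helper48
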