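import Mathlib
import Cfsg.Agent.S2426

set_option autoImplicit false

/-! # Steinberg presentation of `SL_n` over a finite field: foundation (helper48, for S2401/S2287)

Abstract setting: a group `G` with a family of "root elements" `X i j t` (`i ≠ j` in `Fin n`,
`t ∈ K`) satisfying the Steinberg relations `StRel`. -/

namespace Cfsg.Agent.Lib.Helper48.St

open Cfsg.Agent.Lib.Helper48

/-- From the rank-one Steinberg presentation (S2426): any pair of families satisfying the rank-one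
relations `SPRel` is the image of the elementary matrices under a homomorphism from `SL₂(K)`. -/
theorem sl2_hom {K : Type*} [Field K] [Finite K] {G : Type*} [Group G] (X : Bool → K → G)
    (hX : SPRel X) :
    ∃ ψ : Matrix.SpecialLinearGroup (Fin 2) K →* G, ∀ b t, ψ (spM b t) = X b t := by
  obtain ⟨e, he1, he2⟩ := Cfsg.Agent.S2426.result (K := K)
  have hrel : ∀ r ∈ (({g : FreeGroup (Bool × K) | ∃ (b : Bool) (t u : K), g = FreeGroup.of (b, t) * FreeGroup.of (b, u) * (FreeGroup.of (b, t + u))⁻¹} ∪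
          {g | ∃ (b : Bool) (t u : K), t ≠ 0 ∧
            g = (FreeGroup.of (b, t) * FreeGroup.of (!b, -t⁻¹) * FreeGroup.of (b, t)) * FreeGroup.of (b, u) *
                  (FreeGroup.of (b, t) * FreeGroup.of (!b, -t⁻¹) * FreeGroup.of (b, t))⁻¹ * (FreeGroup.of (!b, -(t⁻¹ ^ 2 * u)))⁻¹}) : Set (FreeGroup (Bool × K))),
      FreeGroup.lift (fun p : Bool × K => X p.1 p.2) r = 1 := by
    intro r hr
    rcases hr with ⟨b, t, u, rfl⟩ | ⟨b, t, u, ht, rfl⟩
    · simp only [map_mul, map_inv, FreeGroup.lift_apply_of]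
      rw [mul_inv_eq_one]
      exact hX.add b t u
    · simp only [map_mul, map_inv, FreeGroup.lift_apply_of]
      rw [mul_inv_eq_one]
      exact hX.conj b t u ht
  refine ⟨(PresentedGroup.toGroup hrel).comp e.symm.toMonoidHom, fun b t => ?_⟩
  have h1 : e (PresentedGroup.of (b, t)) = spM b t := by
    apply Subtype.ext
    cases b
    · rw [he2]; rfl
    · rw [he1]; rfl
  rw [← h1]
  simp

variable {K : Type*} [Field K] {G : Type*} [Group G] {n : ℕ}

/-- The Steinberg relations for a family of root elements `X i j t` (`i ≠ j`). -/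
structure StRel (X : Fin n → Fin n → K → G) : Prop where
  add : ∀ i j, i ≠ j → ∀ t u, X i j t * X i j u = X i j (t + u)
  comm : ∀ i j k l, i ≠ j → k ≠ l → i ≠ l → j ≠ k → ∀ t u,
    X i j t * X k l u = X k l u * X i j t
  comm3 : ∀ i j l, i ≠ j → j ≠ l → i ≠ l → ∀ t u,
    X i j t * X j l u * (X i j t)⁻¹ * (X j l u)⁻¹ = X i l (t * u)

/-- `w_ij(t) = x_ij(t) x_ji(-t⁻¹) x_ij(t)` -/
def stW (X : Fin n → Fin n → K → G) (i j : Fin n) (t : K) : G :=
  X i j t * X j i (-t⁻¹) * X i j t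

/-- `h_ij(t) = w_ij(t) w_ij(1)⁻¹` -/
def stH (X : Fin n → Fin n → K → G) (i j : Fin n) (t : K) : G :=
  stW X i j t * (stW X i j 1)⁻¹

/-- the monomial coefficients of `w_ij(t)`: `w e_i = -t⁻¹ e_j`, `w e_j = t e_i`, `w e_k = e_k`. -/
def stM (i j : Fin n) (t : K) : Fin n → K :=
  fun k => if k = i then -t⁻¹ else if k = j then t else 1

/-- `ν` acts on the root elements like the monomial matrix `e_k ↦ m_k e_{σ k}`. -/
def IsMon (X : Fin n → Fin n → K → G) (ν : G) (σ : Equiv.Perm (Fin n)) (m : Fin n → K) : Prop :=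
  (∀ k, m k ≠ 0) ∧
    ∀ k l, k ≠ l → ∀ u, ν * X k l u * ν⁻¹ = X (σ k) (σ l) (m k * (m l)⁻¹ * u)

/-- the subgroup generated by the `w_ij(t)` -/
def stN (X : Fin n → Fin n → K → G) : Subgroup G :=
  Subgroup.closure {g | ∃ i j t, i ≠ j ∧ t ≠ 0 ∧ g = stW X i j t}

/-- the subgroup generated by the positive root elements -/
def stU (X : Fin n → Fin n → K → G) : Subgroup G :=
  Subgroup.closure {g | ∃ i j t, i < j ∧ g = X i j t}

/-- the subgroup generated by the `h_ij(t)` -/
def stT (X : Fin n → Fin n → K → G) : Subgroup G :=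
  Subgroup.closure {g | ∃ i j t, i ≠ j ∧ t ≠ 0 ∧ g = stH X i j t}

namespace StRel

variable {X : Fin n → Fin n → K → G} (hX : StRel X)
include hX

theorem zero (i j : Fin n) (hij : i ≠ j) : X i j 0 = 1 := by
  have h := hX.add i j hij 0 0
  rw [add_zero] at h
  exact mul_eq_left.mp h

theorem inv (i j : Fin n) (hij : i ≠ j) (t : K) : (X i j t)⁻¹ = X i j (-t) := by
  rw [inv_eq_iff_mul_eq_one, hX.add i j hij, add_neg_cancel, hX.zero i j hij]

/-- `x_ij(t) x_jl(u) x_ij(t)⁻¹ = x_il(tu) x_jl(u)` -/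
theorem cj (i j l : Fin n) (hij : i ≠ j) (hjl : j ≠ l) (hil : i ≠ l) (t u : K) :
    X i j t * X j l u * (X i j t)⁻¹ = X i l (t * u) * X j l u := by
  rw [← hX.comm3 i j l hij hjl hil t u]
  group

/-- `x_jl(u) x_ij(t) x_jl(u)⁻¹ = x_il(-(tu)) x_ij(t)` -/
theorem cj' (i j l : Fin n) (hij : i ≠ j) (hjl : j ≠ l) (hil : i ≠ l) (t u : K) :
    X j l u * X i j t * (X j l u)⁻¹ = X i l (-(t * u)) * X i j t := by
  rw [← hX.inv i l hil, ← hX.comm3 i j l hij hjl hil t u]
  group

/-- commuting root elements, conjugation form -/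
theorem cj0 (i j k l : Fin n) (hij : i ≠ j) (hkl : k ≠ l) (hil : i ≠ l) (hjk : j ≠ k) (t u : K) :
    X i j t * X k l u * (X i j t)⁻¹ = X k l u := by
  rw [hX.comm i j k l hij hkl hil hjk t u]
  group

theorem stW_inv (i j : Fin n) (hij : i ≠ j) (t : K) : (stW X i j t)⁻¹ = stW X i j (-t) := by
  unfold stW
  rw [mul_inv_rev, mul_inv_rev, hX.inv i j hij, hX.inv j i hij.symm, inv_neg, neg_neg, mul_assoc]

end StRel

end Cfsg.Agent.Lib.Helper48.St
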