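import Mathlib
import Cfsg.Agent.Lib.Helper48.StA

set_option autoImplicit false

/-! # Steinberg presentation of `SL_n`: foundation, part 2 (helper48, for S2401)

Generic lemmas on monomial elements (`IsMon`) and the Prop-bundles through which the pieces of the
proof talk to each other. -/

namespace Cfsg.Agent.Lib.Helper48.St

open Cfsg.Agent.Lib.Helper48

variable {K : Type*} [Field K] {G : Type*} [Group G] {n : ℕ}
variable {X : Fin n → Fin n → K → G}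

theorem isMon_one : IsMon X (1 : G) 1 (fun _ => 1) := by
  refine ⟨fun _ => one_ne_zero, fun k l _ u => ?_⟩
  simp

theorem isMon_mul {ν₁ ν₂ : G} {σ₁ σ₂ : Equiv.Perm (Fin n)} {m₁ m₂ : Fin n → K}
    (h₁ : IsMon X ν₁ σ₁ m₁) (h₂ : IsMon X ν₂ σ₂ m₂) :
    IsMon X (ν₁ * ν₂) (σ₁ * σ₂) (fun k => m₁ (σ₂ k) * m₂ k) := by
  refine ⟨fun k => mul_ne_zero (h₁.1 _) (h₂.1 _), fun k l hkl u => ?_⟩
  have e : ν₁ * ν₂ * X k l u * (ν₁ * ν₂)⁻¹ = ν₁ * (ν₂ * X k l u * ν₂⁻¹) * ν₁⁻¹ := by group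
  rw [e, h₂.2 k l hkl u, h₁.2 (σ₂ k) (σ₂ l) (fun h => hkl (σ₂.injective h))]
  simp only [Equiv.Perm.mul_apply]
  congr 1
  have := h₂.1 l
  have := h₁.1 (σ₂ l)
  field_simp

theorem isMon_inv {ν : G} {σ : Equiv.Perm (Fin n)} {m : Fin n → K} (h : IsMon X ν σ m) :
    IsMon X ν⁻¹ σ⁻¹ (fun k => (m (σ⁻¹ k))⁻¹) := by
  refine ⟨fun k => inv_ne_zero (h.1 _), fun k l hkl u => ?_⟩
  have h1 := h.2 (σ⁻¹ k) (σ⁻¹ l) (fun e => hkl (σ⁻¹.injective e))
    ((m (σ⁻¹ k))⁻¹ * ((m (σ⁻¹ l))⁻¹)⁻¹ * u)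
  have hk : σ (σ⁻¹ k) = k := by simp
  have hl : σ (σ⁻¹ l) = l := by simp
  rw [hk, hl] at h1
  have h2 : m (σ⁻¹ k) * (m (σ⁻¹ l))⁻¹ * ((m (σ⁻¹ k))⁻¹ * ((m (σ⁻¹ l))⁻¹)⁻¹ * u) = u := by
    have := h.1 (σ⁻¹ k)
    have := h.1 (σ⁻¹ l)
    field_simp
  rw [h2] at h1
  rw [← h1]
  group

/-- the action of a monomial element on the `w`'s -/
theorem isMon_conj_W {ν : G} {σ : Equiv.Perm (Fin n)} {m : Fin n → K} (h : IsMon X ν σ m)
    (k l : Fin n) (hkl : k ≠ l) (u : K) :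
    ν * stW X k l u * ν⁻¹ = stW X (σ k) (σ l) (m k * (m l)⁻¹ * u) := by
  unfold stW
  have e : ν * (X k l u * X l k (-u⁻¹) * X k l u) * ν⁻¹ =
      (ν * X k l u * ν⁻¹) * (ν * X l k (-u⁻¹) * ν⁻¹) * (ν * X k l u * ν⁻¹) := by group
  rw [e, h.2 k l hkl, h.2 l k hkl.symm]
  congr 2
  have hk := h.1 k
  have hl := h.1 l
  rw [mul_inv, mul_inv, inv_inv]
  ring_nf

/-- `w_ij(t)` acts monomially, for all `i ≠ j`, `t ≠ 0` -/
def WMon (X : Fin n → Fin n → K → G) : Prop :=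
  ∀ i j : Fin n, i ≠ j → ∀ t : K, t ≠ 0 → IsMon X (stW X i j t) (Equiv.swap i j) (stM i j t)

theorem isMon_N (hW : WMon X) : ∀ ν ∈ stN X, ∃ σ m, IsMon X ν σ m := by
  intro ν hν
  induction hν using Subgroup.closure_induction with
  | mem x hx =>
    obtain ⟨i, j, t, hij, ht, rfl⟩ := hx
    exact ⟨_, _, hW i j hij t ht⟩
  | one => exact ⟨1, _, isMon_one⟩
  | mul x y _ _ hx hy =>
    obtain ⟨σ₁, m₁, h₁⟩ := hx
    obtain ⟨σ₂, m₂, h₂⟩ := hy
    exact ⟨_, _, isMon_mul h₁ h₂⟩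
  | inv x _ hx =>
    obtain ⟨σ₁, m₁, h₁⟩ := hx
    exact ⟨_, _, isMon_inv h₁⟩

theorem isMon_H (hW : WMon X) (i j : Fin n) (hij : i ≠ j) (t : K) (ht : t ≠ 0) :
    IsMon X (stH X i j t) 1 (fun k => if k = i then t else if k = j then t⁻¹ else 1) := by
  have h := isMon_mul (hW i j hij t ht) (isMon_inv (hW i j hij 1 one_ne_zero))
  have e1 : Equiv.swap i j * (Equiv.swap i j)⁻¹ = 1 := mul_inv_cancel _
  have e2 : (fun k => stM i j t ((Equiv.swap i j)⁻¹ k) * (stM i j (1 : K) ((Equiv.swap i j)⁻¹ k))⁻¹) =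
      (fun k => if k = i then t else if k = j then t⁻¹ else 1) := by
    funext k
    rw [Equiv.swap_inv]
    by_cases hki : k = i
    · subst hki
      simp [stM, Equiv.swap_apply_left, hij.symm]
    · by_cases hkj : k = j
      · subst hkj
        simp [stM, Equiv.swap_apply_right, hki]
      · simp [stM, Equiv.swap_apply_of_ne_of_ne hki hkj, hki, hkj]
  rw [e1, e2] at h
  exact h

theorem isMon_T (hW : WMon X) : ∀ h ∈ stT X, ∃ m, IsMon X h 1 m := by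
  intro h hh
  induction hh using Subgroup.closure_induction with
  | mem x hx =>
    obtain ⟨i, j, t, hij, ht, rfl⟩ := hx
    exact ⟨_, isMon_H hW i j hij t ht⟩
  | one => exact ⟨_, isMon_one⟩
  | mul x y _ _ hx hy =>
    obtain ⟨m₁, h₁⟩ := hx
    obtain ⟨m₂, h₂⟩ := hy
    have := isMon_mul h₁ h₂
    rw [mul_one] at this
    exact ⟨_, this⟩
  | inv x _ hx =>
    obtain ⟨m₁, h₁⟩ := hx
    have := isMon_inv h₁
    rw [inv_one] at this
    exact ⟨_, this⟩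

theorem stW_eq (i j : Fin n) (t : K) : stW X i j t = stH X i j t * stW X i j 1 := by
  unfold stH; group

theorem stH_one (i j : Fin n) : stH X i j (1 : K) = 1 := by
  unfold stH; group

/-- consequences of the rank-one (`SL₂`) structure of each pair `(X i j, X j i)` -/
structure SL2Facts (X : Fin n → Fin n → K → G) : Prop where
  H_mul : ∀ i j, i ≠ j → ∀ s t : K, s ≠ 0 → t ≠ 0 → stH X i j (s * t) = stH X i j s * stH X i j t
  W_swap : ∀ i j, i ≠ j → ∀ t : K, t ≠ 0 → stW X j i t = stW X i j (-t⁻¹)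
  H_swap : ∀ i j, i ≠ j → ∀ t : K, t ≠ 0 → stH X j i t = stH X i j t⁻¹
  W_sq : ∀ i j, i ≠ j → stW X i j (1 : K) * stW X i j 1 = stH X i j (-1)
  W_X_W : ∀ i j, i ≠ j → ∀ t s : K, t ≠ 0 → s ≠ 0 →
    stW X i j t * X i j s * stW X i j 1 =
      X i j (-(t ^ 2 * s⁻¹)) * stW X i j (-(t * s⁻¹)) * X i j (-s⁻¹)

/-- relations among the torus elements -/
structure TorFacts (X : Fin n → Fin n → K → G) : Prop where
  H_rel : ∀ a b c : Fin n, a ≠ b → a ≠ c → b ≠ c → ∀ t : K, t ≠ 0 →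
    stH X b c t = stH X a c t * stH X a b t⁻¹
  H_comm : ∀ i j k l : Fin n, i ≠ j → k ≠ l → ∀ s t : K, s ≠ 0 → t ≠ 0 →
    stH X i j s * stH X k l t = stH X k l t * stH X i j s

/-- the positive root elements other than those of the root `(a,b)` -/
def stUa (X : Fin n → Fin n → K → G) (a b : Fin n) : Subgroup G :=
  Subgroup.closure {g | ∃ k l t, k < l ∧ (k ≠ a ∨ l ≠ b) ∧ g = X k l t}

end Cfsg.Agent.Lib.Helper48.St
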