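import Mathlib
import Cfsg.Agent.Lib.Helper48.StB
import Cfsg.Agent.Lib.Helper47.SLGen
import Cfsg.Agent.Lib.Helper29.StCONJ1
import Cfsg.Agent.Lib.Helper29.StCONJ2
import Cfsg.Agent.Lib.Helper18.StSL2X
import Cfsg.Agent.Lib.Helper21.StTORA
import Cfsg.Agent.Lib.Helper55.StTORB
import Cfsg.Agent.Lib.Helper77.StTRANSP
import Cfsg.Agent.Lib.Helper12.StNKER
import Cfsg.Agent.Lib.Helper12.StBR1
import Cfsg.Agent.Lib.Helper19.StBR2
import Cfsg.Agent.Lib.Helper62.StBR3
import Cfsg.Agent.Lib.Helper23.StUINJ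
import Cfsg.Agent.Lib.Helper2.StMONU

set_option autoImplicit false

/-! # Steinberg presentation of `SL_n` over a finite field (S2401): assembly (helper48)

`st_inj`: a group generated by root elements satisfying the Steinberg relations maps injectively
to `SL_n(K)` (`n ≥ 3`, `K` finite). Pieces by helpers 2, 12, 18, 19, 21, 23, 29, 55, 62, 77. -/

namespace Cfsg.Agent.Lib.Helper48.St

open Cfsg.Agent.Lib.Helper48 Matrix

variable {K : Type*} [Field K] {G : Type*} [Group G] {n : ℕ}
variable {X : Fin n → Fin n → K → G}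

theorem h48_wMon_of_conj
    (h0 : ∀ (i j : Fin n), i ≠ j → ∀ (t : K), t ≠ 0 → ∀ (k l : Fin n), k ≠ l → k ≠ i → k ≠ j →
      l ≠ i → l ≠ j → ∀ u : K, stW X i j t * X k l u * (stW X i j t)⁻¹ = X k l u)
    (h1 : ∀ (i j : Fin n), i ≠ j → ∀ (t : K), t ≠ 0 → ∀ (l : Fin n), l ≠ i → l ≠ j → ∀ u : K,
      stW X i j t * X i l u * (stW X i j t)⁻¹ = X j l (-t⁻¹ * u))
    (h2 : ∀ (i j : Fin n), i ≠ j → ∀ (t : K), t ≠ 0 → ∀ (l : Fin n), l ≠ i → l ≠ j → ∀ u : K,
      stW X i j t * X j l u * (stW X i j t)⁻¹ = X i l (t * u))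
    (h3 : ∀ (i j : Fin n), i ≠ j → ∀ (t : K), t ≠ 0 → ∀ (k : Fin n), k ≠ i → k ≠ j → ∀ u : K,
      stW X i j t * X k i u * (stW X i j t)⁻¹ = X k j (-t * u))
    (h4 : ∀ (i j : Fin n), i ≠ j → ∀ (t : K), t ≠ 0 → ∀ (k : Fin n), k ≠ i → k ≠ j → ∀ u : K,
      stW X i j t * X k j u * (stW X i j t)⁻¹ = X k i (t⁻¹ * u))
    (h5 : ∀ (i j : Fin n), i ≠ j → ∀ (t : K), t ≠ 0 → ∀ u : K,
      stW X i j t * X i j u * (stW X i j t)⁻¹ = X j i (-(t⁻¹ ^ 2 * u)))
    (h6 : ∀ (i j : Fin n), i ≠ j → ∀ (t : K), t ≠ 0 → ∀ u : K,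
      stW X i j t * X j i u * (stW X i j t)⁻¹ = X i j (-(t ^ 2 * u))) :
    WMon X := by
  intro i j hij t ht
  refine ⟨fun k => ?_, fun k l hkl u => ?_⟩
  · unfold stM
    split_ifs
    · exact neg_ne_zero.mpr (inv_ne_zero ht)
    · exact ht
    · exact one_ne_zero
  · by_cases hki : k = i
    · subst hki
      by_cases hlj : l = j
      · subst hlj
        rw [h5 k l hij t ht u, Equiv.swap_apply_left, Equiv.swap_apply_right]
        congr 1
        simp only [stM, if_true, if_neg hij.symm]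
        field_simp
      · have hlk : l ≠ k := fun h => hkl h.symm
        rw [h1 k j hij t ht l hlk hlj u, Equiv.swap_apply_left,
          Equiv.swap_apply_of_ne_of_ne hlk hlj]
        congr 1
        simp [stM, hlk, hlj]
    · by_cases hkj : k = j
      · subst hkj
        by_cases hli : l = i
        · subst hli
          rw [h6 l k hij t ht u, Equiv.swap_apply_left, Equiv.swap_apply_right]
          congr 1
          simp only [stM, if_true, if_neg hki]
          field_simp
        · have hlk : l ≠ k := fun h => hkl h.symm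
          rw [h2 i k hij t ht l hli hlk u, Equiv.swap_apply_right,
            Equiv.swap_apply_of_ne_of_ne hli hlk]
          congr 1
          simp [stM, hki, hli, hlk]
      · by_cases hli : l = i
        · subst hli
          rw [h3 l j hij t ht k hki hkj u, Equiv.swap_apply_left,
            Equiv.swap_apply_of_ne_of_ne hki hkj]
          congr 1
          simp only [stM, if_true, if_neg hki, if_neg hkj]
          field_simp
        · by_cases hlj : l = j
          · subst hlj
            rw [h4 i l hij t ht k hki hkj u, Equiv.swap_apply_right,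
              Equiv.swap_apply_of_ne_of_ne hki hkj]
            congr 1
            simp [stM, hki, hkj, hli]
          · rw [h0 i j hij t ht k l hkl hki hkj hli hlj u,
              Equiv.swap_apply_of_ne_of_ne hki hkj, Equiv.swap_apply_of_ne_of_ne hli hlj]
            congr 1
            simp [stM, hki, hkj, hli, hlj]

theorem exists_third (hn : 3 ≤ n) (i j : Fin n) : ∃ m : Fin n, m ≠ i ∧ m ≠ j := by
  by_contra hcon
  push Not at hcon
  have h0 := hcon ⟨0, by omega⟩
  have h1 := hcon ⟨1, by omega⟩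
  have h2 := hcon ⟨2, by omega⟩
  have key : ∀ a b c : Fin n, a ≠ b → a ≠ c → b ≠ c → (a ≠ i → a = j) → (b ≠ i → b = j) →
      (c ≠ i → c = j) → False := by
    intro a b c hab hac hbc ha hb hc
    by_cases h1 : a = i
    · by_cases h2 : b = i
      · exact hab (h1.trans h2.symm)
      · by_cases h3 : c = i
        · exact hac (h1.trans h3.symm)
        · exact hbc ((hb h2).trans (hc h3).symm)
    · by_cases h2 : b = i
      · by_cases h3 : c = i
        · exact hbc (h2.trans h3.symm)
        · exact hac ((ha h1).trans (hc h3).symm)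
      · exact hab ((ha h1).trans (hb h2).symm)
  exact key ⟨0, by omega⟩ ⟨1, by omega⟩ ⟨2, by omega⟩ (by simp [Fin.ext_iff]) (by simp [Fin.ext_iff])
    (by simp [Fin.ext_iff]) h0 h1 h2

theorem wMon (hX : StRel X) (hn : 3 ≤ n) : WMon X := by
  have h5 : ∀ (i j : Fin n), i ≠ j → ∀ (t : K), t ≠ 0 → ∀ u : K,
      stW X i j t * X i j u * (stW X i j t)⁻¹ = X j i (-(t⁻¹ ^ 2 * u)) := by
    intro i j hij t ht u
    obtain ⟨m, hmi, hmj⟩ := exists_third hn i j
    exact conj_W_ij hX i j m hij hmi hmj t ht (conj_W_il hX i j hij t ht m hmi hmj)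
      (conj_W_kj hX i j hij t ht m hmi hmj) u
  have h6 : ∀ (i j : Fin n), i ≠ j → ∀ (t : K), t ≠ 0 → ∀ u : K,
      stW X i j t * X j i u * (stW X i j t)⁻¹ = X i j (-(t ^ 2 * u)) := by
    intro i j hij t ht u
    obtain ⟨m, hmi, hmj⟩ := exists_third hn i j
    exact conj_W_ji hX i j m hij hmi hmj t ht (conj_W_jl hX i j hij t ht m hmi hmj)
      (conj_W_ki hX i j hij t ht m hmi hmj) u
  exact h48_wMon_of_conj (fun i j hij t _ k l hkl hki hkj hli hlj u =>
      conj_W_disj hX i j hij t k l hkl hki hkj hli hlj u)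
    (fun i j hij t ht l hli hlj u => conj_W_il hX i j hij t ht l hli hlj u)
    (fun i j hij t ht l hli hlj u => conj_W_jl hX i j hij t ht l hli hlj u)
    (fun i j hij t ht k hki hkj u => conj_W_ki hX i j hij t ht k hki hkj u)
    (fun i j hij t ht k hki hkj u => conj_W_kj hX i j hij t ht k hki hkj u) h5 h6

theorem spRel_pair (hX : StRel X) (hW : WMon X) (i j : Fin n) (hij : i ≠ j) :
    SPRel (fun (b : Bool) (t : K) => if b then X i j t else X j i t) := by
  constructor
  · intro b t u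
    cases b
    · simpa using hX.add j i hij.symm t u
    · simpa using hX.add i j hij t u
  · intro b t u ht
    cases b
    · have h := (hW j i hij.symm t ht).2 j i hij.symm u
      have e : stM j i t j * (stM j i t i)⁻¹ * u = -(t⁻¹ ^ 2 * u) := by
        simp only [stM, if_true, if_neg hij]
        field_simp
      rw [e, Equiv.swap_apply_left, Equiv.swap_apply_right] at h
      simpa [stW] using h
    · have h := (hW i j hij t ht).2 i j hij u
      have e : stM i j t i * (stM i j t j)⁻¹ * u = -(t⁻¹ ^ 2 * u) := by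
        simp only [stM, if_true, if_neg hij.symm]
        field_simp
      rw [e, Equiv.swap_apply_left, Equiv.swap_apply_right] at h
      simpa [stW] using h

theorem nker (hW : WMon X) (hS : SL2Facts X)
    (π : G →* Matrix.SpecialLinearGroup (Fin n) K)
    (hπ : ∀ i j (hij : i ≠ j) t, π (X i j t) = Matrix.SpecialLinearGroup.transvection hij t) :
    ∀ ν ∈ stN X, ∀ m, IsMon X ν 1 m → ν ∈ stT X := by
  obtain ⟨h1, h2, h3, h4, h5⟩ := nker_hyps hW hS π hπ
  have key := transp (stT X) (fun i j => stW X i j (1 : K)) (fun ν σ => ∃ m, IsMon X ν σ m)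
    h1 h2 h3 h4 (isMon_T hW) (fun i j hij => ⟨_, hW i j hij 1 one_ne_zero⟩)
    (fun g g' σ σ' hg hg' => by
      obtain ⟨m, hm⟩ := hg
      obtain ⟨m', hm'⟩ := hg'
      exact ⟨_, isMon_mul hm hm'⟩)
    (fun g σ σ' hg hg' => by
      obtain ⟨m, hm⟩ := hg
      obtain ⟨m', hm'⟩ := hg'
      exact h5 g σ σ' m m' hm hm')
  intro ν hν m hm
  refine key ν ?_ ⟨m, hm⟩
  have hle : stN X ≤ Subgroup.closure ((stT X : Set G) ∪
      {g | ∃ i j, i ≠ j ∧ g = stW X i j (1 : K)}) := by
    unfold stN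
    rw [Subgroup.closure_le]
    rintro _ ⟨i, j, t, hij, ht, rfl⟩
    rw [stW_eq]
    exact mul_mem (Subgroup.subset_closure (Or.inl (Subgroup.subset_closure ⟨i, j, t, hij, ht, rfl⟩)))
      (Subgroup.subset_closure (Or.inr ⟨i, j, hij, rfl⟩))
  exact hle hν

theorem st_inj [Finite K] (hX : StRel X) (hn : 3 ≤ n)
    (hgen : Subgroup.closure {g | ∃ i j t, i ≠ j ∧ g = X i j t} = ⊤)
    (π : G →* Matrix.SpecialLinearGroup (Fin n) K)
    (hπ : ∀ i j (hij : i ≠ j) t, π (X i j t) = Matrix.SpecialLinearGroup.transvection hij t) :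
    Function.Injective π := by
  have hW : WMon X := wMon hX hn
  have hS : SL2Facts X := sl2Facts (fun i j hij => spRel_pair hX hW i j hij)
  have hT : TorFacts X := torFacts hW hS
  have hbr := bruhat hX hW hS
    (fun a b hab => stU_decomp hX a b (by rw [Fin.lt_def]; omega))
    (fun a b hab t ht => stUa_conj_W hW a b hab t ht) (gen_UW hX hW hgen)
  rw [injective_iff_map_eq_one]
  intro g hg
  obtain ⟨u₁, hu₁, ν, hν, u₂, hu₂, rfl⟩ := hbr g
  have hν' : π ν = π (u₁⁻¹ * u₂⁻¹) := by
    rw [map_mul, map_mul] at hg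
    rw [map_mul, map_inv, map_inv]
    have h1 : π ν = (π u₁)⁻¹ * (π u₁ * π ν * π u₂) * (π u₂)⁻¹ := by group
    rw [h1, hg]; group
  have hup := stU_upper hX π hπ (u₁⁻¹ * u₂⁻¹) (mul_mem (inv_mem hu₁) (inv_mem hu₂))
  obtain ⟨σ, m, hmon⟩ := isMon_N hW ν hν
  have hσ : σ = 1 := mon_upper (by omega) π hπ hmon (by rw [hν']; exact hup.1)
  subst hσ
  have hνT : ν ∈ stT X := nker hW hS π hπ ν hν m hmon
  have hν1 : ν = 1 := torus_inj (by omega) hW hS hT π hπ ν hνT (by rw [hν']; exact hup.2)
  subst hν1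
  rw [mul_one] at hg ⊢
  exact stU_inj hX π hπ _ (mul_mem hu₁ hu₂) hg

theorem st_surj (π : G →* Matrix.SpecialLinearGroup (Fin n) K) (hn : 2 ≤ n)
    (hπ : ∀ i j (hij : i ≠ j) t, π (X i j t) = Matrix.SpecialLinearGroup.transvection hij t) :
    Function.Surjective π := by
  have : Nontrivial (Fin n) := Fin.nontrivial_iff_two_le.mpr hn
  rw [← MonoidHom.range_eq_top]
  apply Cfsg.Agent.Lib.Helper47.eq_top_of_transvection_mem
  intro i j hij c
  exact ⟨X i j c, hπ i j hij c⟩

end Cfsg.Agent.Lib.Helper48.St
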