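import Mathlib
import Cfsg.Agent.S2401
import Cfsg.Agent.Lib.Helper70.SchurCE2
import Cfsg.Agent.Lib.Helper70.SchurLocal

set_option autoImplicit false
open scoped commutatorElement

/-! # Schur multiplier of `SL_n(q)` (helper48, for S2086): foundation

A central extension `σ : Γ →* G` (surjective, `σ.ker ≤ center Γ`).  Commutators `⁅u, v⁆` of lifts
depend only on `σ u`, `σ v`.  `CL σ g h` says: all lifts of `g` commute with all lifts of `h`. -/

namespace Cfsg.Agent.Lib.Helper48.Mul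

open Cfsg.Agent.Lib.Helper48 Cfsg.Agent.Lib.Helper48.St Cfsg.Agent.Lib.Helper70

section lifts

variable {Γ G : Type*} [Group Γ] [Group G] {σ : Γ →* G}

/-- two lifts of the same element differ by a central element -/
theorem lift_eq_mul_central (hc : σ.ker ≤ Subgroup.center Γ) {u u' : Γ} (hu : σ u = σ u') :
    ∃ z ∈ Subgroup.center Γ, u' = u * z := by
  refine ⟨u⁻¹ * u', hc ?_, by group⟩
  rw [MonoidHom.mem_ker, map_mul, map_inv, hu, inv_mul_cancel]

/-- (L0) the commutator of two lifts depends only on the lifted elements -/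
theorem lift_comm_eq (hc : σ.ker ≤ Subgroup.center Γ) {u u' v v' : Γ} (hu : σ u = σ u')
    (hv : σ v = σ v') : ⁅u, v⁆ = ⁅u', v'⁆ := by
  obtain ⟨z, hz, rfl⟩ := lift_eq_mul_central hc hu
  obtain ⟨w, hw, rfl⟩ := lift_eq_mul_central hc hv
  exact (commutatorElement_mul_central u v z w hz hw).symm

/-- (L1) the commutator of lifts of commuting elements lies in the kernel -/
theorem lift_comm_mem_ker {u v : Γ} (h : Commute (σ u) (σ v)) : ⁅u, v⁆ ∈ σ.ker := by
  rw [MonoidHom.mem_ker, map_commutatorElement, commutatorElement_eq_one_iff_commute]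
  exact h

/-- (L1') ... hence is central -/
theorem lift_comm_mem_center (hc : σ.ker ≤ Subgroup.center Γ) {u v : Γ}
    (h : Commute (σ u) (σ v)) : ⁅u, v⁆ ∈ Subgroup.center Γ := hc (lift_comm_mem_ker h)

/-- conjugation by `u` moves `v` by the central element `⁅u, v⁆` when the images commute -/
theorem conj_eq_comm_mul (u v : Γ) : u * v * u⁻¹ = ⁅u, v⁆ * v := by
  rw [commutatorElement_def]; group

/-- (L2, Milnor) if `σ u` commutes with `σ v` and `σ w`, then `u` commutes with `⁅v, w⁆`. -/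
theorem commute_lift_comm (hc : σ.ker ≤ Subgroup.center Γ) {u v w : Γ}
    (h1 : Commute (σ u) (σ v)) (h2 : Commute (σ u) (σ w)) : Commute u ⁅v, w⁆ := by
  have hv : σ (u * v * u⁻¹) = σ v := by
    rw [map_mul, map_mul, map_inv, h1.eq, mul_inv_cancel_right]
  have hw : σ (u * w * u⁻¹) = σ w := by
    rw [map_mul, map_mul, map_inv, h2.eq, mul_inv_cancel_right]
  have h3 : u * ⁅v, w⁆ * u⁻¹ = ⁅u * v * u⁻¹, u * w * u⁻¹⁆ := by
    simp only [commutatorElement_def]; group
  have h4 : u * ⁅v, w⁆ * u⁻¹ = ⁅v, w⁆ := by rw [h3]; exact lift_comm_eq hc hv hw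
  show u * ⁅v, w⁆ = ⁅v, w⁆ * u
  calc u * ⁅v, w⁆ = (u * ⁅v, w⁆ * u⁻¹) * u := by group
    _ = ⁅v, w⁆ * u := by rw [h4]

/-- all lifts of `g` commute with all lifts of `h` -/
def CL (σ : Γ →* G) (g h : G) : Prop := ∀ u v : Γ, σ u = g → σ v = h → Commute u v

theorem CL.symm {g h : G} (H : CL σ g h) : CL σ h g := fun u v hu hv => (H v u hv hu).symm

/-- it suffices to find one pair of commuting lifts -/
theorem CL_of_exists (hc : σ.ker ≤ Subgroup.center Γ) {g h : G}
    (H : ∃ u v : Γ, σ u = g ∧ σ v = h ∧ Commute u v) : CL σ g h := by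
  obtain ⟨u, v, hu, hv, huv⟩ := H
  intro u' v' hu' hv'
  have h1 : ⁅u', v'⁆ = ⁅u, v⁆ := lift_comm_eq hc (hu'.trans hu.symm) (hv'.trans hv.symm)
  rw [← commutatorElement_eq_one_iff_commute, h1, commutatorElement_eq_one_iff_commute]
  exact huv

/-- `CL` in terms of commutators of arbitrary lifts -/
theorem CL_iff_comm_eq_one (hc : σ.ker ≤ Subgroup.center Γ) {u v : Γ} :
    CL σ (σ u) (σ v) ↔ ⁅u, v⁆ = 1 := by
  constructor
  · intro H
    rw [commutatorElement_eq_one_iff_commute]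
    exact H u v rfl rfl
  · intro H
    exact CL_of_exists hc ⟨u, v, rfl, rfl, commutatorElement_eq_one_iff_commute.mp H⟩

/-- (P1) `⁅u, v * v'⁆ = ⁅u, v⁆ * ⁅u, v'⁆` when `⁅u, v'⁆` commutes with `v` -/
theorem comm_mul_right_of_commute {u v v' : Γ} (h : Commute v ⁅u, v'⁆) :
    ⁅u, v * v'⁆ = ⁅u, v⁆ * ⁅u, v'⁆ := by
  have h1 : ⁅u, v * v'⁆ = ⁅u, v⁆ * (v * ⁅u, v'⁆ * v⁻¹) := by
    simp only [commutatorElement_def]; group
  rw [h1, h.eq, mul_inv_cancel_right]

/-- (P2) `⁅u * u', v⁆ = ⁅u', v⁆ * ⁅u, v⁆` when `⁅u', v⁆` commutes with `u` -/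
theorem comm_mul_left_of_commute {u u' v : Γ} (h : Commute u ⁅u', v⁆) :
    ⁅u * u', v⁆ = ⁅u', v⁆ * ⁅u, v⁆ := by
  have h1 : ⁅u * u', v⁆ = (u * ⁅u', v⁆ * u⁻¹) * ⁅u, v⁆ := by
    simp only [commutatorElement_def]; group
  rw [h1, h.eq, mul_inv_cancel_right]

/-- (P1') bimultiplicativity on commuting pairs, right variable -/
theorem comm_mul_right_of_central (hc : σ.ker ≤ Subgroup.center Γ) {u v v' : Γ}
    (h : Commute (σ u) (σ v')) : ⁅u, v * v'⁆ = ⁅u, v⁆ * ⁅u, v'⁆ :=
  comm_mul_right_of_commute (Subgroup.mem_center_iff.mp (lift_comm_mem_center hc h) v)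

/-- (P2') bimultiplicativity on commuting pairs, left variable -/
theorem comm_mul_left_of_central (hc : σ.ker ≤ Subgroup.center Γ) {u u' v : Γ}
    (h : Commute (σ u') (σ v)) : ⁅u * u', v⁆ = ⁅u', v⁆ * ⁅u, v⁆ :=
  comm_mul_left_of_commute (Subgroup.mem_center_iff.mp (lift_comm_mem_center hc h) u)

/-- (P3) conjugation invariance -/
theorem conj_comm (t u v : Γ) : t * ⁅u, v⁆ * t⁻¹ = ⁅t * u * t⁻¹, t * v * t⁻¹⁆ := by
  simp only [commutatorElement_def]; group

/-- (P3') a central commutator is invariant under simultaneous conjugation of the lifts -/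
theorem comm_conj_of_central (hc : σ.ker ≤ Subgroup.center Γ) {u v : Γ}
    (h : Commute (σ u) (σ v)) (t : Γ) : ⁅t * u * t⁻¹, t * v * t⁻¹⁆ = ⁅u, v⁆ := by
  rw [← conj_comm, Subgroup.mem_center_iff.mp (lift_comm_mem_center hc h) t, mul_inv_cancel_right]

end lifts

section hyps

variable {Γ G : Type*} [Group Γ] [Group G] {K : Type*} [Field K] {n : ℕ}

/-- (A) lifts of elements of one root group commute -/
def HypA (σ : Γ →* G) (x : Fin n → Fin n → K → G) : Prop :=
  ∀ i j, i ≠ j → ∀ a b, CL σ (x i j a) (x i j b)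

/-- (B) lifts of root elements in the same row commute -/
def HypB (σ : Γ →* G) (x : Fin n → Fin n → K → G) : Prop :=
  ∀ i j l, i ≠ j → i ≠ l → j ≠ l → ∀ a b, CL σ (x i j a) (x i l b)

/-- (C) lifts of root elements in the same column commute -/
def HypC (σ : Γ →* G) (x : Fin n → Fin n → K → G) : Prop :=
  ∀ i j l, i ≠ j → i ≠ l → j ≠ l → ∀ a b, CL σ (x i l a) (x j l b)

/-- (D) lifts of root elements with four distinct indices commute -/
def HypD (σ : Γ →* G) (x : Fin n → Fin n → K → G) : Prop :=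
  ∀ i j k l, i ≠ j → i ≠ k → i ≠ l → j ≠ k → j ≠ l → k ≠ l → ∀ a b, CL σ (x i j a) (x k l b)

/-- (E) the commutator of lifts of `x_ij(a)`, `x_jl(b)` only depends on `i`, `l`, `a * b` -/
def HypE (σ : Γ →* G) (x : Fin n → Fin n → K → G) : Prop :=
  ∀ i j j' l, i ≠ j → j ≠ l → i ≠ l → i ≠ j' → j' ≠ l → ∀ (a b : K) (u v u' v' : Γ),
    σ u = x i j a → σ v = x j l b → σ u' = x i j' 1 → σ v' = x j' l (a * b) → ⁅u, v⁆ = ⁅u', v'⁆

end hyps

section sl

variable {K : Type*} [Field K] {n : ℕ}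

/-- the elementary matrices as a family of root elements of `SL_n(K)` -/
noncomputable def slX (i j : Fin n) (a : K) : Matrix.SpecialLinearGroup (Fin n) K :=
  if h : i ≠ j then Matrix.SpecialLinearGroup.transvection h a else 1

theorem slX_of_ne {i j : Fin n} (h : i ≠ j) (a : K) :
    (slX i j a : Matrix.SpecialLinearGroup (Fin n) K) = Matrix.SpecialLinearGroup.transvection h a := by
  unfold slX; rw [dif_pos h]

theorem slX_coe {i j : Fin n} (h : i ≠ j) (a : K) :
    ((slX i j a : Matrix.SpecialLinearGroup (Fin n) K) : Matrix (Fin n) (Fin n) K)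
      = Matrix.transvection i j a := by
  rw [slX_of_ne h]; rfl

theorem slX_rel : StRel (slX : Fin n → Fin n → K → Matrix.SpecialLinearGroup (Fin n) K) := by
  constructor
  · intro i j hij t u
    rw [slX_of_ne hij, slX_of_ne hij, slX_of_ne hij]
    apply Subtype.ext
    rw [Matrix.SpecialLinearGroup.coe_mul]
    exact Matrix.transvection_mul_transvection_same i j hij t u
  · intro i j k l hij hkl hil hjk t u
    rw [slX_of_ne hij, slX_of_ne hkl]
    apply Subtype.ext
    simp only [Matrix.SpecialLinearGroup.coe_mul, Matrix.SpecialLinearGroup.transvection_coe]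
    rw [add_mul, mul_add, mul_add, add_mul, mul_add, mul_add]
    simp only [one_mul, mul_one, Matrix.single_mul_single_of_ne _ _ _ _ hjk,
      Matrix.single_mul_single_of_ne _ _ _ _ hil.symm]
    abel
  · intro i j l hij hjl hil t u
    rw [slX_of_ne hij, slX_of_ne hjl, slX_of_ne hil]
    exact Cfsg.Agent.Lib.Helper47.transvection_comm_eq hij hjl hil t u

/-- `⁅x_ij(a), x_jl(b)⁆ = x_il(a * b)` in commutator notation -/
theorem slX_comm3 {i j l : Fin n} (hij : i ≠ j) (hjl : j ≠ l) (hil : i ≠ l) (a b : K) :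
    ⁅(slX i j a : Matrix.SpecialLinearGroup (Fin n) K), slX j l b⁆ = slX i l (a * b) := by
  rw [commutatorElement_def]
  exact slX_rel.comm3 i j l hij hjl hil a b

theorem slX_commute {i j k l : Fin n} (hij : i ≠ j) (hkl : k ≠ l) (hil : i ≠ l) (hjk : j ≠ k)
    (a b : K) : Commute (slX i j a : Matrix.SpecialLinearGroup (Fin n) K) (slX k l b) :=
  slX_rel.comm i j k l hij hkl hil hjk a b

theorem slX_add {i j : Fin n} (hij : i ≠ j) (a b : K) :
    (slX i j a : Matrix.SpecialLinearGroup (Fin n) K) * slX i j b = slX i j (a + b) :=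
  slX_rel.add i j hij a b

theorem slX_zero (i j : Fin n) : (slX i j (0 : K) : Matrix.SpecialLinearGroup (Fin n) K) = 1 := by
  by_cases h : i ≠ j
  · have := slX_add h (0 : K) 0
    rw [add_zero] at this
    exact mul_eq_left.mp this
  · unfold slX; rw [dif_neg h]

/-- **Steinberg presentation (S2401) as a lifting principle**: a family satisfying the Steinberg
relations in any group is the image of the elementary matrices under a homomorphism. -/
theorem sln_hom [Finite K] (hn : 3 ≤ n) {Γ : Type*} [Group Γ] (Y : Fin n → Fin n → K → Γ)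
    (hY : StRel Y) :
    ∃ ψ : Matrix.SpecialLinearGroup (Fin n) K →* Γ, ∀ i j, i ≠ j → ∀ a, ψ (slX i j a) = Y i j a := by
  obtain ⟨e, he⟩ := Cfsg.Agent.S2401.result (K := K) n hn
  have hrel : ∀ r ∈ (({g : FreeGroup ({ij : Fin n × Fin n // ij.1 ≠ ij.2} × K) | ∃ (a : {ij : Fin n × Fin n // ij.1 ≠ ij.2}) (t u : K),
            g = FreeGroup.of (a, t) * FreeGroup.of (a, u) * (FreeGroup.of (a, t + u))⁻¹} ∪
          {g | ∃ (a b : {ij : Fin n × Fin n // ij.1 ≠ ij.2}) (t u : K), a.1.1 ≠ b.1.2 ∧ a.1.2 ≠ b.1.1 ∧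
            g = FreeGroup.of (a, t) * FreeGroup.of (b, u) * (FreeGroup.of (a, t))⁻¹ * (FreeGroup.of (b, u))⁻¹} ∪
          {g | ∃ (a b : {ij : Fin n × Fin n // ij.1 ≠ ij.2}) (h : a.1.1 ≠ b.1.2) (t u : K), a.1.2 = b.1.1 ∧
            g = FreeGroup.of (a, t) * FreeGroup.of (b, u) * (FreeGroup.of (a, t))⁻¹ * (FreeGroup.of (b, u))⁻¹ *
              (FreeGroup.of (⟨(a.1.1, b.1.2), h⟩, t * u))⁻¹}) : Set (FreeGroup ({ij : Fin n × Fin n // ij.1 ≠ ij.2} × K))),
      FreeGroup.lift (fun p : {ij : Fin n × Fin n // ij.1 ≠ ij.2} × K => Y p.1.1.1 p.1.1.2 p.2) r = 1 := by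
    intro r hr
    rcases hr with (⟨a, t, u, rfl⟩ | ⟨a, b, t, u, h1, h2, rfl⟩) | ⟨a, b, h, t, u, h2, rfl⟩
    · simp only [map_mul, map_inv, FreeGroup.lift_apply_of]
      rw [mul_inv_eq_one]
      exact hY.add _ _ a.2 t u
    · simp only [map_mul, map_inv, FreeGroup.lift_apply_of]
      rw [mul_inv_eq_one, mul_inv_eq_iff_eq_mul]
      exact hY.comm _ _ _ _ a.2 b.2 h1 h2 t u
    · simp only [map_mul, map_inv, FreeGroup.lift_apply_of]
      rw [mul_inv_eq_one]
      obtain ⟨⟨a1, a2⟩, ha⟩ := a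
      obtain ⟨⟨b1, b2⟩, hb⟩ := b
      simp only at h h2 ha hb ⊢
      subst h2
      exact hY.comm3 a1 a2 b2 ha hb h t u
  refine ⟨(PresentedGroup.toGroup hrel).comp e.symm.toMonoidHom, fun i j hij a => ?_⟩
  have h1 : e (PresentedGroup.of ((⟨(i, j), hij⟩ : {ij : Fin n × Fin n // ij.1 ≠ ij.2}), a)) = slX i j a := by
    apply Subtype.ext
    rw [he, slX_coe hij]
  rw [← h1]
  simp

/-- a homomorphism of `SL_n(K)` fixing the elementary matrices is the identity -/
theorem sln_hom_eq_id (hn : 2 ≤ n)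
    (τ : Matrix.SpecialLinearGroup (Fin n) K →* Matrix.SpecialLinearGroup (Fin n) K)
    (hτ : ∀ i j, i ≠ j → ∀ a, τ (slX i j a) = slX i j a) : τ = MonoidHom.id _ := by
  have : Nontrivial (Fin n) := Fin.nontrivial_iff_two_le.mpr hn
  have htop : (τ.eqLocus (MonoidHom.id _)) = ⊤ := by
    apply Cfsg.Agent.Lib.Helper47.eq_top_of_transvection_mem
    intro i j hij c
    show τ _ = _
    have := hτ i j hij c
    rw [slX_of_ne hij] at this
    exact this
  ext1 g
  have hg : g ∈ τ.eqLocus (MonoidHom.id _) := by rw [htop]; trivial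
  exact hg

/-- the diagonal matrix with entries `d i` (product one) -/
noncomputable def slD (d : Fin n → Kˣ) (hd : ∏ i, d i = 1) : Matrix.SpecialLinearGroup (Fin n) K :=
  ⟨Matrix.diagonal (fun i => (d i : K)), by
    rw [Matrix.det_diagonal, ← Units.coe_prod, hd, Units.val_one]⟩

theorem slD_coe (d : Fin n → Kˣ) (hd : ∏ i, d i = 1) :
    ((slD d hd : Matrix.SpecialLinearGroup (Fin n) K) : Matrix (Fin n) (Fin n) K)
      = Matrix.diagonal (fun i => (d i : K)) := rfl

/-- conjugating an elementary matrix by a diagonal matrix -/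
theorem slD_conj (d : Fin n → Kˣ) (hd : ∏ i, d i = 1) {i j : Fin n} (hij : i ≠ j) (a : K) :
    slD d hd * slX i j a * (slD d hd)⁻¹ = slX i j ((d i : K) * ((d j : K))⁻¹ * a) := by
  rw [mul_inv_eq_iff_eq_mul]
  apply Subtype.ext
  rw [Matrix.SpecialLinearGroup.coe_mul, Matrix.SpecialLinearGroup.coe_mul, slX_coe hij,
    slX_coe hij, slD_coe, Matrix.transvection, Matrix.transvection]
  rw [mul_add, add_mul, mul_one, one_mul]
  congr 1
  ext x y
  rw [Matrix.diagonal_mul, Matrix.mul_diagonal, Matrix.single_apply, Matrix.single_apply]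
  by_cases h : i = x ∧ j = y
  · obtain ⟨rfl, rfl⟩ := h
    simp only [and_self, if_true]
    field_simp
  · rw [if_neg h, if_neg h, mul_zero, zero_mul]

/-- the diagonal entries `p` at `i`, `p⁻¹` at `j`, `1` elsewhere -/
def duFun (i j : Fin n) (p : Kˣ) : Fin n → Kˣ := fun k => if k = i then p else if k = j then p⁻¹ else 1

theorem duFun_prod {i j : Fin n} (hij : i ≠ j) (p : Kˣ) : ∏ k, duFun i j p k = 1 := by
  classical
  have h1 : ∀ k : Fin n, duFun i j p k = (if k = i then p else 1) * (if k = j then p⁻¹ else 1) := by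
    intro k
    unfold duFun
    by_cases hki : k = i
    · subst hki
      rw [if_pos rfl, if_pos rfl, if_neg hij, mul_one]
    · rw [if_neg hki, if_neg hki, one_mul]
  rw [Finset.prod_congr rfl (fun k _ => h1 k), Finset.prod_mul_distrib,
    Finset.prod_ite_eq' Finset.univ i (fun _ => p), Finset.prod_ite_eq' Finset.univ j (fun _ => p⁻¹)]
  simp

/-- the diagonal matrix `h_ij(p)`: `p` at `i`, `p⁻¹` at `j`, `1` elsewhere -/
noncomputable def slDu {i j : Fin n} (hij : i ≠ j) (p : Kˣ) : Matrix.SpecialLinearGroup (Fin n) K :=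
  slD (duFun i j p) (duFun_prod hij p)

theorem slDu_conj {i j : Fin n} (hij : i ≠ j) (p : Kˣ) {k l : Fin n} (hkl : k ≠ l) (a : K) :
    slDu hij p * slX k l a * (slDu hij p)⁻¹
      = slX k l ((duFun i j p k : K) * ((duFun i j p l : K))⁻¹ * a) :=
  slD_conj _ _ hkl a

theorem slD_pow (d : Fin n → Kˣ) (hd : ∏ i, d i = 1) (m : ℕ) (hm : ∀ i, d i ^ m = 1) :
    slD d hd ^ m = 1 := by
  apply Subtype.ext
  rw [Matrix.SpecialLinearGroup.coe_pow, slD_coe, Matrix.diagonal_pow, Matrix.SpecialLinearGroup.coe_one,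
    ← Matrix.diagonal_one]
  congr 1
  funext i
  have := hm i
  simp only [Pi.pow_apply, Pi.one_apply]
  rw [← Units.val_pow_eq_pow_val, this, Units.val_one]

end sl

end Cfsg.Agent.Lib.Helper48.Mul
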