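import Mathlib
import Cfsg.Prelude.Def_ParabolicCharacters
import Cfsg.Prelude.Def_ChevStructure

/-!
# Defect zero characters of Chevalley groups: the subgroups

The subgroups `B`, `U`, `X_{p_i}`, `Q_i` (generated by the positive root subgroups other than
`X_{p_i}`) and the minimal parabolic subgroups `P_i`, as subgroups of the Chevalley group itself.
-/

set_option autoImplicit false

namespace Cfsg.Agent.Lib.Helper48.DC

open Cfsg Cfsg.Lie

/-- the Borel subgroup, inside the Chevalley group -/
abbrev Bg (F : Type*) [Field F] (D : ChevalleyDatum) : Subgroup ↥(D.group F) :=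
  (D.borelSubgroup F).subgroupOf (D.group F)

/-- the unipotent subgroup `U`, inside the Chevalley group -/
abbrev Ug (F : Type*) [Field F] (D : ChevalleyDatum) : Subgroup ↥(D.group F) :=
  (D.posUnipotent F).subgroupOf (D.group F)

/-- the root subgroup of the `i`-th fundamental root, inside the Chevalley group -/
abbrev Xg (F : Type*) [Field F] (D : ChevalleyDatum) (i : ℕ) : Subgroup ↥(D.group F) :=
  (D.rootSubgroup F (D.simple i)).subgroupOf (D.group F)

/-- the subgroup generated by the positive root subgroups other than that of the `i`-th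
fundamental root (the unipotent radical of the `i`-th minimal parabolic subgroup) -/
abbrev Ql (F : Type*) [Field F] (D : ChevalleyDatum) (i : ℕ) : Subgroup (GL D.Idx F) :=
  Subgroup.closure {g : GL D.Idx F | ∃ (s : ℕ) (t : F), D.IsPosRoot s ∧ s ≠ D.simple i ∧
    (g : Matrix D.Idx D.Idx F) = D.x F s t}

/-- `Ql`, inside the Chevalley group -/
abbrev Qg (F : Type*) [Field F] (D : ChevalleyDatum) (i : ℕ) : Subgroup ↥(D.group F) :=
  (Ql F D i).subgroupOf (D.group F)

/-- the `i`-th minimal parabolic subgroup -/
abbrev Pg (F : Type*) [Field F] (D : ChevalleyDatum) (i : ℕ) : Subgroup ↥(D.group F) :=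
  D.parabolicIn F {i}

end Cfsg.Agent.Lib.Helper48.DC
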