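import Cfsg.Agent.Lib.Helper22.TGDefs
import Cfsg.Agent.Lib.Helper20.Clifford

/-! S4442 piece TG-CJ (job 896, for helper22): conjugates of irreducible characters. -/

set_option autoImplicit false

namespace Cfsg.Agent.Lib.Helper48.TG

open Cfsg Cfsg.Agent.Lib.Helper22.TG

/-- PIECE CJ -/
theorem cj_irr {G : Type*} [Group G] (K : Subgroup G) (θ : K → ℂ) (hθ : IsIrrCharacter K θ)
    (n : G) (hn : ∀ y ∈ K, n⁻¹ * y * n ∈ K) (hn' : ∀ y ∈ K, n * y * n⁻¹ ∈ K) :
    IsIrrCharacter K (cj K θ n) ∧ cj K θ n 1 = θ 1 := by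
  let f : K →* K :=
    { toFun := fun y => ⟨n⁻¹ * (y : G) * n, hn y y.2⟩
      map_one' := by
        apply Subtype.ext
        simp
      map_mul' := by
        intro a b
        apply Subtype.ext
        simp only [Subgroup.coe_mul]
        group }
  have hf : Function.Surjective f := by
    intro y
    refine ⟨⟨n * (y : G) * n⁻¹, hn' y y.2⟩, ?_⟩
    apply Subtype.ext
    show n⁻¹ * (n * (y : G) * n⁻¹) * n = y
    group
  have hcj : cj K θ n = fun y => θ (f y) := by
    funext y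
    exact cj_apply K θ n y (hn y y.2)
  refine ⟨?_, ?_⟩
  · rw [hcj]
    exact Cfsg.Agent.Lib.Helper20.irr_comp_surjective f hf hθ
  · rw [hcj]
    show θ (f 1) = θ 1
    rw [map_one]

theorem cj_cj {G : Type*} [Group G] (K : Subgroup G) (θ : K → ℂ) (n n' : G)
    (hn' : ∀ y ∈ K, n'⁻¹ * y * n' ∈ K) :
    cj K (cj K θ n) n' = cj K θ (n' * n) := by
  funext y
  rw [cj_apply K (cj K θ n) n' y (hn' y y.2)]
  unfold cj
  congr 1
  show n⁻¹ * (n'⁻¹ * (y : G) * n') * n = (n' * n)⁻¹ * (y : G) * (n' * n)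
  group

end Cfsg.Agent.Lib.Helper48.TG
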