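import Cfsg.Agent.Lib.Helper27.ChevDyn
import Cfsg.Agent.Lib.Helper24.GraphAut
import Cfsg.Agent.Lib.Helper34.ChevDynPU

set_option autoImplicit false

/-! S2156 piece PGr (job 395, for helper27): graph automorphisms of `D₄`, `E₆` preserve `U`, `V`. -/

namespace Cfsg.Agent.Lib.Helper48.ChevDynP

open Cfsg.Lie Cfsg.Agent.Lib.Helper27.PslnOut Cfsg.Agent.Lib.Helper27.DynOut
  Cfsg.Agent.Lib.Helper27.ChevDyn
open Cfsg.Agent.Lib.Helper24

variable {F : Type*} [Field F] (D : ChevalleyDatum)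

set_option maxRecDepth 1000000 in
theorem pgr_D4 (π : Equiv.Perm (Fin chevD4.rank)) (h : chevD4.IsDiagramSymmetry π) :
    (∀ r, chevD4.IsPosRoot r → chevD4.IsPosRoot (chevD4.permRoot π r)) ∧
    (∀ r, chevD4.IsNegRoot r → chevD4.IsNegRoot (chevD4.permRoot π r)) := by
  have key : ∀ π : Equiv.Perm (Fin chevD4.rank),
      (∀ i j : Fin chevD4.rank, i ≠ j → chevD4.bonds (π i) (π j) = chevD4.bonds i j) →
      (∀ r : Fin chevD4.nroots, chevD4.IsPosRoot r → chevD4.IsPosRoot (chevD4.permRoot π r)) ∧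
      (∀ r : Fin chevD4.nroots, chevD4.IsNegRoot r → chevD4.IsNegRoot (chevD4.permRoot π r)) := by
    decide +kernel
  obtain ⟨h1, h2⟩ := key π h
  exact ⟨fun r hr => h1 ⟨r, hr.1⟩ hr, fun r hr => h2 ⟨r, hr.1⟩ hr⟩

set_option maxRecDepth 1000000 in
theorem pgr_E6 (π : Equiv.Perm (Fin chevE6.rank)) (h : chevE6.IsDiagramSymmetry π) :
    (∀ r, chevE6.IsPosRoot r → chevE6.IsPosRoot (chevE6.permRoot π r)) ∧
    (∀ r, chevE6.IsNegRoot r → chevE6.IsNegRoot (chevE6.permRoot π r)) := by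
  have key : ∀ π : Equiv.Perm (Fin chevE6.rank),
      (∀ i j : Fin chevE6.rank, i ≠ j → chevE6.bonds (π i) (π j) = chevE6.bonds i j) →
      (∀ r : Fin chevE6.nroots, chevE6.IsPosRoot r → chevE6.IsPosRoot (chevE6.permRoot π r)) ∧
      (∀ r : Fin chevE6.nroots, chevE6.IsNegRoot r → chevE6.IsNegRoot (chevE6.permRoot π r)) := by
    decide +kernel
  obtain ⟨h1, h2⟩ := key π h
  exact ⟨fun r hr => h1 ⟨r, hr.1⟩ hr, fun r hr => h2 ⟨r, hr.1⟩ hr⟩

set_option maxRecDepth 1000000 in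
theorem pgr_short_D4 : ∀ r < chevD4.nroots, chevD4.isLong r = false := by decide +kernel

set_option maxRecDepth 1000000 in
theorem pgr_short_E6 : ∀ r < chevE6.nroots, chevE6.isLong r = false := by decide +kernel

/-- PGr: a graph automorphism of `D₄` or `E₆` preserves `U` and `V` -/
theorem pieceGr [Finite F] (hD : D ∈ [chevD4, chevE6]) (π : Equiv.Perm (Fin D.rank))
    (hπ : D.IsDiagramSymmetry π) (φ : ↥(D.group F) ≃* ↥(D.group F))
    (hφ : ∀ (i : Fin D.rank) (t : F), φ (xs D i t) = xs D (π i) t ∧ φ (ys D i t) = ys D (π i) t) :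
    (∀ g, φ g ∈ Ug F D ↔ g ∈ Ug F D) ∧ (∀ g, φ g ∈ Vg F D ↔ g ∈ Vg F D) := by
  have hDl : D ∈ lst := by
    simp only [List.mem_cons, List.not_mem_nil, or_false] at hD
    rcases hD with rfl | rfl <;> simp [lst]
  have hDc : D ∈ chevList := hDl
  obtain ⟨hpd, hpos, hneg, hshort, hrank⟩ : PermData D π ∧
      (∀ r, D.IsPosRoot r → D.IsPosRoot (D.permRoot π r)) ∧
      (∀ r, D.IsNegRoot r → D.IsNegRoot (D.permRoot π r)) ∧
      (∀ r < D.nroots, D.isLong r = false) ∧ 0 < D.rank := by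
    simp only [List.mem_cons, List.not_mem_nil, or_false] at hD
    rcases hD with rfl | rfl
    · exact ⟨permData_D4 π hπ, (pgr_D4 π hπ).1, (pgr_D4 π hπ).2, pgr_short_D4, by decide⟩
    · exact ⟨permData_E6 π hπ, (pgr_E6 π hπ).1, (pgr_E6 π hπ).2, pgr_short_E6, by decide⟩
  have hval := Cfsg.Agent.Lib.Helper34.ChevDynP.pu_xg_val (F := F) D hDl
  have hφ' : ∀ (g : ↥(D.group F)) (i : Fin D.rank) (t : F),
      (((g : GL D.Idx F) : Matrix D.Idx D.Idx F) = D.x F (D.simple i) t →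
        ((φ g : GL D.Idx F) : Matrix D.Idx D.Idx F) = D.x F (D.simple (π i)) t) ∧
      (((g : GL D.Idx F) : Matrix D.Idx D.Idx F) = D.x F (D.neg (D.simple i)) t →
        ((φ g : GL D.Idx F) : Matrix D.Idx D.Idx F) = D.x F (D.neg (D.simple (π i))) t) := by
    intro g i t
    constructor
    · intro hg
      have e : g = xs D i t := by
        apply Subtype.ext
        apply Units.ext
        rw [hg]
        exact (hval _ _).symm
      rw [e, (hφ i t).1]
      exact hval _ _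
    · intro hg
      have e : g = ys D i t := by
        apply Subtype.ext
        apply Units.ext
        rw [hg]
        exact (hval _ _).symm
      rw [e, (hφ i t).2]
      exact hval _ _
  apply Cfsg.Agent.Lib.Helper34.ChevDynP.pieceU D hDl φ (D.permRoot π) hpos hneg
  intro r hr a
  obtain ⟨ε, -, hε⟩ := graph_aut_root D hDc hrank hshort π hpd φ hφ' r hr
  refine ⟨ε * a, ?_⟩
  apply Subtype.ext
  apply Units.ext
  rw [hε (xg D r a) a (hval r a)]
  exact (hval _ _).symm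

end Cfsg.Agent.Lib.Helper48.ChevDynP
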