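import Mathlib
import Cfsg.Agent.Lib.Helper48.DZj
import Cfsg.Agent.Lib.Helper48.DZl

/-!
# Defect zero characters of a group with minimal parabolic subgroups: the abstract argument

A finite group `G` with subgroups `U ≤ B` and "minimal parabolic" subgroups `P_i ≥ B`, each
carrying the rank one data of `DZc`.  An irreducible character of `G` vanishing on `U ∖ {1}` has
no fixed vectors under any `P_i` and has a fixed vector under `B`.
-/

set_option autoImplicit false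

namespace Cfsg.Agent.Lib.Helper48.DC

open Cfsg Cfsg.Agent.Lib.Helper48
open scoped ComplexConjugate

section Abs

variable {G : Type*} [Group G] [Fintype G]

/-- the rank one data of `DZc`, from statements inside the ambient group -/
theorem rankOne_of (P Q U B Uk : Subgroup G) [Fintype ↥P] (q : ℕ)
    (hBP : B ≤ P) (hQU : Q ≤ U) (hUB : U ≤ B) (hUkU : Uk ≤ U)
    (hQn : ∀ x ∈ P, ∀ v ∈ Q, x * v * x⁻¹ ∈ Q)
    (hUn : ∀ b ∈ B, ∀ u ∈ U, b * u * b⁻¹ ∈ U)
    (hab : ∀ b ∈ B, ∀ b' ∈ B, b * b' * b⁻¹ * b'⁻¹ ∈ U)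
    (hsplit : ∀ u ∈ U, ∃ a ∈ Uk, ∃ v ∈ Q, u = a * v)
    (hint : ∀ a ∈ Uk, a ∈ Q → a = 1)
    (hcardk : Nat.card Uk = q)
    (hdec : ∃ n : G, ∀ x ∈ P, x ∈ B ∨ ∃ a ∈ Uk, ∃ b ∈ B, x = a * n * b)
    (hne : ∃ x ∈ P, x ∉ B)
    (hq : 2 ≤ q)
    (hpel : ∀ x : G, ∀ u ∈ U, x⁻¹ * u * x ∈ B → x⁻¹ * u * x ∈ U) :
    RankOneData (Q.subgroupOf P) (U.subgroupOf P) (B.subgroupOf P) (Uk.subgroupOf P) q := by
  classical
  have hUP : U ≤ P := hUB.trans hBP
  have hUkP : Uk ≤ P := hUkU.trans hUP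
  refine
    { hQU := ?_, hUB := ?_, hUkU := ?_, hQn := ?_, hUn := ?_, hab := ?_, hsplit := ?_, hint := ?_,
      hcardk := ?_, hPB := ?_, hBP := ?_, hq := hq, hpel := ?_ }
  · intro x hx
    rw [Subgroup.mem_subgroupOf] at hx ⊢
    exact hQU hx
  · intro x hx
    rw [Subgroup.mem_subgroupOf] at hx ⊢
    exact hUB hx
  · intro x hx
    rw [Subgroup.mem_subgroupOf] at hx ⊢
    exact hUkU hx
  · constructor
    intro n hn g
    rw [Subgroup.mem_subgroupOf] at hn ⊢
    exact hQn g g.2 n hn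
  · intro b hb u hu
    rw [Subgroup.mem_subgroupOf] at hb hu ⊢
    exact hUn b hb u hu
  · intro b hb b' hb'
    rw [Subgroup.mem_subgroupOf] at hb hb' ⊢
    exact hab b hb b' hb'
  · intro u hu
    rw [Subgroup.mem_subgroupOf] at hu
    obtain ⟨a, ha, v, hv, e⟩ := hsplit u hu
    refine ⟨⟨a, hUkP ha⟩, ?_, ⟨v, hUP (hQU hv)⟩, ?_, Subtype.ext e⟩
    · rw [Subgroup.mem_subgroupOf]; exact ha
    · rw [Subgroup.mem_subgroupOf]; exact hv
  · intro a ha haQ
    rw [Subgroup.mem_subgroupOf] at ha haQ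
    exact Subtype.ext (hint a ha haQ)
  · rw [Nat.card_congr (Subgroup.subgroupOfEquivOfLe hUkP).toEquiv]
    exact hcardk
  · rw [Nat.card_congr (Subgroup.subgroupOfEquivOfLe hBP).toEquiv, ← hcardk]
    obtain ⟨n, hn⟩ := hdec
    have hex : ∀ x : ↥P, (x : G) ∉ B → ∃ ab : ↥Uk × ↥B, (x : G) = (ab.1 : G) * n * (ab.2 : G) := by
      intro x hx
      rcases hn x x.2 with h | ⟨a, ha, b, hb, e⟩
      · exact absurd h hx
      · exact ⟨(⟨a, ha⟩, ⟨b, hb⟩), e⟩
    let f : ↥P → Option ↥Uk × ↥B := fun x =>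
      if h : (x : G) ∈ B then (none, ⟨x, h⟩)
      else (some (Classical.choose (hex x h)).1, (Classical.choose (hex x h)).2)
    have hf : Function.Injective f := by
      intro x y hxy
      by_cases hx : (x : G) ∈ B
      · by_cases hy : (y : G) ∈ B
        · have e1 : f x = (none, ⟨x, hx⟩) := dif_pos hx
          have e2 : f y = (none, ⟨y, hy⟩) := dif_pos hy
          rw [e1, e2] at hxy
          have := congrArg (fun z : Option ↥Uk × ↥B => (z.2 : G)) hxy
          exact Subtype.ext this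
        · have e1 : f x = (none, ⟨x, hx⟩) := dif_pos hx
          have e2 : f y = (some (Classical.choose (hex y hy)).1, (Classical.choose (hex y hy)).2) :=
            dif_neg hy
          rw [e1, e2] at hxy
          have := congrArg (fun z : Option ↥Uk × ↥B => z.1) hxy
          exact absurd this (by simp)
      · by_cases hy : (y : G) ∈ B
        · have e1 : f x = (some (Classical.choose (hex x hx)).1, (Classical.choose (hex x hx)).2) :=
            dif_neg hx
          have e2 : f y = (none, ⟨y, hy⟩) := dif_pos hy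
          rw [e1, e2] at hxy
          have := congrArg (fun z : Option ↥Uk × ↥B => z.1) hxy
          exact absurd this (by simp)
        · have e1 : f x = (some (Classical.choose (hex x hx)).1, (Classical.choose (hex x hx)).2) :=
            dif_neg hx
          have e2 : f y = (some (Classical.choose (hex y hy)).1, (Classical.choose (hex y hy)).2) :=
            dif_neg hy
          rw [e1, e2] at hxy
          have h1 := congrArg (fun z : Option ↥Uk × ↥B => z.1) hxy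
          have h2 := congrArg (fun z : Option ↥Uk × ↥B => z.2) hxy
          simp only [Option.some.injEq] at h1
          apply Subtype.ext
          rw [Classical.choose_spec (hex x hx), Classical.choose_spec (hex y hy), h1, h2]
    have h1 := Nat.card_le_card_of_injective f hf
    rw [Nat.card_prod, Finite.card_option] at h1
    exact h1
  · obtain ⟨x, hxP, hxB⟩ := hne
    intro h
    have : (⟨x, hxP⟩ : ↥P) ∈ B.subgroupOf P := by rw [h]; exact Subgroup.mem_top _
    rw [Subgroup.mem_subgroupOf] at this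
    exact hxB this
  · intro x u hu h
    rw [Subgroup.mem_subgroupOf] at hu h ⊢
    exact hpel x u hu h

/-- **Defect zero characters and a minimal parabolic subgroup.**  An irreducible character of `G`
vanishing on `U ∖ {1}` has no fixed vectors under `P`, and its linear constituents on `B` which
are trivial on `U` extend to linear characters of `P`. -/
theorem dz_par_gen (P Q U B Uk : Subgroup G) [Fintype ↥P] (q : ℕ)
    (hBP : B ≤ P) (hUB : U ≤ B) (hUkU : Uk ≤ U)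
    (D : RankOneData (Q.subgroupOf P) (U.subgroupOf P) (B.subgroupOf P) (Uk.subgroupOf P) q)
    (hconj : ∀ x : G, ∃ y ∈ P, ∀ u ∈ Uk, x * (y * u * y⁻¹) * x⁻¹ ∈ U)
    (ψ : G → ℂ) (hψ : IsIrrCharacter G ψ) (hψ0 : ∀ u ∈ U, u ≠ 1 → ψ u = 0) :
    sSum P ψ = 0 ∧
    ∀ τ : G → ℂ, IsIrrCharacter ↥B (fun b : B => τ b) → sSum U τ ≠ 0 →
      sSum B (fun g => ψ g * conj (τ g)) ≠ 0 →
      ∃ η' : ↥P → ℂ, IsIrrCharacter ↥P η' ∧ η' 1 = 1 ∧ ∀ b : ↥P, (b : G) ∈ B → η' b = τ b := by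
  classical
  letI : Fintype ↥(B.subgroupOf P) := Fintype.ofFinite _
  have hψc : IsCharacter _ ψ := Helper46.isCharacter_of_irr _ hψ
  have hψU : sSum U ψ ≠ 0 := by
    rw [sSum_of_vanish _ ψ hψ0, (Helper83.irr_degree hψ).2]
    exact Nat.cast_ne_zero.mpr (Helper83.irr_degree hψ).1.ne'
  have hUP : U ≤ P := hUB.trans hBP
  have hUkP : Uk ≤ P := hUkU.trans hUP
  have hΨ : IsCharacter ↥P (fun g : P => ψ g) := Helper4.isCharacter_restrict _ ψ hψc
  have hΨ0 : ∀ u ∈ U.subgroupOf P, u ≠ 1 → (fun g : P => ψ g) u = 0 := by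
    intro u hu hu1
    rw [Subgroup.mem_subgroupOf] at hu
    apply hψ0 _ hu
    intro h
    apply hu1
    exact Subtype.ext h
  have hNC : ∀ η : IrrCharacter ↥P, sSum (Uk.subgroupOf P) (η : ↥P → ℂ) = 0 →
      classInner (fun g : P => ψ g) (η : ↥P → ℂ) = 0 :=
    fun η hη => nc_lemma P U Uk hconj hUkP ψ hψ hψU η (Helper46.isCharacter_of_irr _ η.2) hη
  obtain ⟨h1, h2⟩ := D.main (fun g : P => ψ g) hΨ hΨ0 hNC
  constructor
  · rw [classInner_one_right] at h1
    rw [sSum_eq_sum_coe]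
    have hc : ((Nat.card ↥P : ℂ))⁻¹ ≠ 0 := inv_ne_zero (Nat.cast_ne_zero.mpr Nat.card_pos.ne')
    exact (mul_eq_zero.mp h1).resolve_left hc
  · intro τ hτ hτU hin
    have hirr : IsIrrCharacter ↥(B.subgroupOf P)
        (fun b : ↥(B.subgroupOf P) => (fun g : P => τ g) b) :=
      Helper20.irr_comp_surjective (Subgroup.subgroupOfEquivOfLe hBP).toMonoidHom
        (Subgroup.subgroupOfEquivOfLe hBP).surjective hτ
    have hs : sSum (U.subgroupOf P) (fun g : P => τ g) ≠ 0 := by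
      rw [sSum_subgroupOf P _ hUP τ]
      exact hτU
    have hi : classInner (fun b : ↥(B.subgroupOf P) => (fun g : P => ψ g) b)
        (fun b : ↥(B.subgroupOf P) => (fun g : P => τ g) b) ≠ 0 := by
      rw [classInner_restrict_eq (B.subgroupOf P) (fun g : P => ψ g) (fun g : P => τ g),
        sSum_subgroupOf P _ hBP (fun g => ψ g * conj (τ g))]
      exact mul_ne_zero (inv_ne_zero (Nat.cast_ne_zero.mpr Nat.card_pos.ne')) hin
    obtain ⟨η', hη', hη'1, hη'B⟩ := h2 (fun g : P => τ g) hirr hs hi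
    refine ⟨η', hη', hη'1, fun b hb => ?_⟩
    exact hη'B b (by rw [Subgroup.mem_subgroupOf]; exact hb)

/-- a constituent on `B` of a character with `U`-fixed vectors is linear and trivial on `U` -/
theorem tau_lin_gen (P Q U B Uk : Subgroup G) [Fintype ↥P] (q : ℕ)
    (hBP : B ≤ P) (hUB : U ≤ B)
    (D : RankOneData (Q.subgroupOf P) (U.subgroupOf P) (B.subgroupOf P) (Uk.subgroupOf P) q)
    (τ : G → ℂ) (hτ : IsIrrCharacter ↥B (fun b : B => τ b)) (hτU : sSum U τ ≠ 0) :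
    τ 1 = 1 ∧ ∀ u ∈ U, τ u = 1 := by
  classical
  have hUP : U ≤ P := hUB.trans hBP
  have hirr : IsIrrCharacter ↥(B.subgroupOf P)
      (fun b : ↥(B.subgroupOf P) => (fun g : P => τ g) b) :=
    Helper20.irr_comp_surjective (Subgroup.subgroupOfEquivOfLe hBP).toMonoidHom
      (Subgroup.subgroupOfEquivOfLe hBP).surjective hτ
  have hs : sSum (U.subgroupOf P) (fun g : P => τ g) ≠ 0 := by
    rw [sSum_subgroupOf P _ hUP τ]
    exact hτU
  obtain ⟨h1, h2⟩ := D.tau_trivial (fun g : P => τ g) hirr hs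
  exact ⟨h1, fun u hu => h2 ⟨u, hUP hu⟩ (by rw [Subgroup.mem_subgroupOf]; exact hu)⟩

/-- **Defect zero characters of a group with minimal parabolic subgroups.** -/
theorem dz_abs (B U : Subgroup G) (r : ℕ) (hr : 0 < r) (Pm Q Uk : ℕ → Subgroup G)
    [∀ i, Fintype ↥(Pm i)] (q : ℕ)
    (hBP : ∀ i < r, B ≤ Pm i) (hUB : U ≤ B) (hUkU : ∀ i < r, Uk i ≤ U)
    (hR : ∀ i < r, RankOneData ((Q i).subgroupOf (Pm i)) (U.subgroupOf (Pm i))
      (B.subgroupOf (Pm i)) ((Uk i).subgroupOf (Pm i)) q)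
    (hconj : ∀ i < r, ∀ x : G, ∃ y ∈ Pm i, ∀ u ∈ Uk i, x * (y * u * y⁻¹) * x⁻¹ ∈ U)
    (hgen : ∀ τ : G → ℂ, (∀ u ∈ U, τ u = 1) →
      (∀ i < r, ∃ η : ↥(Pm i) →* ℂˣ, ∀ b : ↥(Pm i), (b : G) ∈ B → ((η b : ℂˣ) : ℂ) = τ b) →
      ∀ b ∈ B, τ b = 1)
    (ψ : G → ℂ) (hψ : IsIrrCharacter G ψ) (hψ0 : ∀ u ∈ U, u ≠ 1 → ψ u = 0) :
    sSum B ψ ≠ 0 ∧ ∀ i < r, sSum (Pm i) ψ = 0 := by
  classical
  letI : Fintype ↥B := Fintype.ofFinite _
  have hψc : IsCharacter _ ψ := Helper46.isCharacter_of_irr _ hψ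
  have hψU : sSum U ψ ≠ 0 := by
    rw [sSum_of_vanish _ ψ hψ0, (Helper83.irr_degree hψ).2]
    exact Nat.cast_ne_zero.mpr (Helper83.irr_degree hψ).1.ne'
  obtain ⟨τ, hτ1, hτ2⟩ := exists_constituent_fix ψ hψc U B hUB hψU
  let τG : G → ℂ := fun g => if h : g ∈ B then (τ : ↥B → ℂ) ⟨g, h⟩ else 0
  have hτG : (fun b : B => τG b) = (τ : ↥B → ℂ) := by
    funext b
    show (if h : (b : G) ∈ B then (τ : ↥B → ℂ) ⟨b, h⟩ else 0) = _
    rw [dif_pos b.2]
  have hτirr : IsIrrCharacter ↥B (fun b : B => τG b) := by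
    rw [hτG]; exact τ.2
  have hτU : sSum U τG ≠ 0 := by
    rw [← sSum_subgroupOf B _ hUB τG, hτG]
    exact hτ2
  have hin : sSum B (fun g => ψ g * conj (τG g)) ≠ 0 := by
    have h1 := classInner_restrict_eq B ψ τG
    rw [hτG] at h1
    rw [h1] at hτ1
    exact right_ne_zero_of_mul hτ1
  have hpar := fun i (hi : i < r) => dz_par_gen (Pm i) (Q i) U B (Uk i) q (hBP i hi) hUB
    (hUkU i hi) (hR i hi) (hconj i hi) ψ hψ hψ0
  have hτ1U : ∀ u ∈ U, τG u = 1 :=
    (tau_lin_gen (Pm 0) (Q 0) U B (Uk 0) q (hBP 0 hr) hUB (hR 0 hr) τG hτirr hτU).2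
  have hext : ∀ i < r, ∃ η : ↥(Pm i) →* ℂˣ,
      ∀ b : ↥(Pm i), (b : G) ∈ B → ((η b : ℂˣ) : ℂ) = τG b := by
    intro i hi
    obtain ⟨η', hη', hη'1, hη'B⟩ := (hpar i hi).2 τG hτirr hτU hin
    obtain ⟨f, hf⟩ := Helper20.exists_hom_of_linear η' (Helper46.isCharacter_of_irr _ hη') hη'1
    exact ⟨f, fun b hb => by rw [hf]; exact hη'B b hb⟩
  have hτB := hgen τG hτ1U hext
  refine ⟨?_, fun i hi => (hpar i hi).1⟩
  have e : sSum B (fun g => ψ g * conj (τG g)) = sSum B ψ :=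
    sSum_congr B _ _ (fun x hx => by rw [hτB x hx]; simp)
  rw [← e]
  exact hin

end Abs

end Cfsg.Agent.Lib.Helper48.DC
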