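import Mathlib
import Cfsg.Agent.Lib.Helper48.DCA
import Cfsg.Agent.Lib.Helper25.StChev3

/-!
# Defect zero characters of Chevalley groups: small facts on `B`, `U`, `X_i`, `Q_i`, `P_i`
-/

set_option autoImplicit false

namespace Cfsg.Agent.Lib.Helper48.DC

open Cfsg Cfsg.Lie
open Cfsg.Agent.Lib.Helper8 Cfsg.Agent.Lib.Helper24 Cfsg.Agent.Lib.Helper25

variable {F : Type*} [Field F] [Fintype F]

theorem leafa_root_le (D : ChevalleyDatum)
    (hD : D ∈ [chevG2, chevB2, chevD4, chevF4, chevE6, chevE7, chevE8]) (r : ℕ) :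
    D.rootSubgroup F r ≤ D.group F := by
  have hD' : D ∈ chevList := hD
  unfold ChevalleyDatum.rootSubgroup
  rw [Subgroup.closure_le]
  rintro g ⟨t, hg⟩
  have : g = xGL D hD' r t := Units.ext (by rw [hg, xGL_val])
  rw [this]
  exact xGL_mem_group D hD' r t

theorem leafa_Ql_le (D : ChevalleyDatum) (i : ℕ) : Ql F D i ≤ D.posUnipotent F := by
  refine Subgroup.closure_mono ?_
  rintro g ⟨s, t, hs, -, hg⟩
  exact ⟨s, t, hs, hg⟩

/-- XCARD -/
theorem Xg_card (D : ChevalleyDatum)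
    (hD : D ∈ [chevG2, chevB2, chevD4, chevF4, chevE6, chevE7, chevE8]) (i : ℕ) (hi : i < D.rank) :
    Nat.card (Xg F D i) = Nat.card F := by
  have hD' : D ∈ chevList := hD
  rw [Nat.card_congr (Subgroup.subgroupOfEquivOfLe (leafa_root_le D hD (D.simple i))).toEquiv]
  exact card_rootSubgroup D hD _ (simple_lt D hD' i hi)

/-- UNORM -/
theorem Ug_normal (D : ChevalleyDatum)
    (hD : D ∈ [chevG2, chevB2, chevD4, chevF4, chevE6, chevE7, chevE8]) :
    ∀ b ∈ Bg F D, ∀ u ∈ Ug F D, b * u * b⁻¹ ∈ Ug F D := by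
  have hD' : D ∈ chevList := hD
  intro b hb u hu
  rw [Subgroup.mem_subgroupOf] at hb hu ⊢
  have hHU : D.diagonalSubgroup F ≤ Subgroup.normalizer (D.posUnipotent F : Set (GL D.Idx F)) :=
    diagonal_le_normalizer_rootGen D hD' D.IsPosRoot (fun r hr => hr.1)
  have hBN : D.borelSubgroup F ≤ Subgroup.normalizer (D.posUnipotent F : Set (GL D.Idx F)) :=
    sup_le Subgroup.le_normalizer hHU
  exact ((Subgroup.mem_set_normalizer_iff.1 (hBN hb)) u).1 hu

/-- USPLIT -/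
theorem Ug_split (D : ChevalleyDatum)
    (hD : D ∈ [chevG2, chevB2, chevD4, chevF4, chevE6, chevE7, chevE8]) (i : ℕ) (hi : i < D.rank) :
    ∀ u ∈ Ug F D, ∃ a ∈ Xg F D i, ∃ v ∈ Qg F D i, u = a * v := by
  have hD' : D ∈ chevList := hD
  intro u hu
  rw [Subgroup.mem_subgroupOf] at hu
  obtain ⟨hnorm, hsup⟩ := up_normalized (F := F) D hD i hi
  have hX : D.rootSubgroup F (D.simple i) ≤
      Subgroup.normalizer (Ql F D i : Set (GL D.Idx F)) := le_trans le_sup_left hnorm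
  rw [← hsup] at hu
  obtain ⟨v, hv, a, ha, e⟩ := mem_sup_of_le_normalizer _ _ hX _ hu
  have hv' : a⁻¹ * v * a⁻¹⁻¹ ∈ Ql F D i :=
    ((Subgroup.mem_set_normalizer_iff.1 (hX (inv_mem ha))) v).1 hv
  rw [inv_inv] at hv'
  have haG : a ∈ D.group F := leafa_root_le D hD _ ha
  have hvG : a⁻¹ * v * a ∈ D.group F := posUnipotent_le_group D hD' (leafa_Ql_le D i hv')
  refine ⟨⟨a, haG⟩, by rw [Subgroup.mem_subgroupOf]; exact ha, ⟨a⁻¹ * v * a, hvG⟩,
    by rw [Subgroup.mem_subgroupOf]; exact hv', ?_⟩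
  apply Subtype.ext
  show (u : GL D.Idx F) = a * (a⁻¹ * v * a)
  rw [e]
  group

/-- BNEP -/
theorem Pg_ne_Bg (D : ChevalleyDatum)
    (hD : D ∈ [chevG2, chevB2, chevD4, chevF4, chevE6, chevE7, chevE8]) (i : ℕ) (hi : i < D.rank) :
    ∃ x ∈ Pg F D i, x ∉ Bg F D := by
  refine ⟨stSigma (F := F) D hD i, ?_, ?_⟩
  · show stSigma (F := F) D hD i ∈ D.parabolicIn F {i}
    rw [st_parabolic_eq D hD {i} (by simpa using hi)]
    apply closure_le_parabolic
    apply Subgroup.subset_closure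
    exact ⟨i, by simp, rfl⟩
  · exact S_not_mem_B (chevBN (F := F) D hD) (stSigma_mem D hD i hi)

/-- USING -/
theorem Ug_singular (p : ℕ) [Fact p.Prime] [CharP F p] (D : ChevalleyDatum)
    (hD : D ∈ [chevG2, chevB2, chevD4, chevF4, chevE6, chevE7, chevE8]) :
    ∀ u ∈ Ug F D, u ≠ 1 → p ∣ orderOf u := by
  intro u hu hu1
  obtain ⟨P, hP⟩ := posUnipotent_sylow (F := F) p D hD
  have hPg : IsPGroup p ↥(Ug F D) := by
    show IsPGroup p ↥((D.posUnipotent F).subgroupOf (D.group F))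
    rw [← hP]; exact P.isPGroup'
  obtain ⟨k, hk⟩ := hPg ⟨u, hu⟩
  have hk' : u ^ p ^ k = 1 := by
    have := congrArg Subtype.val hk
    simpa using this
  have hdvd : orderOf u ∣ p ^ k := orderOf_dvd_of_pow_eq_one hk'
  obtain ⟨j, -, hju⟩ := (Nat.dvd_prime_pow Fact.out).1 hdvd
  rw [hju]
  have hj0 : j ≠ 0 := by
    rintro rfl
    rw [pow_zero, orderOf_eq_one_iff] at hju
    exact hu1 hju
  exact dvd_pow_self p hj0

end Cfsg.Agent.Lib.Helper48.DC
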