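import Mathlib
import Cfsg.Agent.Lib.Helper48.DCAbs
import Cfsg.Agent.Lib.Helper48.DCLeafA
import Cfsg.Agent.Lib.Helper76.DCXPOS
import Cfsg.Agent.Lib.Helper2.DCQNORM
import Cfsg.Agent.Lib.Helper17.DCBAB
import Cfsg.Agent.Lib.Helper28.DCXQINT
import Cfsg.Agent.Lib.Helper97.DCPDECOMP
import Cfsg.Agent.Lib.Helper34.DCHPEL
import Cfsg.Agent.Lib.Helper97.DCHCONJ
import Cfsg.Agent.Lib.Helper94.DCHGEN
import Cfsg.Agent.Lib.Helper25.StChev3
import Cfsg.Agent.S0165

/-!
# The Steinberg character is the only defect zero character of a Chevalley group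
-/

set_option autoImplicit false

namespace Cfsg.Agent.Lib.Helper48.DC

open Cfsg Cfsg.Lie Cfsg.Agent.Lib.Helper48
open scoped ComplexConjugate

variable {F : Type*} [Field F] [Fintype F]

theorem para_empty (D : ChevalleyDatum) : D.parabolicIn F ∅ = Bg F D := by
  unfold ChevalleyDatum.parabolicIn ChevalleyDatum.parabolicSubgroup
  have : {g : GL D.Idx F | ∃ j ∈ ((∅ : Finset ℕ) : Set ℕ), j < D.rank ∧
      (g : Matrix D.Idx D.Idx F) = D.nMat F (D.simple j) 1} = ∅ := by
    ext g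
    simp
  rw [this, Subgroup.closure_empty, sup_bot_eq]

theorem para_mono (D : ChevalleyDatum) (J K : Finset ℕ) (h : J ⊆ K) :
    D.parabolicIn F J ≤ D.parabolicIn F K := by
  intro x hx
  unfold ChevalleyDatum.parabolicIn at hx ⊢
  rw [Subgroup.mem_subgroupOf] at hx ⊢
  refine (sup_le_sup_left (Subgroup.closure_mono ?_) _) hx
  rintro g ⟨j, hj, hjr, hg⟩
  exact ⟨j, by exact_mod_cast h (by exact_mod_cast hj), hjr, hg⟩

theorem Bg_le_Pg (D : ChevalleyDatum) (i : ℕ) : Bg F D ≤ Pg F D i := by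
  rw [← para_empty]
  exact para_mono D ∅ {i} (Finset.empty_subset _)

theorem rank_pos (D : ChevalleyDatum)
    (hD : D ∈ [chevG2, chevB2, chevD4, chevF4, chevE6, chevE7, chevE8]) : 0 < D.rank := by
  simp only [List.mem_cons, List.not_mem_nil, or_false] at hD
  rcases hD with rfl | rfl | rfl | rfl | rfl | rfl | rfl <;> decide

/-- a defect zero character has a `B`-fixed vector and no `P_i`-fixed vectors -/
theorem dz_chev_fix (D : ChevalleyDatum) [Fintype ↥(D.group F)] (p : ℕ) [Fact p.Prime] [CharP F p]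
    (hD : D ∈ [chevG2, chevB2, chevD4, chevF4, chevE6, chevE7, chevE8])
    (χ : ↥(D.group F) → ℂ) (hχ : IsIrrCharacter ↥(D.group F) χ)
    (hχ0 : ∀ u ∈ Ug F D, u ≠ 1 → χ u = 0) :
    sSum (Bg F D) χ ≠ 0 ∧ ∀ i < D.rank, sSum (Pg F D i) χ = 0 := by
  classical
  letI : ∀ i, Fintype ↥(Pg F D i) := fun i => Fintype.ofFinite _
  have hq2 : 2 ≤ Nat.card F := by
    rw [Nat.card_eq_fintype_card]; exact Fintype.one_lt_card
  have hUB : Ug F D ≤ Bg F D := by
    intro x hx
    rw [Subgroup.mem_subgroupOf] at hx ⊢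
    exact (le_sup_left : D.posUnipotent F ≤ D.borelSubgroup F) hx
  have hQU : ∀ i, Qg F D i ≤ Ug F D := by
    intro i x hx
    rw [Subgroup.mem_subgroupOf] at hx ⊢
    refine (Subgroup.closure_mono ?_) hx
    rintro g ⟨s, t, hs, -, hg⟩
    exact ⟨s, t, hs, hg⟩
  refine dz_abs (Bg F D) (Ug F D) D.rank (rank_pos D hD) (fun i => Pg F D i) (fun i => Qg F D i)
    (fun i => Xg F D i) (Nat.card F) (fun i _ => Bg_le_Pg D i) hUB
    (fun i hi => Xg_le_Ug D hD i hi) ?_ (fun i hi => Pg_hconj D hD i hi) ?_ χ hχ hχ0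
  · intro i hi
    exact rankOne_of (Pg F D i) (Qg F D i) (Ug F D) (Bg F D) (Xg F D i) (Nat.card F)
      (Bg_le_Pg D i) (hQU i) hUB (Xg_le_Ug D hD i hi) (Qg_normal D hD i hi) (Ug_normal D hD)
      (Bg_comm D hD) (Ug_split D hD i hi) (Xg_inf_Qg D hD i hi) (Xg_card D hD i hi)
      (Pg_decomp D hD i hi) (Pg_ne_Bg D hD i hi) hq2 (Ug_pel p D hD)
  · intro τ hU hext
    exact Bg_hgen D hD τ hU hext

/-- **The Steinberg character is the only irreducible character of `p`-defect zero.** -/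
theorem dz_chev (p : ℕ) [Fact p.Prime] [CharP F p] (D : ChevalleyDatum)
    (hD : D ∈ [chevG2, chevB2, chevD4, chevF4, chevE6, chevE7, chevE8])
    (χ : ↥(D.group F) → ℂ) (hχ : IsIrrCharacter ↥(D.group F) χ)
    (hdeg : ∃ d : ℕ, χ 1 = (d : ℂ) ∧ p ^ (Nat.card ↥(D.group F)).factorization p ∣ d) :
    χ = D.steinbergCharacter F := by
  classical
  letI : Fintype ↥(D.group F) := Fintype.ofFinite _
  have hp : p.Prime := Fact.out
  have hχ0 : ∀ u ∈ Ug F D, u ≠ 1 → χ u = 0 := by
    intro u hu hu1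
    have hsing := Ug_singular p D hD u hu hu1
    obtain ⟨n, ρ, hρ, rfl⟩ := hχ
    haveI := hρ
    obtain ⟨d, hd1, hd2⟩ := hdeg
    have hfin : Module.finrank ℂ (Fin n → ℂ) = d := by
      have h1 : ρ.character 1 = (Module.finrank ℂ (Fin n → ℂ) : ℂ) := by
        simp [Representation.character]
      rw [h1] at hd1
      exact_mod_cast hd1
    have hcard : Nat.card ↥(D.group F) ≠ 0 := Nat.card_pos.ne'
    refine Cfsg.Agent.S0165.result ρ p ((Nat.card ↥(D.group F)).factorization p) hp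
      (Nat.ordProj_dvd _ _) ?_ (by rw [hfin]; exact hd2) u hsing
    exact Nat.pow_succ_factorization_not_dvd hcard hp
  obtain ⟨hB, hP⟩ := dz_chev_fix D p hD χ hχ hχ0
  have hχc := Helper46.isCharacter_of_irr _ hχ
  have hSt : IsIrrCharacter _ (D.steinbergCharacter F) := Cfsg.Agent.Lib.Helper25.st_irr D hD
  by_contra hne
  have h0 := inner_irr_ne _ _ hSt hχ (Ne.symm hne)
  have h1 : classInner (D.steinbergCharacter F) χ =
      ∑ J ∈ (Finset.range D.rank).powerset, (-1 : ℂ) ^ J.card *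
        classInner (fixedPointCharacter (D.parabolicIn F J)) χ := by
    unfold ChevalleyDatum.steinbergCharacter classInner
    simp only [Finset.sum_mul, Finset.mul_sum]
    rw [Finset.sum_comm]
    apply Finset.sum_congr rfl
    intro J _
    apply Finset.sum_congr rfl
    intro g _
    ring
  rw [h1, Finset.sum_eq_single ∅] at h0
  · rw [para_empty, inner_fixedPoint _ χ hχc] at h0
    apply hB
    rw [sSum_eq_fixMult χ hχc]
    simp only [Finset.card_empty, pow_zero, one_mul] at h0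
    rw [h0, zero_mul]
  · intro J hJ hJne
    obtain ⟨i, hi⟩ := Finset.nonempty_iff_ne_empty.mpr hJne
    have hir : i < D.rank := Finset.mem_range.mp (Finset.mem_powerset.mp hJ hi)
    have hle : Pg F D i ≤ D.parabolicIn F J := para_mono D {i} J (Finset.singleton_subset_iff.mpr hi)
    rw [inner_fixedPoint _ χ hχc, fixMult_eq_zero _ χ hχc
      (sSum_mono_zero χ hχc _ _ hle (hP i hir))]
    simp
  · intro h
    exact absurd (Finset.mem_powerset.mpr (Finset.empty_subset _)) h

end Cfsg.Agent.Lib.Helper48.DC
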