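import Mathlib
import Cfsg.Agent.Lib.Helper48.DZn
import Cfsg.Agent.Lib.Helper22.Local

set_option autoImplicit false

namespace Cfsg.Agent.Lib.Helper48

open Cfsg
open scoped ComplexConjugate

section RootsModM

variable {p : ℕ} {M : Ideal AlgInt}

/-- `1 - ξ` is a unit modulo `M` for a nontrivial root of unity `ξ` of order prime to `p` -/
theorem one_sub_root_not_mem (hM : IsPModular p M) (m : ℕ) (hm : ¬ p ∣ m) (ξ : ℂ) (hξ : ξ ^ m = 1)
    (hξ1 : ξ ≠ 1) : ¬ MemLocalIdeal M (1 - ξ) := by
  haveI := Helper22.isPrime_of_isPModular hM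
  intro h
  have hm0 : 0 < m := by
    rcases Nat.eq_zero_or_pos m with h0 | h0
    · exact absurd (h0 ▸ dvd_zero p) hm
    · exact h0
  have hint : IsIntegral ℤ ξ := IsIntegral.of_pow hm0 (by rw [hξ]; exact isIntegral_one)
  have hgeo : ∑ k ∈ Finset.range m, ξ ^ k = 0 := by
    have h1 := geom_sum_mul ξ m
    rw [hξ, sub_self] at h1
    exact (mul_eq_zero.mp h1).resolve_right (sub_ne_zero.mpr hξ1)
  have hm_eq : (m : ℂ) = (1 - ξ) * ∑ k ∈ Finset.range m, ∑ j ∈ Finset.range k, ξ ^ j := by
    rw [Finset.mul_sum]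
    have h1 : ∀ k ∈ Finset.range m, (1 - ξ) * ∑ j ∈ Finset.range k, ξ ^ j = 1 - ξ ^ k := by
      intro k _
      have h2 := geom_sum_mul ξ k
      linear_combination (-1 : ℂ) * h2
    rw [Finset.sum_congr rfl h1, Finset.sum_sub_distrib, hgeo, sub_zero, Finset.sum_const,
      Finset.card_range, nsmul_eq_mul, mul_one]
  have hβ : MemLocalRing M (∑ k ∈ Finset.range m, ∑ j ∈ Finset.range k, ξ ^ j) :=
    Helper22.memLocalRing_sum _ _ (fun k _ => Helper22.memLocalRing_sum _ _ (fun j _ =>
      Helper22.memLocalRing_pow (Helper22.memLocalRing_of_isIntegral hint) j))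
  have h3 := Helper22.memLocalIdeal_mul_right h hβ
  rw [← hm_eq] at h3
  exact hm ((Helper22.memLocalIdeal_natCast_iff hM m).mp h3)

/-- roots of unity of order prime to `p` that are congruent modulo `M` are equal -/
theorem root_eq_of_memLocalIdeal (hM : IsPModular p M) (m : ℕ) (hm : ¬ p ∣ m) (a b : ℂ)
    (ha : a ^ m = 1) (hb : b ^ m = 1) (h : MemLocalIdeal M (a - b)) : a = b := by
  haveI := Helper22.isPrime_of_isPModular hM
  by_contra hab
  have hm0 : 0 < m := by
    rcases Nat.eq_zero_or_pos m with h0 | h0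
    · exact absurd (h0 ▸ dvd_zero p) hm
    · exact h0
  have ha0 : a ≠ 0 := by
    intro h0
    rw [h0, zero_pow hm0.ne'] at ha
    exact zero_ne_one ha
  have hint : IsIntegral ℤ a := IsIntegral.of_pow hm0 (by rw [ha]; exact isIntegral_one)
  have haa : a * a ^ (m - 1) = 1 := by
    rw [← pow_succ', Nat.sub_add_cancel hm0, ha]
  have hξm : (b * a ^ (m - 1)) ^ m = 1 := by
    rw [mul_pow, hb, one_mul, ← pow_mul, mul_comm, pow_mul, ha, one_pow]
  have hξ1 : b * a ^ (m - 1) ≠ 1 := by
    intro h1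
    apply hab
    have h2 : b * a ^ (m - 1) = a * a ^ (m - 1) := by rw [h1, haa]
    exact (mul_right_cancel₀ (pow_ne_zero _ ha0) h2).symm
  apply one_sub_root_not_mem hM m hm _ hξm hξ1
  have e : 1 - b * a ^ (m - 1) = (a - b) * a ^ (m - 1) := by rw [sub_mul, haa]
  rw [e]
  exact Helper22.memLocalIdeal_mul_right h
    (Helper22.memLocalRing_pow (Helper22.memLocalRing_of_isIntegral hint) _)

end RootsModM

section CentralChar

variable {G : Type*} [Group G] [Fintype G]

/-- an irreducible character lying over a linear character of the centre -/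
theorem irr_central_value [Fintype ↥(Subgroup.center G)] (χ : G → ℂ) (hχ : IsIrrCharacter G χ)
    (lam : ↥(Subgroup.center G) →* ℂˣ)
    (hcon : classInner (fun z : Subgroup.center G => χ z) (fun z => ((lam z : ℂˣ) : ℂ)) ≠ 0)
    (z : G) (hz : z ∈ Subgroup.center G) : χ z = ((lam ⟨z, hz⟩ : ℂˣ) : ℂ) * χ 1 := by
  classical
  have hθ := Helper83.isIrr_of_hom lam
  have hres := Helper20.clifford_res (Subgroup.center G) hθ hχ hcon
    (inertiaSub (Subgroup.center G) _) (mem_inertiaSub _ _)
  have hconj : ∀ (x : G) (h : Subgroup.center G),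
      Helper20.conjFun (Subgroup.center G) (fun z => ((lam z : ℂˣ) : ℂ)) x h = ((lam h : ℂˣ) : ℂ) := by
    intro x h
    rw [Helper20.conjFun_apply]
    congr 2
    apply Subtype.ext
    show x * (h : G) * x⁻¹ = h
    have := Subgroup.mem_center_iff.mp h.2 x
    rw [this, mul_inv_cancel_right]
  have h1 := hres ⟨z, hz⟩
  have h2 := hres 1
  simp only [hconj, Finset.sum_const, Finset.card_univ, nsmul_eq_mul] at h1 h2
  rw [map_one, Units.val_one, mul_one] at h2
  have h1' : χ z = classInner (fun h : Subgroup.center G => χ h) (fun z => ((lam z : ℂˣ) : ℂ)) /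
      (Nat.card ↥(inertiaSub (Subgroup.center G) (fun z => ((lam z : ℂˣ) : ℂ))) : ℂ) *
      ((Fintype.card G : ℂ) * ((lam ⟨z, hz⟩ : ℂˣ) : ℂ)) := h1
  have h2' : χ 1 = classInner (fun h : Subgroup.center G => χ h) (fun z => ((lam z : ℂˣ) : ℂ)) /
      (Nat.card ↥(inertiaSub (Subgroup.center G) (fun z => ((lam z : ℂˣ) : ℂ))) : ℂ) *
      (Fintype.card G : ℂ) := h2
  rw [h1', h2']
  ring

/-- the value of the central character at a central element -/
theorem centralChar_central (χ : G → ℂ) (c : ℂ) (z : G) (hz : z ∈ Subgroup.center G)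
    (h : χ z = c * χ 1) (h1 : χ 1 ≠ 0) : centralChar χ z = c := by
  unfold centralChar
  have htop : Subgroup.centralizer ({z} : Set G) = ⊤ := by
    rw [Subgroup.centralizer_eq_top_iff_subset]
    intro y hy
    rw [Set.mem_singleton_iff] at hy
    rw [hy]
    exact hz
  rw [htop, Subgroup.index_top, Nat.cast_one, one_mul, h, mul_div_assoc, div_self h1, mul_one]

end CentralChar

end Cfsg.Agent.Lib.Helper48
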