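import Mathlib
import Cfsg.Agent.Lib.Helper48.DZr
import Cfsg.Agent.Lib.Helper48.DZs
import Cfsg.Agent.S4505

set_option autoImplicit false

namespace Cfsg.Agent.Lib.Helper48

open Cfsg
open scoped MatrixGroups IsMulCommutative

section General

variable {G : Type*} [Group G] [Finite G]

/-- a Sylow `p`-subgroup is a radical `p`-subgroup -/
theorem sylow_radical (p : ℕ) [Fact p.Prime] (P : Sylow p G) :
    pCoreOf p (Subgroup.normalizer ((P : Subgroup G) : Set G)) = P := by
  have h1 : (P : Subgroup G) ≤ pCoreOf p (Subgroup.normalizer ((P : Subgroup G) : Set G)) :=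
    Helper55.le_pCoreOf Subgroup.le_normalizer le_rfl P.isPGroup'
  have h2 : IsPGroup p ↥(pCoreOf p (Subgroup.normalizer ((P : Subgroup G) : Set G))) :=
    (Helper55.pCore_isPGroup).map _
  exact P.is_maximal' h2 h1

/-- an irreducible character with prescribed central character -/
theorem exists_irr_central (lam : ↥(Subgroup.center G) →* ℂˣ) :
    ∃ χ : IrrCharacter G, ∀ z (hz : z ∈ Subgroup.center G),
      (χ : G → ℂ) z = ((lam ⟨z, hz⟩ : ℂˣ) : ℂ) * (χ : G → ℂ) 1 := by
  classical
  letI : Fintype G := Fintype.ofFinite G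
  letI : Fintype ↥(Subgroup.center G) := Fintype.ofFinite _
  obtain ⟨χ, hχ, hcon⟩ := Helper20.exists_irr_over (Subgroup.center G) (Helper83.isIrr_of_hom lam)
  exact ⟨⟨χ, hχ⟩, fun z hz => irr_central_value χ hχ lam hcon z hz⟩

/-- characters in the same block have the same central character on the centre, if the centre
has order prime to `p` -/
theorem sameBlock_central {p : ℕ} {M : Ideal AlgInt} (hM : IsPModular p M)
    (hp : ¬ p ∣ Nat.card ↥(Subgroup.center G)) (χ ψ : IrrCharacter G)
    (lam mu : ↥(Subgroup.center G) →* ℂˣ)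
    (hχ : ∀ z (hz : z ∈ Subgroup.center G),
      (χ : G → ℂ) z = ((lam ⟨z, hz⟩ : ℂˣ) : ℂ) * (χ : G → ℂ) 1)
    (hψ : ∀ z (hz : z ∈ Subgroup.center G),
      (ψ : G → ℂ) z = ((mu ⟨z, hz⟩ : ℂˣ) : ℂ) * (ψ : G → ℂ) 1)
    (h : SameBlock M (χ : G → ℂ) (ψ : G → ℂ)) : lam = mu := by
  classical
  letI : Fintype G := Fintype.ofFinite G
  apply MonoidHom.ext
  rintro ⟨z, hz⟩
  apply Units.ext
  have h1 := h z
  rw [centralChar_central _ _ z hz (hχ z hz) (Helper83.irr_one_ne_zero χ.2),
    centralChar_central _ _ z hz (hψ z hz) (Helper83.irr_one_ne_zero ψ.2)] at h1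
  apply root_eq_of_memLocalIdeal hM (Nat.card ↥(Subgroup.center G)) hp _ _ ?_ ?_ h1
  · rw [← Units.val_pow_eq_pow_val, ← map_pow, pow_card_eq_one', map_one, Units.val_one]
  · rw [← Units.val_pow_eq_pow_val, ← map_pow, pow_card_eq_one', map_one, Units.val_one]

end General

section ZModCenter

theorem card_center_sl_zmod (p : ℕ) [Fact p.Prime] (n : ℕ) (hn : 0 < n) :
    Nat.card (Subgroup.center (Matrix.SpecialLinearGroup (Fin n) (ZMod p))) = Nat.gcd n (p - 1) := by
  classical
  rw [Nat.card_congr (Matrix.SpecialLinearGroup.center_equiv_rootsOfUnity (n := Fin n)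
    (R := ZMod p)).toEquiv]
  have h1 : max (Fintype.card (Fin n)) 1 = n := by
    rw [Fintype.card_fin]
    omega
  rw [h1]
  have h2 : rootsOfUnity n (ZMod p) = (powMonoidHom n : (ZMod p)ˣ →* (ZMod p)ˣ).ker := by
    ext ζ
    rw [mem_rootsOfUnity, MonoidHom.mem_ker, powMonoidHom_apply]
  rw [h2, IsCyclic.card_powMonoidHom_ker, Nat.card_eq_fintype_card, ZMod.card_units, Nat.gcd_comm]

end ZModCenter

section SLCount

variable {n : ℕ} {F : Type*} [Field F] [Fintype F]

theorem sl_factorization_pos (p : ℕ) [Fact p.Prime] [CharP F p] (hn : 2 ≤ n) :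
    (Nat.card (Matrix.SpecialLinearGroup (Fin n) F)).factorization p ≠ 0 := by
  intro h0
  have h1 := card_sl_ordProj (F := F) p (show 0 < n by omega)
  rw [h0, pow_zero] at h1
  have hq : 2 ≤ Fintype.card F := Fintype.one_lt_card
  have hN : 1 ≤ ∑ j ∈ Finset.range n, j := by
    have : ∑ j ∈ Finset.range 2, j ≤ ∑ j ∈ Finset.range n, j :=
      Finset.sum_le_sum_of_subset (Finset.range_subset_range.mpr hn)
    have e : ∑ j ∈ Finset.range 2, j = 1 := by decide
    rw [e] at this
    exact this
  have h2 : 2 ^ 1 ≤ Fintype.card F ^ (∑ j ∈ Finset.range n, j) :=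
    le_trans (Nat.pow_le_pow_left hq 1) (Nat.pow_le_pow_right (by omega) hN)
  omega

/-- a `p`-regular element of `SL_n(F)` whose centralizer has full `p`-part is central -/
theorem central_of_full_cent (p : ℕ) [Fact p.Prime] [CharP F p] (hn : 2 ≤ n)
    (g : Matrix.SpecialLinearGroup (Fin n) F) (hg : ¬ p ∣ orderOf g)
    (hc : (Nat.card (Subgroup.centralizer ({g} : Set (Matrix.SpecialLinearGroup (Fin n) F)))).factorization p =
      (Nat.card (Matrix.SpecialLinearGroup (Fin n) F)).factorization p) :
    g ∈ Subgroup.center (Matrix.SpecialLinearGroup (Fin n) F) := by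
  classical
  have hp : p.Prime := Fact.out
  obtain ⟨S⟩ : Nonempty (Sylow p (Subgroup.centralizer ({g} : Set (Matrix.SpecialLinearGroup (Fin n) F)))) :=
    inferInstance
  have hcard : Nat.card ((S : Subgroup _).map
      (Subgroup.centralizer ({g} : Set (Matrix.SpecialLinearGroup (Fin n) F))).subtype) =
      p ^ (Nat.card (Matrix.SpecialLinearGroup (Fin n) F)).factorization p := by
    rw [← Nat.card_congr (Subgroup.equivMapOfInjective _ _ (Subgroup.subtype_injective _)).toEquiv,
      Sylow.card_eq_multiplicity, hc]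
  have hrad := sylow_radical p (Sylow.ofCard _ hcard)
  rw [Sylow.coe_ofCard] at hrad
  apply radical_cent_central p (show 0 < n by omega) _ (IsPGroup.of_card hcard) ?_ hrad g hg ?_
  · intro h
    rw [h, Subgroup.card_bot] at hcard
    have := Nat.one_lt_pow (sl_factorization_pos (F := F) p hn) hp.one_lt
    omega
  · intro d hd
    obtain ⟨c, -, rfl⟩ := hd
    have := c.2
    rw [Subgroup.mem_centralizer_iff] at this
    exact this g rfl

theorem card_full_classes_le (p : ℕ) [Fact p.Prime] [CharP F p] (hn : 2 ≤ n) :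
    Nat.card {C : ConjClasses (Matrix.SpecialLinearGroup (Fin n) F) // ∃ g, ConjClasses.mk g = C ∧
      ¬ p ∣ orderOf g ∧
      (Nat.card (Subgroup.centralizer ({g} : Set (Matrix.SpecialLinearGroup (Fin n) F)))).factorization p =
        (Nat.card (Matrix.SpecialLinearGroup (Fin n) F)).factorization p} ≤
      Nat.card (Subgroup.center (Matrix.SpecialLinearGroup (Fin n) F)) := by
  classical
  apply Nat.card_le_card_of_injective (fun C => (⟨Classical.choose C.2,
    central_of_full_cent p hn _ (Classical.choose_spec C.2).2.1 (Classical.choose_spec C.2).2.2⟩ :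
      Subgroup.center (Matrix.SpecialLinearGroup (Fin n) F)))
  intro C C' h
  have h1 : Classical.choose C.2 = Classical.choose C'.2 := congrArg Subtype.val h
  apply Subtype.ext
  rw [← (Classical.choose_spec C.2).1, ← (Classical.choose_spec C'.2).1, h1]

end SLCount

end Cfsg.Agent.Lib.Helper48
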