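import Mathlib
import Cfsg.Agent.Lib.Helper48.DZt

set_option autoImplicit false

namespace Cfsg.Agent.Lib.Helper48

open Cfsg
open scoped MatrixGroups IsMulCommutative

section SLCount2

variable {n : ℕ} {F : Type*} [Field F] [Fintype F]

theorem two_le_stSL_deg (hn : 2 ≤ n) : 2 ≤ Fintype.card F ^ (∑ j ∈ Finset.range n, j) := by
  have hq : 2 ≤ Fintype.card F := Fintype.one_lt_card
  have hN : 1 ≤ ∑ j ∈ Finset.range n, j := by
    have : ∑ j ∈ Finset.range 2, j ≤ ∑ j ∈ Finset.range n, j :=
      Finset.sum_le_sum_of_subset (Finset.range_subset_range.mpr hn)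
    have e : ∑ j ∈ Finset.range 2, j = 1 := by decide
    rw [e] at this
    exact this
  have h2 : 2 ^ 1 ≤ Fintype.card F ^ (∑ j ∈ Finset.range n, j) :=
    le_trans (Nat.pow_le_pow_left hq 1) (Nat.pow_le_pow_right (by omega) hN)
  omega

variable (p : ℕ) [Fact p.Prime] [CharP F p] (M : Ideal AlgInt)

/-- exactly one block of `SL_n(F)` has defect zero -/
theorem card_dz_blocks (hM : IsPModular p M) (hn : 2 ≤ n) :
    Nat.card {B : Set (IrrCharacter (Matrix.SpecialLinearGroup (Fin n) F)) //
      IsPBlock M B ∧ blockDefect p B = 0} = 1 := by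
  have hn0 : 0 < n := by omega
  rw [Nat.card_eq_one_iff_unique]
  constructor
  · constructor
    rintro ⟨B, hB, hB0⟩ ⟨B', hB', hB0'⟩
    apply Subtype.ext
    show B = B'
    rw [block_dz_eq p M hM hn B hB hB0, block_dz_eq p M hM hn B' hB' hB0']
  · exact ⟨⟨_, ⟨stSL n F hn0, rfl⟩, blockDefect_stSL p M hM hn0⟩⟩

theorem stSL_central (hn : 0 < n) (z : Matrix.SpecialLinearGroup (Fin n) F)
    (hz : z ∈ Subgroup.center (Matrix.SpecialLinearGroup (Fin n) F)) :
    (stSL n F hn : Matrix.SpecialLinearGroup (Fin n) F → ℂ) z =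
      (((1 : ↥(Subgroup.center (Matrix.SpecialLinearGroup (Fin n) F)) →* ℂˣ) ⟨z, hz⟩ : ℂˣ) : ℂ) *
        (stSL n F hn : Matrix.SpecialLinearGroup (Fin n) F → ℂ) 1 := by
  rw [MonoidHom.one_apply, Units.val_one, one_mul, stSL_apply, stSL_apply, map_one]
  exact unipotent_central _ z hz

/-- the number of `p`-blocks of `SL_n(F)` in the defining characteristic -/
theorem card_blocks_sl (hM : IsPModular p M) (hn : 2 ≤ n) :
    Nat.card {B : Set (IrrCharacter (Matrix.SpecialLinearGroup (Fin n) F)) // IsPBlock M B} =
      Nat.card (Subgroup.center (Matrix.SpecialLinearGroup (Fin n) F)) + 1 := by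
  classical
  have hn0 : 0 < n := by omega
  haveI : Finite (IrrCharacter (Matrix.SpecialLinearGroup (Fin n) F)) := Helper4.irr_finite
  apply le_antisymm
  · have hdich := block_defect_dichotomy (F := F) (n := n) p M hM hn0
    let f : {B : Set (IrrCharacter (Matrix.SpecialLinearGroup (Fin n) F)) // IsPBlock M B} →
        {B : Set (IrrCharacter (Matrix.SpecialLinearGroup (Fin n) F)) //
          IsPBlock M B ∧ blockDefect p B = 0} ⊕
        {B : Set (IrrCharacter (Matrix.SpecialLinearGroup (Fin n) F)) // IsPBlock M B ∧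
          blockDefect p B = (Nat.card (Matrix.SpecialLinearGroup (Fin n) F)).factorization p} :=
      fun B => if h : blockDefect p B.1 = 0 then Sum.inl ⟨B.1, B.2, h⟩
        else Sum.inr ⟨B.1, B.2, (hdich B.1 B.2).resolve_left h⟩
    have hf : Function.Injective f := by
      intro B B' h
      apply Subtype.ext
      by_cases h0 : blockDefect p B.1 = 0 <;> by_cases h0' : blockDefect p B'.1 = 0
      · simp only [f, dif_pos h0, dif_pos h0'] at h
        have h2 := Sum.inl.inj h
        exact Subtype.mk.inj h2
      · simp only [f, dif_pos h0, dif_neg h0'] at h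
        exact absurd h (by simp)
      · simp only [f, dif_neg h0, dif_pos h0'] at h
        exact absurd h (by simp)
      · simp only [f, dif_neg h0, dif_neg h0'] at h
        have h2 := Sum.inr.inj h
        exact Subtype.mk.inj h2
    have h1 := Nat.card_le_card_of_injective f hf
    rw [Nat.card_sum, card_dz_blocks p M hM hn] at h1
    have h3 := Cfsg.Agent.S4505.result (G := Matrix.SpecialLinearGroup (Fin n) F) p M hM
      ((Nat.card (Matrix.SpecialLinearGroup (Fin n) F)).factorization p)
    have h4 := card_full_classes_le (F := F) p hn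
    omega
  · have hpZ : ¬ p ∣ Nat.card ↥(Subgroup.center (Matrix.SpecialLinearGroup (Fin n) F)) :=
      not_dvd_card_center_sl p hn0
    have hex : ∀ lam : ↥(Subgroup.center (Matrix.SpecialLinearGroup (Fin n) F)) →* ℂˣ,
        ∃ χ : IrrCharacter (Matrix.SpecialLinearGroup (Fin n) F),
          (∀ z (hz : z ∈ Subgroup.center (Matrix.SpecialLinearGroup (Fin n) F)),
            (χ : Matrix.SpecialLinearGroup (Fin n) F → ℂ) z = ((lam ⟨z, hz⟩ : ℂˣ) : ℂ) *
              (χ : Matrix.SpecialLinearGroup (Fin n) F → ℂ) 1) ∧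
          (lam = 1 → χ = Helper83.trivIrr (Matrix.SpecialLinearGroup (Fin n) F)) := by
      intro lam
      by_cases h1 : lam = 1
      · refine ⟨Helper83.trivIrr _, fun z hz => ?_, fun _ => rfl⟩
        rw [h1, Helper83.trivIrr_apply, Helper83.trivIrr_apply, MonoidHom.one_apply, Units.val_one,
          one_mul]
      · obtain ⟨χ, hχ⟩ := exists_irr_central lam
        exact ⟨χ, hχ, fun h => absurd h h1⟩
    choose X hX hX1 using hex
    let f : Option (↥(Subgroup.center (Matrix.SpecialLinearGroup (Fin n) F)) →* ℂˣ) →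
        {B : Set (IrrCharacter (Matrix.SpecialLinearGroup (Fin n) F)) // IsPBlock M B} := fun o =>
      match o with
      | none => ⟨blockOf M (stSL n F hn0 : Matrix.SpecialLinearGroup (Fin n) F → ℂ), ⟨stSL n F hn0, rfl⟩⟩
      | some lam => ⟨blockOf M (X lam : Matrix.SpecialLinearGroup (Fin n) F → ℂ), ⟨X lam, rfl⟩⟩
    have hns : ∀ mu, f none ≠ f (some mu) := by
      intro mu h
      have h' : blockOf M (stSL n F hn0 : Matrix.SpecialLinearGroup (Fin n) F → ℂ) =
          blockOf M (X mu : Matrix.SpecialLinearGroup (Fin n) F → ℂ) := congrArg Subtype.val h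
      have h1 : X mu ∈ blockOf M (stSL n F hn0 : Matrix.SpecialLinearGroup (Fin n) F → ℂ) := by
        rw [h']
        exact Helper79.mem_blockOf_self hM (X mu)
      have hmu : 1 = mu := sameBlock_central hM hpZ (stSL n F hn0) (X mu) 1 mu
        (stSL_central hn0) (hX mu) h1
      have h2 := hX1 mu hmu.symm
      rw [blockOf_stSL p M hM hn0, Set.mem_singleton_iff, h2] at h1
      have h3 := congrArg (fun χ : IrrCharacter (Matrix.SpecialLinearGroup (Fin n) F) =>
        (χ : Matrix.SpecialLinearGroup (Fin n) F → ℂ) 1) h1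
      simp only [Helper83.trivIrr_apply] at h3
      rw [stSL_one] at h3
      have h4 : (1 : ℕ) = Fintype.card F ^ (∑ j ∈ Finset.range n, j) := by exact_mod_cast h3
      have := two_le_stSL_deg (F := F) hn
      omega
    have hf : Function.Injective f := by
      intro o o' h
      rcases o with _ | lam <;> rcases o' with _ | mu
      · rfl
      · exact absurd h (hns mu)
      · exact absurd h.symm (hns lam)
      · have h' : blockOf M (X lam : Matrix.SpecialLinearGroup (Fin n) F → ℂ) =
            blockOf M (X mu : Matrix.SpecialLinearGroup (Fin n) F → ℂ) := congrArg Subtype.val h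
        have h1 : X mu ∈ blockOf M (X lam : Matrix.SpecialLinearGroup (Fin n) F → ℂ) := by
          rw [h']
          exact Helper79.mem_blockOf_self hM (X mu)
        rw [sameBlock_central hM hpZ (X lam) (X mu) lam mu (hX lam) (hX mu) h1]
    have h1 := Nat.card_le_card_of_injective f hf
    rw [Finite.card_option, CommGroup.card_monoidHom_of_hasEnoughRootsOfUnity
      ↥(Subgroup.center (Matrix.SpecialLinearGroup (Fin n) F)) ℂ] at h1
    exact h1

end SLCount2

end Cfsg.Agent.Lib.Helper48
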