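import Mathlib
import Cfsg.Agent.Lib.Helper48.DZu
import Cfsg.Agent.Lib.Helper83.LinearCount
import Cfsg.Agent.Lib.Helper20.CliffordRel
import Cfsg.Agent.S4510

set_option autoImplicit false

namespace Cfsg.Agent.Lib.Helper48

open Cfsg
open scoped MatrixGroups

section CentralHom

variable {G : Type*} [Group G] [Finite G]

/-- the central character of an irreducible character, as a homomorphism on the centre -/
theorem exists_central_hom (χ : IrrCharacter G) : ∃ lam : ↥(Subgroup.center G) →* ℂˣ,
    ∀ z (hz : z ∈ Subgroup.center G),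
      (χ : G → ℂ) z = ((lam ⟨z, hz⟩ : ℂˣ) : ℂ) * (χ : G → ℂ) 1 := by
  classical
  letI : Fintype G := Fintype.ofFinite G
  letI : Fintype ↥(Subgroup.center G) := Fintype.ofFinite _
  have hres : IsCharacter ↥(Subgroup.center G) (fun z : Subgroup.center G => (χ : G → ℂ) z) :=
    Helper4.isCharacter_restrict _ _ (Helper46.isCharacter_of_irr _ χ.2)
  obtain ⟨θ, hθ, hcon⟩ := Helper20.exists_constituent_of_char hres (Helper83.irr_one_ne_zero χ.2)
  have hθ1 : θ 1 = 1 := Helper83.irr_comm_degree hθ
  obtain ⟨lam, hlam⟩ := Helper20.exists_hom_of_linear θ (Helper46.isCharacter_of_irr _ hθ) hθ1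
  have hθeq : θ = fun z => ((lam z : ℂˣ) : ℂ) := by
    funext z
    exact (hlam z).symm
  rw [hθeq] at hcon
  exact ⟨lam, fun z hz => irr_central_value _ χ.2 lam hcon z hz⟩

end CentralHom

section SLFull

variable {n : ℕ} {F : Type*} [Field F] [Fintype F]
variable (p : ℕ) [Fact p.Prime] [CharP F p] (M : Ideal AlgInt)

/-- the block of a character other than the Steinberg character has full defect -/
theorem blockDefect_full (hM : IsPModular p M) (hn : 2 ≤ n)
    (χ : IrrCharacter (Matrix.SpecialLinearGroup (Fin n) F)) (hχ : χ ≠ stSL n F (by omega)) :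
    blockDefect p (blockOf M (χ : Matrix.SpecialLinearGroup (Fin n) F → ℂ)) =
      (Nat.card (Matrix.SpecialLinearGroup (Fin n) F)).factorization p := by
  have hn0 : 0 < n := by omega
  rcases block_defect_dichotomy p M hM hn0 _ (Helper79.isPBlock_blockOf χ) with h | h
  · exfalso
    have h1 := block_dz_eq p M hM hn _ (Helper79.isPBlock_blockOf χ) h
    have h2 : χ ∈ blockOf M (χ : Matrix.SpecialLinearGroup (Fin n) F → ℂ) :=
      Helper79.mem_blockOf_self hM χ
    rw [h1, blockOf_stSL p M hM hn0] at h2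
    exact hχ h2
  · exact h

/-- two characters of `SL_n(F)` other than the Steinberg character with the same central character
lie in the same `p`-block -/
theorem sameBlock_of_central (hM : IsPModular p M) (hn : 2 ≤ n)
    (χ ψ : IrrCharacter (Matrix.SpecialLinearGroup (Fin n) F))
    (hχ : χ ≠ stSL n F (by omega)) (hψ : ψ ≠ stSL n F (by omega))
    (lam : ↥(Subgroup.center (Matrix.SpecialLinearGroup (Fin n) F)) →* ℂˣ)
    (hχl : ∀ z (hz : z ∈ Subgroup.center (Matrix.SpecialLinearGroup (Fin n) F)),
      (χ : Matrix.SpecialLinearGroup (Fin n) F → ℂ) z = ((lam ⟨z, hz⟩ : ℂˣ) : ℂ) *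
        (χ : Matrix.SpecialLinearGroup (Fin n) F → ℂ) 1)
    (hψl : ∀ z (hz : z ∈ Subgroup.center (Matrix.SpecialLinearGroup (Fin n) F)),
      (ψ : Matrix.SpecialLinearGroup (Fin n) F → ℂ) z = ((lam ⟨z, hz⟩ : ℂˣ) : ℂ) *
        (ψ : Matrix.SpecialLinearGroup (Fin n) F → ℂ) 1) :
    SameBlock M (χ : Matrix.SpecialLinearGroup (Fin n) F → ℂ)
      (ψ : Matrix.SpecialLinearGroup (Fin n) F → ℂ) := by
  classical
  letI : Fintype (Matrix.SpecialLinearGroup (Fin n) F) := Fintype.ofFinite _
  haveI := Helper22.isPrime_of_isPModular hM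
  rw [Cfsg.Agent.S4510.result p M hM _ χ ψ (blockDefect_full p M hM hn χ hχ)
    (blockDefect_full p M hM hn ψ hψ)]
  intro x hx hc
  have hxc := central_of_full_cent p hn x hx hc
  rw [centralChar_central _ _ x hxc (hχl x hxc) (Helper83.irr_one_ne_zero χ.2),
    centralChar_central _ _ x hxc (hψl x hxc) (Helper83.irr_one_ne_zero ψ.2), sub_self]
  exact Helper22.memLocalIdeal_zero

/-- a full-defect block of `SL_n(F)` has every Sylow `p`-subgroup as a defect group -/
theorem sylow_isDefectGroup (hM : IsPModular p M) (hn : 2 ≤ n)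
    (B : Set (IrrCharacter (Matrix.SpecialLinearGroup (Fin n) F))) (hB : IsPBlock M B)
    (hfull : blockDefect p B = (Nat.card (Matrix.SpecialLinearGroup (Fin n) F)).factorization p)
    (P : Sylow p (Matrix.SpecialLinearGroup (Fin n) F)) :
    IsDefectGroup p M B (P : Subgroup (Matrix.SpecialLinearGroup (Fin n) F)) := by
  classical
  letI : Fintype (Matrix.SpecialLinearGroup (Fin n) F) := Fintype.ofFinite _
  have hp : p.Prime := Fact.out
  obtain ⟨D, hD⟩ := Cfsg.Agent.S0931.exists_defectGroup p M hM B hB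
  have hcard := Cfsg.Agent.S0908.result p M hM B hB D hD
  obtain ⟨g, hg, S, hS⟩ := hD
  have hreg : ¬ p ∣ orderOf g := Helper22.pRegular_of_blockCoeff_ne_zero hM B hB g (by
    intro h0
    apply hg.2.1
    rw [h0]
    haveI := Helper22.isPrime_of_isPModular hM
    exact Helper22.memLocalIdeal_zero)
  have hc : (Nat.card (Subgroup.centralizer ({g} : Set (Matrix.SpecialLinearGroup (Fin n) F)))).factorization p =
      (Nat.card (Matrix.SpecialLinearGroup (Fin n) F)).factorization p := by
    rw [hS, ← Nat.card_congr (Subgroup.equivMapOfInjective _ _ (Subgroup.subtype_injective _)).toEquiv,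
      Sylow.card_eq_multiplicity, hfull] at hcard
    exact Nat.pow_right_injective hp.two_le hcard
  have hgc := central_of_full_cent p hn g hreg hc
  have htop : Subgroup.centralizer ({g} : Set (Matrix.SpecialLinearGroup (Fin n) F)) = ⊤ := by
    rw [Subgroup.centralizer_eq_top_iff_subset]
    intro y hy
    rw [Set.mem_singleton_iff] at hy
    rw [hy]
    exact hgc
  have hPle : (P : Subgroup (Matrix.SpecialLinearGroup (Fin n) F)) ≤
      Subgroup.centralizer ({g} : Set (Matrix.SpecialLinearGroup (Fin n) F)) := by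
    rw [htop]
    exact le_top
  refine ⟨g, hg, P.subtype hPle, ?_⟩
  rw [Sylow.coe_subtype, Subgroup.subgroupOf_map_subtype, inf_eq_left.mpr hPle]

end SLFull

end Cfsg.Agent.Lib.Helper48
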