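import Mathlib
import Cfsg.Agent.Lib.Helper48.CharGen
import Cfsg.Agent.S2429
import Cfsg.Agent.S2432

set_option autoImplicit false

namespace Cfsg.Agent.Lib.Helper48

open Cfsg
open scoped ComplexConjugate
open Cfsg.Agent.S2429 (SL Tns Tw mem_Tns mem_Tw)
open Cfsg.Agent.S2433 (Bor theta mkB mkB_coe mkC mkC_coe slEquiv mem_bor_iff)

section Basic

variable {F : Type*} [Field F]

/-- upper triangular matrices with equal diagonal entries (which are then `±1`) -/
def ZU (F : Type*) [Field F] : Subgroup (SL F) where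
  carrier := {g | g.1 1 0 = 0 ∧ g.1 0 0 = g.1 1 1}
  mul_mem' := by
    rintro g h ⟨hg1, hg2⟩ ⟨hh1, hh2⟩
    simp only [Set.mem_ofPred_eq, Matrix.SpecialLinearGroup.coe_mul, Matrix.mul_apply, Fin.sum_univ_two]
    constructor
    · rw [hg1, hh1]; ring
    · rw [hg1, hh1, hg2, hh2]; ring
  one_mem' := by simp
  inv_mem' := by
    rintro g ⟨hg1, hg2⟩
    simp only [Set.mem_ofPred_eq, Matrix.SpecialLinearGroup.coe_inv, Matrix.adjugate_fin_two, Matrix.of_apply, Matrix.cons_val',
      Matrix.cons_val_zero, Matrix.cons_val_one, Matrix.empty_val', Matrix.cons_val_fin_one]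
    constructor
    · rw [hg1]; simp
    · exact hg2.symm

lemma mem_ZU (g : SL F) : g ∈ ZU F ↔ g.1 1 0 = 0 ∧ g.1 0 0 = g.1 1 1 := Iff.rfl

lemma ZU_sq (g : SL F) (hg : g ∈ ZU F) : g.1 0 0 * g.1 0 0 = 1 := by
  obtain ⟨h1, h2⟩ := hg
  have hdet := Cfsg.Agent.S2429.det_eq g
  rw [h1, ← h2] at hdet
  linear_combination hdet

lemma trace_conj (x g : SL F) :
    (x⁻¹ * g * x).1 0 0 + (x⁻¹ * g * x).1 1 1 = g.1 0 0 + g.1 1 1 := by
  have hdet := Cfsg.Agent.S2429.det_eq x
  simp only [Matrix.SpecialLinearGroup.coe_mul, Matrix.SpecialLinearGroup.coe_inv,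
    Matrix.adjugate_fin_two, Matrix.mul_apply, Fin.sum_univ_two]
  simp only [Matrix.of_apply, Matrix.cons_val', Matrix.cons_val_zero, Matrix.cons_val_one,
    Matrix.empty_val', Matrix.cons_val_fin_one]
  linear_combination (g.1 0 0 + g.1 1 1) * hdet

/-- scalar matrices are central -/
lemma scalar_conj (z : SL F) (h01 : z.1 0 1 = 0) (h10 : z.1 1 0 = 0) (h : z.1 0 0 = z.1 1 1)
    (x : SL F) : x⁻¹ * z * x = z := by
  have hc : z * x = x * z := by
    ext i j
    fin_cases i <;> fin_cases j <;>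
      simp only [Matrix.SpecialLinearGroup.coe_mul, Matrix.mul_apply, Fin.sum_univ_two, Fin.zero_eta,
        Fin.mk_one, Fin.isValue] <;>
      simp only [h01, h10, ← h] <;> ring
  rw [mul_assoc, hc, ← mul_assoc, inv_mul_cancel, one_mul]

lemma conj_T_10 (ε : F) (c : SL F) (hc : c ∈ Tns ε) (y : SL F) :
    (y⁻¹ * c * y).1 1 0 = c.1 1 0 * (y.1 0 0 ^ 2 - ε * y.1 1 0 ^ 2) := by
  obtain ⟨h1, h2⟩ := hc
  rw [Cfsg.Agent.S2433.inv_conj_10, h2, ← h1]
  ring

lemma norm_ne_zero (ε : F) (hε : ¬ IsSquare ε) (y : SL F) : y.1 0 0 ^ 2 - ε * y.1 1 0 ^ 2 ≠ 0 := by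
  intro h
  by_cases h10 : y.1 1 0 = 0
  · rw [h10] at h
    have h00 : y.1 0 0 = 0 := by
      have : y.1 0 0 ^ 2 = 0 := by linear_combination h
      exact pow_eq_zero_iff (two_ne_zero) |>.mp this
    have hdet := Cfsg.Agent.S2429.det_eq y
    rw [h00, h10] at hdet
    simp at hdet
  · apply hε
    refine ⟨y.1 0 0 / y.1 1 0, ?_⟩
    field_simp
    linear_combination -h

/-- the entry `(1,0)` of a conjugate of an upper triangular matrix with equal diagonal entries -/
lemma conj_U_10 (b : SL F) (hb : b ∈ ZU F) (y : SL F) :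
    (y⁻¹ * b * y).1 1 0 = - b.1 0 1 * y.1 1 0 ^ 2 := by
  obtain ⟨h1, h2⟩ := hb
  rw [Cfsg.Agent.S2433.inv_conj_10, h1, ← h2]
  ring

end Basic

section Sums

variable {F : Type*} [Field F] [Fintype F] [DecidableEq F]

lemma sum_units_eq (g : F → ℂ) : ∑ a : Fˣ, g (a : F) = ∑ x : F, g x - g 0 := by
  have h1 : ∑ a : Fˣ, g (a : F) = ∑ x : {x : F // x ≠ 0}, g (x : F) :=
    Fintype.sum_equiv unitsEquivNeZero _ _ (fun a => rfl)
  rw [h1, ← Finset.sum_subtype (Finset.univ.filter (fun x : F => x ≠ 0)) (by simp) (fun x => g x)]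
  rw [Finset.sum_filter]
  rw [← Finset.sum_erase_add Finset.univ _ (Finset.mem_univ (0 : F))]
  rw [← Finset.sum_erase_add Finset.univ g (Finset.mem_univ (0 : F))]
  simp only [ne_eq, not_true_eq_false, if_false, add_zero, add_sub_cancel_right]
  apply Finset.sum_congr rfl
  intro x hx
  rw [if_pos (Finset.ne_of_mem_erase hx)]

lemma sum_fiber {ι κ : Type*} [Fintype ι] [Fintype κ] [DecidableEq κ] (φ : ι → κ) (g : κ → ℂ) :
    ∑ d : ι, g (φ d) = ∑ y : κ, ((Finset.univ.filter (fun d : ι => φ d = y)).card : ℂ) * g y := by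
  have h1 : ∀ d : ι, g (φ d) = ∑ y : κ, if φ d = y then g y else 0 := by
    intro d
    rw [Finset.sum_ite_eq]
    simp
  simp only [h1]
  rw [Finset.sum_comm]
  apply Finset.sum_congr rfl
  intro y _
  rw [← Finset.sum_filter, Finset.sum_const, nsmul_eq_mul]

/-- squares and non-squares -/
lemma sum_sq_nonsq (ε : F) (hε : ¬ IsSquare ε) (h2 : (2 : F) ≠ 0) (g : F → ℂ) :
    ∑ d : F, (g (d ^ 2) + g (ε * d ^ 2)) = 2 * ∑ y : F, g y := by
  have hF : ringChar F ≠ 2 := by
    intro h
    apply h2
    have : ((2 : ℕ) : F) = 0 := by rw [← h]; exact ringChar.Nat.cast_ringChar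
    exact_mod_cast this
  have hε0 : ε ≠ 0 := fun h => hε (h ▸ IsSquare.zero)
  have hχε : quadraticChar F ε = -1 := quadraticChar_neg_one_iff_not_isSquare.mpr hε
  have c1 : ∀ y : F, ((Finset.univ.filter (fun d : F => d ^ 2 = y)).card : ℤ) = quadraticChar F y + 1 := by
    intro y
    rw [← quadraticChar_card_sqrts hF y]
    congr 2
    ext d
    simp
  have c2 : ∀ y : F, ((Finset.univ.filter (fun d : F => ε * d ^ 2 = y)).card : ℤ) = - quadraticChar F y + 1 := by
    intro y
    have e : (Finset.univ.filter (fun d : F => ε * d ^ 2 = y)).card =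
        (Finset.univ.filter (fun d : F => d ^ 2 = ε * y)).card := by
      apply Finset.card_bij (fun d _ => ε * d)
      · intro d hd
        simp only [Finset.mem_filter, Finset.mem_univ, true_and] at hd ⊢
        rw [← hd]; ring
      · intro d _ d' _ h
        exact mul_left_cancel₀ hε0 h
      · intro d hd
        simp only [Finset.mem_filter, Finset.mem_univ, true_and] at hd
        refine ⟨d / ε, ?_, ?_⟩
        · simp only [Finset.mem_filter, Finset.mem_univ, true_and]
          field_simp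
          rw [hd]
        · field_simp
    rw [e, c1, map_mul, hχε]
    ring
  rw [Finset.sum_add_distrib, sum_fiber (fun d : F => d ^ 2) g, sum_fiber (fun d : F => ε * d ^ 2) g,
    ← Finset.sum_add_distrib, Finset.mul_sum]
  apply Finset.sum_congr rfl
  intro y _
  have := c1 y
  have h' := c2 y
  have hsum : ((Finset.univ.filter (fun d : F => d ^ 2 = y)).card : ℤ) +
      ((Finset.univ.filter (fun d : F => ε * d ^ 2 = y)).card : ℤ) = 2 := by
    rw [c1, c2]; ring
  have hsum' : ((Finset.univ.filter (fun d : F => d ^ 2 = y)).card : ℂ) +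
      ((Finset.univ.filter (fun d : F => ε * d ^ 2 = y)).card : ℂ) = 2 := by
    exact_mod_cast hsum
  rw [← add_mul, hsum']

/-- the sum over the units of square one -/
lemma sum_units_sq (h2 : (2 : F) ≠ 0) (f : Fˣ → ℂ) :
    ∑ a : Fˣ, (if (a : F) = (a : F)⁻¹ then f a else 0) = f 1 + f (-1) := by
  have hne : (1 : Fˣ) ≠ -1 := by
    intro h
    have h' := congrArg (fun u : Fˣ => (u : F)) h
    simp only [Units.val_one, Units.val_neg] at h'
    apply h2
    linear_combination h'
  rw [← Finset.sum_filter]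
  have : Finset.univ.filter (fun a : Fˣ => (a : F) = (a : F)⁻¹) = {1, -1} := by
    ext a
    simp only [Finset.mem_filter, Finset.mem_univ, true_and, Finset.mem_insert, Finset.mem_singleton]
    constructor
    · intro h
      have h1 : (a : F) * (a : F) = 1 := by
        nth_rewrite 2 [h]
        exact mul_inv_cancel₀ a.ne_zero
      have h3 : ((a : F) - 1) * ((a : F) + 1) = 0 := by linear_combination h1
      rcases mul_eq_zero.mp h3 with h' | h'
      · left
        apply Units.ext
        rw [Units.val_one]; linear_combination h'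
      · right
        apply Units.ext
        rw [Units.val_neg, Units.val_one]; linear_combination h'
    · rintro (h | h) <;> rw [h] <;> simp
  rw [this, Finset.sum_pair hne]

end Sums

end Cfsg.Agent.Lib.Helper48
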