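import Mathlib
import Cfsg.Agent.Lib.Helper48.SL2a

set_option autoImplicit false

namespace Cfsg.Agent.Lib.Helper48

open Cfsg
open scoped ComplexConjugate
open Cfsg.Agent.S2429 (SL Tns Tw mem_Tns mem_Tw)
open Cfsg.Agent.S2433 (Bor theta mkB mkB_coe mkC mkC_coe slEquiv mem_bor_iff)

section Gam

variable {F : Type*} [Field F] [Fintype F] [DecidableEq F]

/-- the character of `{±1}` with value `e` at `-1` -/
def sg (e : ℂ) (a : F) : ℂ := if a = 1 then 1 else e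

omit [Fintype F] in
lemma sg_one (e : ℂ) : sg e (1 : F) = 1 := if_pos rfl

omit [Fintype F] in
lemma sg_neg_one (h2 : (2 : F) ≠ 0) (e : ℂ) : sg e (-1 : F) = e :=
  if_neg (by intro h; apply h2; linear_combination -h)

omit [Fintype F] in
lemma sq_one_cases (a : F) (ha : a * a = 1) : a = 1 ∨ a = -1 := by
  have h3 : (a - 1) * (a + 1) = 0 := by linear_combination ha
  rcases mul_eq_zero.mp h3 with h' | h'
  · left; linear_combination h'
  · right; linear_combination h'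

omit [Fintype F] in
lemma sg_mul (e : ℂ) (he : e = 1 ∨ e = -1) (a b : F) (ha : a * a = 1) (hb : b * b = 1) :
    sg e (a * b) = sg e a * sg e b := by
  have he2 : e * e = 1 := by rcases he with h | h <;> rw [h] <;> norm_num
  rcases sq_one_cases a ha with rfl | rfl
  · rw [one_mul, sg_one, one_mul]
  · rcases sq_one_cases b hb with rfl | rfl
    · rw [mul_one, sg_one, mul_one]
    · rw [neg_mul_neg, one_mul, sg_one]
      unfold sg
      by_cases h : (-1 : F) = 1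
      · rw [if_pos h]; simp
      · rw [if_neg h, he2]

/-- the linear character `ζ ⊗ ψ_s` of `ZU` -/
noncomputable def lamFun (ψ : AddChar F ℂ) (e : ℂ) (s : F) : ZU F → ℂ :=
  fun g => sg e (g.1.1 0 0) * ψ (s * (g.1.1 0 0 * g.1.1 0 1))

noncomputable def lamHom (ψ : AddChar F ℂ) (e : ℂ) (he : e = 1 ∨ e = -1) (s : F) : ZU F →* ℂ where
  toFun := lamFun ψ e s
  map_one' := by
    show sg e ((1 : SL F).1 0 0) * ψ (s * ((1 : SL F).1 0 0 * (1 : SL F).1 0 1)) = 1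
    simp [sg_one]
  map_mul' := by
    rintro ⟨g, hg⟩ ⟨h, hh⟩
    show sg e ((g * h).1 0 0) * ψ (s * ((g * h).1 0 0 * (g * h).1 0 1)) =
      (sg e (g.1 0 0) * ψ (s * (g.1 0 0 * g.1 0 1))) * (sg e (h.1 0 0) * ψ (s * (h.1 0 0 * h.1 0 1)))
    have hg2 := ZU_sq g hg
    have hh2 := ZU_sq h hh
    obtain ⟨hg10, hg11⟩ := hg
    obtain ⟨hh10, hh11⟩ := hh
    have e00 : (g * h).1 0 0 = g.1 0 0 * h.1 0 0 := by
      simp only [Matrix.SpecialLinearGroup.coe_mul, Matrix.mul_apply, Fin.sum_univ_two]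
      rw [hh10]; ring
    have e01 : (g * h).1 0 1 = g.1 0 0 * h.1 0 1 + g.1 0 1 * h.1 1 1 := by
      simp only [Matrix.SpecialLinearGroup.coe_mul, Matrix.mul_apply, Fin.sum_univ_two]
    have earg : s * ((g * h).1 0 0 * (g * h).1 0 1) = s * (g.1 0 0 * g.1 0 1) + s * (h.1 0 0 * h.1 0 1) := by
      rw [e00, e01, ← hh11]
      linear_combination s * h.1 0 0 * h.1 0 1 * hg2 + s * g.1 0 0 * g.1 0 1 * hh2
    rw [earg, AddChar.map_add_eq_mul, e00, sg_mul e he _ _ hg2 hh2]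
    ring

lemma isCharacter_lam (ψ : AddChar F ℂ) (e : ℂ) (he : e = 1 ∨ e = -1) (s : F) :
    IsCharacter (ZU F) (lamFun ψ e s) :=
  Helper46.isCharacter_of_irr _ (Helper46.isIrrCharacter_of_hom (lamHom ψ e he s))

/-- the Gelfand–Graev type characters -/
noncomputable def Gam (ψ : AddChar F ℂ) (e : ℂ) (s : F) : SL F → ℂ := indFun (ZU F) (lamFun ψ e s)

lemma isCharacter_Gam (ψ : AddChar F ℂ) (e : ℂ) (he : e = 1 ∨ e = -1) (s : F) :
    IsCharacter (SL F) (Gam ψ e s) :=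
  Helper46.isCharacter_indFun _ _ (isCharacter_lam ψ e he s)

lemma ext_lam (ψ : AddChar F ℂ) (e : ℂ) (s : F) (y : SL F) :
    extendByZero (ZU F) (lamFun ψ e s) y =
      if y.1 1 0 = 0 ∧ y.1 0 0 = y.1 1 1 then sg e (y.1 0 0) * ψ (s * (y.1 0 0 * y.1 0 1)) else 0 := by
  by_cases h : y.1 1 0 = 0 ∧ y.1 0 0 = y.1 1 1
  · rw [if_pos h, Helper46.extendByZero_of_mem (ZU F) _ ((mem_ZU y).mpr h)]
    rfl
  · rw [if_neg h, Helper46.extendByZero_of_not_mem (ZU F) _ (fun hy => h ((mem_ZU y).mp hy))]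

/-- summation over `SL₂` -/
lemma sum_SL (f : SL F → ℂ) :
    ∑ g : SL F, f g = ∑ t : Fˣ × F × F, f (mkC t.1 t.2.1 t.2.2) + ∑ a : Fˣ, ∑ x : F, f (mkB a x) := by
  rw [← Equiv.sum_comp (slEquiv F), Fintype.sum_sum_type, Fintype.sum_prod_type (f := fun t : Fˣ × F => f (slEquiv F (Sum.inr t)))]
  rfl

omit [Fintype F] [DecidableEq F] in
lemma mkC_10 (c : Fˣ) (a d : F) : (mkC c a d : SL F).1 1 0 = (c : F) := by
  rw [mkC_coe]; simp

omit [Fintype F] [DecidableEq F] in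
lemma mkB_10 (a : Fˣ) (x : F) : (mkB a x : SL F).1 1 0 = 0 := by
  rw [mkB_coe]; simp

omit [Fintype F] [DecidableEq F] in
lemma mkB_00 (a : Fˣ) (x : F) : (mkB a x : SL F).1 0 0 = (a : F) := by
  rw [mkB_coe]; simp

omit [Fintype F] [DecidableEq F] in
lemma mkB_11 (a : Fˣ) (x : F) : (mkB a x : SL F).1 1 1 = (a : F)⁻¹ := by
  rw [mkB_coe]; simp

omit [Fintype F] [DecidableEq F] in
lemma mkB_01 (a : Fˣ) (x : F) : (mkB a x : SL F).1 0 1 = x := by
  rw [mkB_coe]; simp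

/-- summation over the upper triangular subgroup -/
lemma sum_B (f : SL F → ℂ) :
    ∑ g : SL F, (if g.1 1 0 = 0 then f g else 0) = ∑ a : Fˣ, ∑ x : F, f (mkB a x) := by
  rw [sum_SL]
  have h1 : ∀ t : Fˣ × F × F, (if (mkC t.1 t.2.1 t.2.2 : SL F).1 1 0 = 0 then f (mkC t.1 t.2.1 t.2.2) else 0) = 0 := by
    intro t
    rw [mkC_10, if_neg t.1.ne_zero]
  simp only [h1, Finset.sum_const_zero, zero_add, mkB_10, if_true]

/-- summation over `ZU` -/
lemma sum_ZU (h2 : (2 : F) ≠ 0) (f : SL F → ℂ) :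
    ∑ g : SL F, (if g.1 1 0 = 0 ∧ g.1 0 0 = g.1 1 1 then f g else 0) =
      ∑ x : F, f (mkB 1 x) + ∑ x : F, f (mkB (-1) x) := by
  have h1 : ∀ g : SL F, (if g.1 1 0 = 0 ∧ g.1 0 0 = g.1 1 1 then f g else 0) =
      if g.1 1 0 = 0 then (if g.1 0 0 = g.1 1 1 then f g else 0) else 0 := by
    intro g
    by_cases h : g.1 1 0 = 0 <;> simp [h]
  simp only [h1]
  rw [sum_B (fun g => if g.1 0 0 = g.1 1 1 then f g else 0)]
  simp only [mkB_00, mkB_11]
  have h3 : ∀ a : Fˣ, ∑ x : F, (if (a : F) = (a : F)⁻¹ then f (mkB a x) else 0) =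
      if (a : F) = (a : F)⁻¹ then ∑ x : F, f (mkB a x) else 0 := by
    intro a
    by_cases h : (a : F) = (a : F)⁻¹
    · simp only [if_pos h]
    · simp only [if_neg h, Finset.sum_const_zero]
  simp only [h3]
  exact sum_units_sq h2 (fun a => ∑ x : F, f (mkB a x))

lemma card_ZU (h2 : (2 : F) ≠ 0) : Nat.card (ZU F) = 2 * Fintype.card F := by
  have h0 : Nat.card (ZU F) =
      (Finset.univ.filter (fun g : SL F => g.1 1 0 = 0 ∧ g.1 0 0 = g.1 1 1)).card := by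
    rw [← Fintype.card_subtype, ← Nat.card_eq_fintype_card]
    exact Nat.card_congr (Equiv.subtypeEquivRight (fun g => mem_ZU g))
  have h1 : (Nat.card (ZU F) : ℂ) = ∑ g : SL F, (if g.1 1 0 = 0 ∧ g.1 0 0 = g.1 1 1 then (1 : ℂ) else 0) := by
    rw [h0, Finset.sum_boole]
  have h3 : (Nat.card (ZU F) : ℂ) = ((2 * Fintype.card F : ℕ) : ℂ) := by
    rw [h1, sum_ZU h2 (fun _ => (1 : ℂ))]
    simp only [Finset.sum_const, Finset.card_univ, nsmul_eq_mul, mul_one]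
    push_cast
    ring
  exact_mod_cast h3

/-- `Γ` vanishes away from trace `±2` -/
lemma Gam_trace (ψ : AddChar F ℂ) (e : ℂ) (s : F) (g : SL F) (hg : (g.1 0 0 + g.1 1 1) ^ 2 ≠ 4) :
    Gam ψ e s g = 0 := by
  apply indFun_eq_zero
  intro x hx
  apply hg
  have h1 := ZU_sq _ hx
  obtain ⟨-, h11⟩ := hx
  rw [← trace_conj x g, ← h11]
  linear_combination 4 * h1

lemma Gam_scalar (ψ : AddChar F ℂ) (e : ℂ) (s : F) (z : SL F) (h01 : z.1 0 1 = 0) (h10 : z.1 1 0 = 0)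
    (h : z.1 0 0 = z.1 1 1) :
    Gam ψ e s z = (Fintype.card (SL F) : ℂ) * (Nat.card (ZU F) : ℂ)⁻¹ * sg e (z.1 0 0) := by
  have hz : z ∈ ZU F := ⟨h10, h⟩
  unfold Gam
  rw [indFun_central (ZU F) _ z hz (scalar_conj z h01 h10 h)]
  show _ * (sg e (z.1 0 0) * ψ (s * (z.1 0 0 * z.1 0 1))) = _
  rw [h01, mul_zero, mul_zero, AddChar.map_zero_eq_one, mul_one]

omit [Fintype F] [DecidableEq F] in
lemma conj_mkB (a d : Fˣ) (x t : F) (ha : (a : F) = (a : F)⁻¹) :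
    (mkB d t)⁻¹ * mkB a x * mkB d t = (mkB a (x * ((d : F)⁻¹) ^ 2) : SL F) := by
  have hd : (d : F) ≠ 0 := d.ne_zero
  ext i j
  fin_cases i <;> fin_cases j <;>
    simp only [Matrix.SpecialLinearGroup.coe_mul, Matrix.SpecialLinearGroup.coe_inv,
      Matrix.adjugate_fin_two, Matrix.mul_apply, Fin.sum_univ_two, mkB_coe, Fin.zero_eta, Fin.mk_one,
      Fin.isValue] <;>
    simp only [Matrix.of_apply, Matrix.cons_val', Matrix.cons_val_zero, Matrix.cons_val_one,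
      Matrix.empty_val', Matrix.cons_val_fin_one] <;>
    (try rw [← ha]) <;> field_simp <;> ring

lemma Gam_unip (ψ : AddChar F ℂ) (e : ℂ) (s : F) (a : Fˣ) (x : F) (ha : (a : F) = (a : F)⁻¹)
    (hx : x ≠ 0) :
    Gam ψ e s (mkB a x) = (Nat.card (ZU F) : ℂ)⁻¹ * ((Fintype.card F : ℂ) *
      (sg e (a : F) * ∑ d : Fˣ, ψ (s * ((a : F) * (x * ((d : F)⁻¹) ^ 2))))) := by
  unfold Gam indFun
  congr 1
  rw [sum_SL]
  have h1 : ∀ t : Fˣ × F × F,
      extendByZero (ZU F) (lamFun ψ e s) ((mkC t.1 t.2.1 t.2.2)⁻¹ * mkB a x * mkC t.1 t.2.1 t.2.2) = 0 := by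
    intro t
    rw [ext_lam, if_neg]
    rintro ⟨h10, -⟩
    rw [conj_U_10 _ ⟨mkB_10 a x, by rw [mkB_00, mkB_11]; exact ha⟩, mkB_01, mkC_10] at h10
    have : x * (t.1 : F) ^ 2 = 0 := by linear_combination -h10
    rcases mul_eq_zero.mp this with h | h
    · exact hx h
    · exact t.1.ne_zero (pow_eq_zero_iff (two_ne_zero) |>.mp h)
  have h2 : ∀ (d : Fˣ) (t : F),
      extendByZero (ZU F) (lamFun ψ e s) ((mkB d t)⁻¹ * mkB a x * mkB d t) =
        sg e (a : F) * ψ (s * ((a : F) * (x * ((d : F)⁻¹) ^ 2))) := by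
    intro d t
    rw [conj_mkB a d x t ha, ext_lam, mkB_10, mkB_00, mkB_11, mkB_01, if_pos ⟨rfl, ha⟩]
  simp only [h1, h2, Finset.sum_const_zero, zero_add, Finset.sum_const, Finset.card_univ, nsmul_eq_mul]
  rw [← Finset.mul_sum, ← Finset.mul_sum]

/-- the value of `Γ_{e,1} + Γ_{e,ε}` at a non-central element of `ZU` -/
lemma Gam_tot_unip (ψ : AddChar F ℂ) (hψ : ψ.IsPrimitive) (ε : F) (hε : ¬ IsSquare ε) (h2 : (2 : F) ≠ 0)
    (e : ℂ) (a : Fˣ) (x : F) (ha : (a : F) = (a : F)⁻¹) (hx : x ≠ 0) :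
    Gam ψ e 1 (mkB a x) + Gam ψ e ε (mkB a x) = - sg e (a : F) := by
  rw [Gam_unip ψ e 1 a x ha hx, Gam_unip ψ e ε a x ha hx, card_ZU h2]
  have hq : (Fintype.card F : ℂ) ≠ 0 := Nat.cast_ne_zero.mpr Fintype.card_ne_zero
  have key : ∑ d : Fˣ, ψ (1 * ((a : F) * (x * ((d : F)⁻¹) ^ 2))) +
      ∑ d : Fˣ, ψ (ε * ((a : F) * (x * ((d : F)⁻¹) ^ 2))) = -2 := by
    rw [← Finset.sum_add_distrib]
    have h1 : ∑ d : Fˣ, (ψ (1 * ((a : F) * (x * ((d : F)⁻¹) ^ 2))) + ψ (ε * ((a : F) * (x * ((d : F)⁻¹) ^ 2))))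
        = ∑ d : Fˣ, (ψ (1 * ((a : F) * (x * ((d : F)) ^ 2))) + ψ (ε * ((a : F) * (x * ((d : F)) ^ 2)))) := by
      rw [← Equiv.sum_comp (Equiv.inv Fˣ)]
      apply Finset.sum_congr rfl
      intro d _
      simp
    rw [h1, sum_units_eq (fun d : F => ψ (1 * ((a : F) * (x * d ^ 2))) + ψ (ε * ((a : F) * (x * d ^ 2))))]
    have h3 := sum_sq_nonsq ε hε h2 (fun y : F => ψ (y * ((a : F) * x)))
    have h4 : ∑ d : F, (ψ (1 * ((a : F) * (x * d ^ 2))) + ψ (ε * ((a : F) * (x * d ^ 2)))) =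
        ∑ d : F, (ψ (d ^ 2 * ((a : F) * x)) + ψ (ε * d ^ 2 * ((a : F) * x))) := by
      apply Finset.sum_congr rfl
      intro d _
      congr 2 <;> ring
    rw [h4, h3, AddChar.sum_mulShift _ hψ, if_neg (mul_ne_zero a.ne_zero hx)]
    simp only [ne_eq, OfNat.ofNat_ne_zero, not_false_eq_true, zero_pow, mul_zero, AddChar.map_zero_eq_one]
    norm_num
  have : (((2 * Fintype.card F : ℕ) : ℂ))⁻¹ * ((Fintype.card F : ℂ) *
      (sg e (a : F) * ∑ d : Fˣ, ψ (1 * ((a : F) * (x * ((d : F)⁻¹) ^ 2))))) +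
      (((2 * Fintype.card F : ℕ) : ℂ))⁻¹ * ((Fintype.card F : ℂ) *
      (sg e (a : F) * ∑ d : Fˣ, ψ (ε * ((a : F) * (x * ((d : F)⁻¹) ^ 2))))) =
      (((2 * Fintype.card F : ℕ) : ℂ))⁻¹ * ((Fintype.card F : ℂ) * (sg e (a : F) *
        (∑ d : Fˣ, ψ (1 * ((a : F) * (x * ((d : F)⁻¹) ^ 2))) +
         ∑ d : Fˣ, ψ (ε * ((a : F) * (x * ((d : F)⁻¹) ^ 2)))))) := by ring
  rw [this, key]
  push_cast
  field_simp

end Gam

end Cfsg.Agent.Lib.Helper48
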