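import Mathlib
import Cfsg.Agent.Lib.Helper48.SL2b

set_option autoImplicit false

namespace Cfsg.Agent.Lib.Helper48

open Cfsg
open scoped ComplexConjugate
open Cfsg.Agent.S2429 (SL Tns Tw mem_Tns mem_Tw)
open Cfsg.Agent.S2433 (Bor theta mkB mkB_coe mkC mkC_coe slEquiv mem_bor_iff)

section Tor

variable {F : Type*} [Field F] [Fintype F] [DecidableEq F]

/-- the character induced from the non-split torus -/
noncomputable def IT (ε : F) (θ : Tns ε →* ℂˣ) : SL F → ℂ :=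
  indFun (Tns ε) (fun c => ((θ c : ℂˣ) : ℂ))

omit [Fintype F] [DecidableEq F] in
lemma isIrr_thetaT (ε : F) (θ : Tns ε →* ℂˣ) :
    IsIrrCharacter (Tns ε) (fun c => ((θ c : ℂˣ) : ℂ)) :=
  Helper46.isIrrCharacter_of_hom ((Units.coeHom ℂ).comp θ)

lemma isCharacter_IT (ε : F) (θ : Tns ε →* ℂˣ) : IsCharacter (SL F) (IT ε θ) :=
  Helper46.isCharacter_indFun _ _ (Helper46.isCharacter_of_irr _ (isIrr_thetaT ε θ))

omit [Fintype F] [DecidableEq F] in
lemma exists_Tw (ε : F) (hε : ¬ IsSquare ε) [Fintype F] (hcard : Fintype.card F % 2 = 1) :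
    ∃ s₀ : SL F, s₀ ∈ Tw ε := by
  have hε0 : ε ≠ 0 := fun h => hε (h ▸ IsSquare.zero)
  obtain ⟨c, d, hcd⟩ := FiniteField.exists_root_sum_quadratic
    (f := Polynomial.X ^ 2 + Polynomial.C (1 : F)) (g := Polynomial.C (-ε) * Polynomial.X ^ 2)
    (Polynomial.degree_X_pow_add_C (by norm_num) _)
    (Polynomial.degree_C_mul_X_pow 2 (neg_ne_zero.mpr hε0))
    hcard
  simp only [Polynomial.eval_add, Polynomial.eval_mul, Polynomial.eval_C, Polynomial.eval_pow,
    Polynomial.eval_X] at hcd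
  refine ⟨⟨!![c, -(ε * d); d, -c], by
    rw [Matrix.det_fin_two_of]
    linear_combination -hcd⟩, ?_⟩
  show (!![c, -(ε * d); d, -c] : Matrix (Fin 2) (Fin 2) F) 0 0 = -(!![c, -(ε * d); d, -c] : Matrix (Fin 2) (Fin 2) F) 1 1 ∧
    (!![c, -(ε * d); d, -c] : Matrix (Fin 2) (Fin 2) F) 0 1 = -(ε * (!![c, -(ε * d); d, -c] : Matrix (Fin 2) (Fin 2) F) 1 0)
  constructor <;> simp

omit [Fintype F] [DecidableEq F] in
lemma Tw_T_mul (ε : F) (s t : SL F) (hs : s ∈ Tw ε) (ht : t ∈ Tns ε) : s * t ∈ Tw ε := by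
  obtain ⟨hs1, hs2⟩ := hs
  obtain ⟨ht1, ht2⟩ := ht
  rw [mem_Tw]
  simp only [Matrix.SpecialLinearGroup.coe_mul, Matrix.mul_apply, Fin.sum_univ_two]
  constructor
  · rw [hs1, hs2, ht1, ht2]; ring
  · rw [hs1, hs2, ht1, ht2]; ring

lemma card_filter_T (ε : F) :
    (Finset.univ.filter (fun y : SL F => y.1 0 0 = y.1 1 1 ∧ y.1 0 1 = ε * y.1 1 0)).card =
      Nat.card (Tns ε) := by
  rw [← Fintype.card_subtype, ← Nat.card_eq_fintype_card]
  exact Nat.card_congr (Equiv.subtypeEquivRight (fun g => (mem_Tns ε g).symm))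

lemma card_filter_Tw (ε : F) (hε : ¬ IsSquare ε) (hcard : Fintype.card F % 2 = 1) :
    (Finset.univ.filter (fun y : SL F => y.1 0 0 = - y.1 1 1 ∧ y.1 0 1 = -(ε * y.1 1 0))).card =
      Nat.card (Tns ε) := by
  obtain ⟨s₀, hs₀⟩ := exists_Tw ε hε hcard
  rw [← card_filter_T ε, ← Fintype.card_subtype, ← Fintype.card_subtype]
  apply Fintype.card_congr
  refine (Equiv.mulLeft s₀⁻¹).subtypeEquiv ?_
  intro y
  simp only [Equiv.coe_mulLeft]
  constructor
  · intro hy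
    exact Cfsg.Agent.S2429.Tw_mul ε s₀⁻¹ y (Cfsg.Agent.S2429.Tw_inv ε s₀ hs₀) hy
  · intro hy
    have : y = s₀ * (s₀⁻¹ * y) := by group
    rw [this]
    exact Tw_T_mul ε s₀ _ hs₀ hy

/-- the value of the torus-induced character at a non-central element of the torus -/
lemma IT_T (ε : F) (hε : ¬ IsSquare ε) (h2 : (2 : F) ≠ 0) (hcard : Fintype.card F % 2 = 1)
    (θ : Tns ε →* ℂˣ) (c : SL F) (hc : c ∈ Tns ε) (hc10 : c.1 1 0 ≠ 0) :
    IT ε θ c = ((θ ⟨c, hc⟩ : ℂˣ) : ℂ) + ((θ ⟨c⁻¹, (Tns ε).inv_mem hc⟩ : ℂˣ) : ℂ) := by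
  have hε0 : ε ≠ 0 := fun h => hε (h ▸ IsSquare.zero)
  unfold IT indFun
  have key : ∀ y : SL F, extendByZero (Tns ε) (fun c => ((θ c : ℂˣ) : ℂ)) (y⁻¹ * c * y) =
      (if y.1 0 0 = y.1 1 1 ∧ y.1 0 1 = ε * y.1 1 0 then ((θ ⟨c, hc⟩ : ℂˣ) : ℂ) else 0) +
      (if y.1 0 0 = - y.1 1 1 ∧ y.1 0 1 = -(ε * y.1 1 0) then ((θ ⟨c⁻¹, (Tns ε).inv_mem hc⟩ : ℂˣ) : ℂ) else 0) := by
    intro y
    by_cases hyT' : y.1 0 0 = y.1 1 1 ∧ y.1 0 1 = ε * y.1 1 0
    · have hyT : y ∈ Tns ε := hyT'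
      have hyW : ¬ (y.1 0 0 = - y.1 1 1 ∧ y.1 0 1 = -(ε * y.1 1 0)) := fun h =>
        Cfsg.Agent.S2429.Tw_disjoint ε hε0 h2 y h hyT
      rw [if_pos hyT', if_neg hyW, add_zero]
      have e : y⁻¹ * c * y = c := by
        rw [mul_assoc, ← Cfsg.Agent.S2429.comm_of_mem ε y c hyT hc, ← mul_assoc, inv_mul_cancel, one_mul]
      have hmem : y⁻¹ * c * y ∈ Tns ε := by rw [e]; exact hc
      rw [Helper46.extendByZero_of_mem (Tns ε) _ hmem]
      have e' : (⟨y⁻¹ * c * y, hmem⟩ : Tns ε) = ⟨c, hc⟩ := Subtype.ext e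
      rw [e']
    · have hyT : y ∉ Tns ε := hyT'
      rw [if_neg hyT', zero_add]
      by_cases hyW' : y.1 0 0 = - y.1 1 1 ∧ y.1 0 1 = -(ε * y.1 1 0)
      · have hyW : y ∈ Tw ε := hyW'
        rw [if_pos hyW']
        have e : y⁻¹ * c * y = c⁻¹ := by
          have := Cfsg.Agent.S2429.Tw_conj ε y⁻¹ c (Cfsg.Agent.S2429.Tw_inv ε y hyW) hc
          rwa [inv_inv] at this
        have hmem : y⁻¹ * c * y ∈ Tns ε := by rw [e]; exact (Tns ε).inv_mem hc
        rw [Helper46.extendByZero_of_mem (Tns ε) _ hmem]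
        have e' : (⟨y⁻¹ * c * y, hmem⟩ : Tns ε) = ⟨c⁻¹, (Tns ε).inv_mem hc⟩ := Subtype.ext e
        rw [e']
      · have hyW : y ∉ Tw ε := hyW'
        rw [if_neg hyW']
        apply Helper46.extendByZero_of_not_mem
        intro hmem
        -- then `y` normalizes the torus
        have h10' : (y⁻¹ * c * y).1 1 0 ≠ 0 := by
          rw [conj_T_10 ε c hc y]
          exact mul_ne_zero hc10 (norm_ne_zero ε hε y)
        have hN : y ∈ Subgroup.normalizer ((Tns ε : Subgroup (SL F)) : Set (SL F)) := by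
          rw [Subgroup.mem_set_normalizer_iff]
          intro t
          constructor
          · intro ht
            have ht : t ∈ Tns ε := ht
            show y * t * y⁻¹ ∈ Tns ε
            rw [← Cfsg.Agent.S2429.cent_of_mem ε c hc hc10, Subgroup.mem_centralizer_iff]
            intro g hg
            rw [Set.mem_singleton_iff] at hg
            subst hg
            have hcomm := Cfsg.Agent.S2429.comm_of_mem ε t (y⁻¹ * g * y) ht hmem
            have e1 : y * (t * (y⁻¹ * g * y)) * y⁻¹ = (y * t * y⁻¹) * g := by group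
            have e2 : y * ((y⁻¹ * g * y) * t) * y⁻¹ = g * (y * t * y⁻¹) := by group
            rw [← e1, ← e2, hcomm]
          · intro ht
            have ht : y * t * y⁻¹ ∈ Tns ε := ht
            show t ∈ Tns ε
            rw [← Cfsg.Agent.S2429.cent_of_mem ε (y⁻¹ * c * y) hmem h10', Subgroup.mem_centralizer_iff]
            intro g hg
            rw [Set.mem_singleton_iff] at hg
            subst hg
            have hcomm := Cfsg.Agent.S2429.comm_of_mem ε (y * t * y⁻¹) c ht hc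
            have e1 : y⁻¹ * ((y * t * y⁻¹) * c) * y = t * (y⁻¹ * c * y) := by group
            have e2 : y⁻¹ * (c * (y * t * y⁻¹)) * y = (y⁻¹ * c * y) * t := by group
            rw [← e1, ← e2, hcomm]
        rcases (Cfsg.Agent.S2429.mem_norm_iff ε hε h2 y).mp hN with h | h
        · exact hyT h
        · exact hyW h
  simp only [key]
  rw [Finset.sum_add_distrib, ← Finset.sum_filter, ← Finset.sum_filter, Finset.sum_const,
    Finset.sum_const, card_filter_T, card_filter_Tw ε hε hcard, nsmul_eq_mul, nsmul_eq_mul]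
  have hne : (Nat.card (Tns ε) : ℂ) ≠ 0 := Nat.cast_ne_zero.mpr Nat.card_pos.ne'
  field_simp

/-- the torus-induced character vanishes at non-scalar upper triangular matrices -/
lemma IT_B (ε : F) (hε : ¬ IsSquare ε) (θ : Tns ε →* ℂˣ) (b : SL F) (hb10 : b.1 1 0 = 0)
    (hns : ¬ (b.1 0 1 = 0 ∧ b.1 0 0 = b.1 1 1)) : IT ε θ b = 0 := by
  apply indFun_eq_zero
  intro x hx
  have e : b = x⁻¹⁻¹ * (x⁻¹ * b * x) * x⁻¹ := by group
  have h1 := conj_T_10 ε (x⁻¹ * b * x) hx x⁻¹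
  rw [← e, hb10] at h1
  have hc10 : (x⁻¹ * b * x).1 1 0 = 0 := by
    rcases mul_eq_zero.mp h1.symm with h | h
    · exact h
    · exact absurd h (norm_ne_zero ε hε x⁻¹)
  have hsc : x⁻¹ * b * x = b := by
    obtain ⟨hx1, hx2⟩ := hx
    have h01 : (x⁻¹ * b * x).1 0 1 = 0 := by rw [hx2, hc10, mul_zero]
    have := scalar_conj (x⁻¹ * b * x) h01 hc10 hx1 x⁻¹
    rw [← e] at this
    exact this.symm
  apply hns
  rw [hsc] at hx
  obtain ⟨hx1, hx2⟩ := hx
  exact ⟨by rw [hx2, hb10, mul_zero], hx1⟩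

omit [Fintype F] [DecidableEq F] in
lemma scalar_mem_T (ε : F) (z : SL F) (h01 : z.1 0 1 = 0) (h10 : z.1 1 0 = 0) (h : z.1 0 0 = z.1 1 1) :
    z ∈ Tns ε := ⟨h, by rw [h01, h10, mul_zero]⟩

lemma IT_scalar (ε : F) (θ : Tns ε →* ℂˣ) (z : SL F) (h01 : z.1 0 1 = 0) (h10 : z.1 1 0 = 0)
    (h : z.1 0 0 = z.1 1 1) :
    IT ε θ z = (Fintype.card (SL F) : ℂ) * (Nat.card (Tns ε) : ℂ)⁻¹ *
      ((θ ⟨z, scalar_mem_T ε z h01 h10 h⟩ : ℂˣ) : ℂ) := by
  unfold IT
  rw [indFun_central (Tns ε) _ z (scalar_mem_T ε z h01 h10 h) (scalar_conj z h01 h10 h)]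

/-- principal series -/
noncomputable def PS (α : MulChar F ℂ) : SL F → ℂ := indFun (Bor F) (theta α)

lemma PS_T (ε : F) (hε : ¬ IsSquare ε) (α : MulChar F ℂ) (c : SL F) (hc : c ∈ Tns ε) (hc10 : c.1 1 0 ≠ 0) :
    PS α c = 0 := by
  apply indFun_eq_zero
  intro x hx
  rw [mem_bor_iff] at hx
  have h1 := conj_T_10 ε c hc x
  have : (x⁻¹ * c * x).1 1 0 = 0 := hx
  rw [this] at h1
  rcases mul_eq_zero.mp h1.symm with h | h
  · exact hc10 h
  · exact norm_ne_zero ε hε x h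

lemma PS_scalar (α : MulChar F ℂ) (z : SL F) (h01 : z.1 0 1 = 0) (h10 : z.1 1 0 = 0)
    (h : z.1 0 0 = z.1 1 1) :
    PS α z = (Fintype.card (SL F) : ℂ) * (Nat.card (Bor F) : ℂ)⁻¹ * α (z.1 0 0) := by
  unfold PS
  rw [indFun_central (Bor F) _ z ((mem_bor_iff z).mpr h10) (scalar_conj z h01 h10 h)]

lemma isCharacter_PS (α : MulChar F ℂ) : IsCharacter (SL F) (PS α) := by
  apply Helper46.isCharacter_indFun
  apply Helper46.isCharacter_of_irr
  let f : Bor F →* ℂ :=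
    { toFun := theta α
      map_one' := by
        show α ((1 : SL F).1 0 0) = 1
        simp
      map_mul' := by
        rintro ⟨g, hg⟩ ⟨h, hh⟩
        show α ((g * h).1 0 0) = α (g.1 0 0) * α (h.1 0 0)
        rw [mem_bor_iff] at hg hh
        have hh' : h.1 1 0 = 0 := hh
        rw [← map_mul]
        congr 1
        simp only [Matrix.SpecialLinearGroup.coe_mul, Matrix.mul_apply, Fin.sum_univ_two]
        rw [hh']; ring }
  exact Helper46.isIrrCharacter_of_hom f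

end Tor

end Cfsg.Agent.Lib.Helper48
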