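import Mathlib
import Cfsg.Agent.Lib.Helper48.SL2c

set_option autoImplicit false

namespace Cfsg.Agent.Lib.Helper48

open Cfsg
open scoped ComplexConjugate
open Cfsg.Agent.S2429 (SL Tns Tw mem_Tns mem_Tw)
open Cfsg.Agent.S2433 (Bor theta mkB mkB_coe mkC mkC_coe slEquiv mem_bor_iff)

section Pi

variable {F : Type*} [Field F] [Fintype F] [DecidableEq F]

omit [Fintype F] in
lemma negOne_mem (ε : F) : (-1 : SL F) ∈ Tns ε := by
  rw [mem_Tns]; simp

/-- the value of `θ` at `-1` -/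
noncomputable def eT (ε : F) (θ : Tns ε →* ℂˣ) : ℂ := ((θ ⟨-1, negOne_mem ε⟩ : ℂˣ) : ℂ)

omit [Fintype F] in
lemma eT_pm (ε : F) (θ : Tns ε →* ℂˣ) : eT ε θ = 1 ∨ eT ε θ = -1 := by
  have h : (θ ⟨-1, negOne_mem ε⟩) ^ 2 = 1 := by
    rw [← map_pow]
    have : (⟨-1, negOne_mem ε⟩ : Tns ε) ^ 2 = 1 := by
      apply Subtype.ext
      show (-1 : SL F) ^ 2 = 1
      simp
    rw [this, map_one]
  have h' : (eT ε θ) ^ 2 = 1 := by
    unfold eT
    rw [← Units.val_pow_eq_pow_val, h, Units.val_one]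
  have h3 : (eT ε θ - 1) * (eT ε θ + 1) = 0 := by linear_combination h'
  rcases mul_eq_zero.mp h3 with h | h
  · left; linear_combination h
  · right; linear_combination h

omit [Fintype F] in
lemma theta_scalar (ε : F) (h2 : (2 : F) ≠ 0) (θ : Tns ε →* ℂˣ) (c : SL F) (hc : c ∈ Tns ε)
    (h10 : c.1 1 0 = 0) : ((θ ⟨c, hc⟩ : ℂˣ) : ℂ) = sg (eT ε θ) (c.1 0 0) := by
  rcases Cfsg.Agent.S2429.eq_pm_one ε c hc h10 with h | h
  · have e : (⟨c, hc⟩ : Tns ε) = 1 := Subtype.ext (Subtype.ext h)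
    rw [e, map_one, Units.val_one, h]
    simp [sg_one]
  · have e : (⟨c, hc⟩ : Tns ε) = ⟨-1, negOne_mem ε⟩ := by
      apply Subtype.ext
      apply Subtype.ext
      rw [h]
      simp
    rw [e, h]
    have : (-1 : Matrix (Fin 2) (Fin 2) F) 0 0 = -1 := by simp
    rw [this, sg_neg_one h2]
    rfl

/-- the (virtual) cuspidal character attached to `θ` -/
noncomputable def piC (ψ : AddChar F ℂ) (ε : F) (θ : Tns ε →* ℂˣ) : SL F → ℂ :=
  Gam ψ (eT ε θ) 1 + Gam ψ (eT ε θ) ε - IT ε θ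

lemma cG : (Fintype.card (SL F) : ℂ) =
    ((Fintype.card F : ℂ) - 1) * (Fintype.card F : ℂ) * ((Fintype.card F : ℂ) + 1) := by
  rw [show Fintype.card (SL F) = (Fintype.card F - 1) * Fintype.card F * (Fintype.card F + 1) from
    Cfsg.Agent.S2433.card_SL]
  have hq : 1 ≤ Fintype.card F := Fintype.card_pos
  push_cast [Nat.cast_sub hq]
  ring

lemma cZU (h2 : (2 : F) ≠ 0) : (Nat.card (ZU F) : ℂ) = 2 * (Fintype.card F : ℂ) := by
  rw [card_ZU h2]; push_cast; ring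

lemma cT (ε : F) (hε : ¬ IsSquare ε) (h2 : (2 : F) ≠ 0) :
    (Nat.card (Tns ε) : ℂ) = (Fintype.card F : ℂ) + 1 := by
  rw [Cfsg.Agent.S2429.card_Tns ε hε h2]; push_cast; ring

lemma cB : (Nat.card (Bor F) : ℂ) = ((Fintype.card F : ℂ) - 1) * (Fintype.card F : ℂ) := by
  rw [Cfsg.Agent.S2433.card_Bor]
  have hq : 1 ≤ Fintype.card F := Fintype.card_pos
  push_cast [Nat.cast_sub hq]
  ring

lemma q_ne_zero : (Fintype.card F : ℂ) ≠ 0 := Nat.cast_ne_zero.mpr Fintype.card_ne_zero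

lemma q_add_one_ne_zero : (Fintype.card F : ℂ) + 1 ≠ 0 := by
  have : ((Fintype.card F + 1 : ℕ) : ℂ) ≠ 0 := Nat.cast_ne_zero.mpr (Nat.succ_ne_zero _)
  intro h; apply this; push_cast; exact h

lemma q_sub_one_ne_zero : (Fintype.card F : ℂ) - 1 ≠ 0 := by
  have hq : 2 ≤ Fintype.card F := Fintype.one_lt_card
  have : ((Fintype.card F - 1 : ℕ) : ℂ) ≠ 0 := Nat.cast_ne_zero.mpr (by omega)
  intro h; apply this
  rw [Nat.cast_sub (by omega)]
  push_cast; exact h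

lemma pi_scalar (ψ : AddChar F ℂ) (ε : F) (hε : ¬ IsSquare ε) (h2 : (2 : F) ≠ 0) (θ : Tns ε →* ℂˣ)
    (z : SL F) (h01 : z.1 0 1 = 0) (h10 : z.1 1 0 = 0) (h : z.1 0 0 = z.1 1 1) :
    piC ψ ε θ z = ((Fintype.card F : ℂ) - 1) * sg (eT ε θ) (z.1 0 0) := by
  unfold piC
  simp only [Pi.add_apply, Pi.sub_apply]
  rw [Gam_scalar ψ _ 1 z h01 h10 h, Gam_scalar ψ _ ε z h01 h10 h, IT_scalar ε θ z h01 h10 h,
    theta_scalar ε h2 θ z _ h10, cG, cZU h2, cT ε hε h2]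
  have := q_ne_zero (F := F)
  have := q_add_one_ne_zero (F := F)
  field_simp
  ring

omit [Fintype F] [DecidableEq F] in
lemma trace_sq_ne (a : Fˣ) (ha : (a : F) ≠ (a : F)⁻¹) : ((a : F) + (a : F)⁻¹) ^ 2 ≠ 4 := by
  intro h
  apply ha
  have h1 : ((a : F) - (a : F)⁻¹) ^ 2 = 0 := by
    have : (a : F) * (a : F)⁻¹ = 1 := mul_inv_cancel₀ a.ne_zero
    linear_combination h - 4 * this
  have := pow_eq_zero_iff (two_ne_zero) |>.mp h1
  linear_combination this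

/-- values of `π_θ` on the upper triangular subgroup -/
lemma pi_B (ψ : AddChar F ℂ) (hψ : ψ.IsPrimitive) (ε : F) (hε : ¬ IsSquare ε) (h2 : (2 : F) ≠ 0)
    (θ : Tns ε →* ℂˣ) (a : Fˣ) (x : F) :
    piC ψ ε θ (mkB a x) = if (a : F) = (a : F)⁻¹ then
      (if x = 0 then ((Fintype.card F : ℂ) - 1) * sg (eT ε θ) (a : F) else - sg (eT ε θ) (a : F)) else 0 := by
  by_cases ha : (a : F) = (a : F)⁻¹
  · rw [if_pos ha]
    by_cases hx : x = 0
    · rw [if_pos hx, pi_scalar ψ ε hε h2 θ (mkB a x) (by rw [mkB_01]; exact hx) (mkB_10 a x)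
        (by rw [mkB_00, mkB_11]; exact ha), mkB_00]
    · rw [if_neg hx]
      unfold piC
      simp only [Pi.add_apply, Pi.sub_apply]
      rw [Gam_tot_unip ψ hψ ε hε h2 _ a x ha hx, IT_B ε hε θ (mkB a x) (mkB_10 a x)
        (by rw [mkB_01]; exact fun h => hx h.1), sub_zero]
  · rw [if_neg ha]
    unfold piC
    simp only [Pi.add_apply, Pi.sub_apply]
    have htr : ((mkB a x : SL F).1 0 0 + (mkB a x : SL F).1 1 1) ^ 2 ≠ 4 := by
      rw [mkB_00, mkB_11]; exact trace_sq_ne a ha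
    rw [Gam_trace ψ _ 1 _ htr, Gam_trace ψ _ ε _ htr, IT_B ε hε θ (mkB a x) (mkB_10 a x)
      (by rw [mkB_00, mkB_11]; exact fun h => ha h.2)]
    ring

omit [Fintype F] [DecidableEq F] in
lemma T_trace_sq_ne (ε : F) (hε : ¬ IsSquare ε) (h2 : (2 : F) ≠ 0) (c : SL F) (hc : c ∈ Tns ε)
    (hc10 : c.1 1 0 ≠ 0) : (c.1 0 0 + c.1 1 1) ^ 2 ≠ 4 := by
  have hε0 : ε ≠ 0 := fun h => hε (h ▸ IsSquare.zero)
  obtain ⟨h1, h2'⟩ := hc
  have hdet := Cfsg.Agent.S2429.det_eq c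
  rw [h2', ← h1] at hdet
  intro h
  rw [← h1] at h
  have h4 : (4 : F) ≠ 0 := by
    have : (4 : F) = 2 * 2 := by norm_num
    rw [this]; exact mul_ne_zero h2 h2
  have : 4 * ε * c.1 1 0 ^ 2 = 0 := by linear_combination h - 4 * hdet
  rcases mul_eq_zero.mp this with h' | h'
  · exact (mul_ne_zero h4 hε0) h'
  · exact hc10 (pow_eq_zero_iff (two_ne_zero) |>.mp h')

/-- values of `π_θ` on the non-split torus -/
lemma pi_T (ψ : AddChar F ℂ) (ε : F) (hε : ¬ IsSquare ε) (h2 : (2 : F) ≠ 0)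
    (hcard : Fintype.card F % 2 = 1) (θ : Tns ε →* ℂˣ) (c : SL F) (hc : c ∈ Tns ε) :
    piC ψ ε θ c = if c.1 1 0 = 0 then ((Fintype.card F : ℂ) - 1) * ((θ ⟨c, hc⟩ : ℂˣ) : ℂ)
      else - (((θ ⟨c, hc⟩ : ℂˣ) : ℂ) + ((θ ⟨c⁻¹, (Tns ε).inv_mem hc⟩ : ℂˣ) : ℂ)) := by
  by_cases h10 : c.1 1 0 = 0
  · rw [if_pos h10]
    have h01 : c.1 0 1 = 0 := by rw [hc.2, h10, mul_zero]
    rw [pi_scalar ψ ε hε h2 θ c h01 h10 hc.1, theta_scalar ε h2 θ c hc h10]
  · rw [if_neg h10]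
    unfold piC
    simp only [Pi.add_apply, Pi.sub_apply]
    have htr := T_trace_sq_ne ε hε h2 c hc h10
    rw [Gam_trace ψ _ 1 _ htr, Gam_trace ψ _ ε _ htr, IT_T ε hε h2 hcard θ c hc h10]
    ring

/-- values of the principal series on the non-split torus -/
lemma PS_T' (ε : F) (hε : ¬ IsSquare ε) (α : MulChar F ℂ) (c : SL F) (hc : c ∈ Tns ε) :
    PS α c = if c.1 1 0 = 0 then ((Fintype.card F : ℂ) + 1) * α (c.1 0 0) else 0 := by
  by_cases h10 : c.1 1 0 = 0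
  · rw [if_pos h10]
    have h01 : c.1 0 1 = 0 := by rw [hc.2, h10, mul_zero]
    rw [PS_scalar α c h01 h10 hc.1, cG, cB]
    have := q_ne_zero (F := F)
    have := q_sub_one_ne_zero (F := F)
    field_simp
  · rw [if_neg h10]
    exact PS_T ε hε α c hc h10

/-- values of the principal series on the upper triangular subgroup -/
lemma PS_B (hodd : Odd (Fintype.card F)) (β : MulChar F ℂ) (a : Fˣ) (b : F) :
    PS β (mkB a b) = if (a : F) = (a : F)⁻¹ then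
      (if b = 0 then ((Fintype.card F : ℂ) + 1) * β (a : F) else β (a : F))
      else β (a : F) + β ((a : F)⁻¹) := by
  have h := Cfsg.Agent.S2432.ind_mkB hodd β a b
  have hiff : (a : F) ^ 2 = 1 ↔ (a : F) = (a : F)⁻¹ := by
    constructor
    · intro h'
      have : (a : F) * (a : F) = 1 := by rw [← pow_two]; exact h'
      exact eq_inv_of_mul_eq_one_left this
    · intro h'
      rw [pow_two]
      nth_rewrite 2 [h']
      exact mul_inv_cancel₀ a.ne_zero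
  unfold PS
  rw [h]
  by_cases ha : (a : F) = (a : F)⁻¹
  · rw [if_pos ha, if_pos (hiff.mpr ha)]
  · rw [if_neg ha, if_neg (fun h' => ha (hiff.mp h'))]

/-- values of `Γ` on the non-split torus -/
lemma Gam_T (ψ : AddChar F ℂ) (ε : F) (hε : ¬ IsSquare ε) (h2 : (2 : F) ≠ 0) (e : ℂ) (s : F)
    (c : SL F) (hc : c ∈ Tns ε) :
    Gam ψ e s c = if c.1 1 0 = 0 then
      ((Fintype.card F : ℂ) - 1) * ((Fintype.card F : ℂ) + 1) / 2 * sg e (c.1 0 0) else 0 := by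
  by_cases h10 : c.1 1 0 = 0
  · rw [if_pos h10]
    have h01 : c.1 0 1 = 0 := by rw [hc.2, h10, mul_zero]
    rw [Gam_scalar ψ e s c h01 h10 hc.1, cG, cZU h2]
    have := q_ne_zero (F := F)
    field_simp
  · rw [if_neg h10]
    exact Gam_trace ψ e s c (T_trace_sq_ne ε hε h2 c hc h10)

lemma isClassFunction_Gam (ψ : AddChar F ℂ) (e : ℂ) (s : F) : IsClassFunction (SL F) (Gam ψ e s) :=
  Helper46.indFun_isClassFunction _ _

lemma isClassFunction_IT (ε : F) (θ : Tns ε →* ℂˣ) : IsClassFunction (SL F) (IT ε θ) :=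
  Helper46.indFun_isClassFunction _ _

lemma isClassFunction_PS (α : MulChar F ℂ) : IsClassFunction (SL F) (PS α) :=
  Helper46.indFun_isClassFunction _ _

lemma isClassFunction_piC (ψ : AddChar F ℂ) (ε : F) (θ : Tns ε →* ℂˣ) :
    IsClassFunction (SL F) (piC ψ ε θ) :=
  isClassFunction_sub _ _ (isClassFunction_add _ _ (isClassFunction_Gam ψ _ 1)
    (isClassFunction_Gam ψ _ ε)) (isClassFunction_IT ε θ)

end Pi

end Cfsg.Agent.Lib.Helper48
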