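import Mathlib
import Cfsg.Agent.Lib.Helper48.SL2d

set_option autoImplicit false

namespace Cfsg.Agent.Lib.Helper48

open Cfsg
open scoped ComplexConjugate
open Cfsg.Agent.S2429 (SL Tns Tw mem_Tns mem_Tw)
open Cfsg.Agent.S2433 (Bor theta mkB mkB_coe mkC mkC_coe slEquiv mem_bor_iff)

section Gram

variable {F : Type*} [Field F] [Fintype F] [DecidableEq F]

lemma conj_pm (e : ℂ) (he : e = 1 ∨ e = -1) : conj e = e := by
  rcases he with h | h <;> rw [h] <;> simp

lemma sum_ite_zero (A B : ℂ) :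
    ∑ x : F, (if x = 0 then A else B) = A + ((Fintype.card F : ℂ) - 1) * B := by
  rw [← Finset.sum_erase_add Finset.univ _ (Finset.mem_univ (0 : F)), if_pos rfl]
  have : ∑ x ∈ Finset.univ.erase (0 : F), (if x = 0 then A else B) =
      ∑ x ∈ Finset.univ.erase (0 : F), B := by
    apply Finset.sum_congr rfl
    intro x hx
    rw [if_neg (Finset.ne_of_mem_erase hx)]
  rw [this, Finset.sum_const, Finset.card_erase_of_mem (Finset.mem_univ _), Finset.card_univ,
    nsmul_eq_mul, Nat.cast_sub Fintype.card_pos]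
  push_cast; ring

/-- Frobenius reciprocity for the principal series -/
lemma inner_PS (α : MulChar F ℂ) (f : SL F → ℂ) (hf : IsClassFunction (SL F) f) :
    classInner (PS α) f =
      (Nat.card (Bor F) : ℂ)⁻¹ * ∑ a : Fˣ, ∑ x : F, α (a : F) * conj (f (mkB a x)) := by
  unfold PS
  rw [classInner_indFun _ _ _ hf]
  congr 1
  have h1 : ∀ g : SL F, extendByZero (Bor F) (theta α) g * conj (f g) =
      if g.1 1 0 = 0 then α (g.1 0 0) * conj (f g) else 0 := by
    intro g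
    rw [Cfsg.Agent.S2433.ext_theta]
    by_cases h : g.1 1 0 = 0
    · rw [if_pos h, if_pos h]
    · rw [if_neg h, if_neg h, zero_mul]
  simp only [h1]
  rw [sum_B (fun g => α (g.1 0 0) * conj (f g))]
  simp only [mkB_00]

/-- Frobenius reciprocity for `Γ` -/
lemma inner_Gam (ψ : AddChar F ℂ) (e : ℂ) (s : F) (h2 : (2 : F) ≠ 0) (f : SL F → ℂ)
    (hf : IsClassFunction (SL F) f) :
    classInner (Gam ψ e s) f = (Nat.card (ZU F) : ℂ)⁻¹ *
      (∑ x : F, ψ (s * x) * conj (f (mkB 1 x)) + ∑ x : F, e * ψ (s * (-x)) * conj (f (mkB (-1) x))) := by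
  unfold Gam
  rw [classInner_indFun _ _ _ hf]
  congr 1
  have h1 : ∀ g : SL F, extendByZero (ZU F) (lamFun ψ e s) g * conj (f g) =
      if g.1 1 0 = 0 ∧ g.1 0 0 = g.1 1 1 then
        sg e (g.1 0 0) * ψ (s * (g.1 0 0 * g.1 0 1)) * conj (f g) else 0 := by
    intro g
    rw [ext_lam]
    by_cases h : g.1 1 0 = 0 ∧ g.1 0 0 = g.1 1 1
    · rw [if_pos h, if_pos h]
    · rw [if_neg h, if_neg h, zero_mul]
  simp only [h1]
  rw [sum_ZU h2 (fun g => sg e (g.1 0 0) * ψ (s * (g.1 0 0 * g.1 0 1)) * conj (f g))]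
  simp only [mkB_00, mkB_01, Units.val_one, Units.val_neg, sg_one, sg_neg_one h2, one_mul, neg_mul]

/-- Frobenius reciprocity for the torus -/
lemma inner_IT (ε : F) (θ : Tns ε →* ℂˣ) [Fintype (Tns ε)] (f : SL F → ℂ)
    (hf : IsClassFunction (SL F) f) :
    classInner (IT ε θ) f =
      (Nat.card (Tns ε) : ℂ)⁻¹ * ∑ c : Tns ε, ((θ c : ℂˣ) : ℂ) * conj (f c) := by
  unfold IT
  rw [Helper46.frobenius (Tns ε) _ f hf]
  rfl

omit [Fintype F] in
lemma sum_T_central (ε : F) (h2 : (2 : F) ≠ 0) [Fintype (Tns ε)] (f : Tns ε → ℂ) :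
    ∑ c : Tns ε, (if c.1.1 1 0 = 0 then f c else 0) = f 1 + f ⟨-1, negOne_mem ε⟩ := by
  classical
  rw [← Finset.sum_filter]
  have hne : (1 : Tns ε) ≠ ⟨-1, negOne_mem ε⟩ := by
    intro h
    have h' := congrArg (fun c : Tns ε => c.1.1 0 0) h
    simp at h'
    apply h2
    linear_combination h'
  have : Finset.univ.filter (fun c : Tns ε => c.1.1 1 0 = 0) = {1, ⟨-1, negOne_mem ε⟩} := by
    ext c
    simp only [Finset.mem_filter, Finset.mem_univ, true_and, Finset.mem_insert, Finset.mem_singleton]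
    constructor
    · intro h
      rcases Cfsg.Agent.S2429.eq_pm_one ε c.1 c.2 h with h' | h'
      · left; exact Subtype.ext (Subtype.ext h')
      · right
        apply Subtype.ext
        apply Subtype.ext
        rw [h']
        simp
    · rintro (h | h) <;> rw [h] <;> simp
  rw [this, Finset.sum_pair hne]

lemma psi_sum (ψ : AddChar F ℂ) (hψ : ψ.IsPrimitive) (s : F) (hs : s ≠ 0) : ∑ x : F, ψ (s * x) = 0 := by
  have := AddChar.sum_mulShift s hψ
  rw [if_neg hs, Nat.cast_zero] at this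
  rw [← this]
  apply Finset.sum_congr rfl
  intro x _
  rw [mul_comm]

lemma psi_sum_neg (ψ : AddChar F ℂ) (hψ : ψ.IsPrimitive) (s : F) (hs : s ≠ 0) :
    ∑ x : F, ψ (s * (-x)) = 0 := by
  rw [← psi_sum ψ hψ s hs, ← Equiv.sum_comp (Equiv.neg F)]
  simp

lemma psi_sum_ite (ψ : AddChar F ℂ) (hψ : ψ.IsPrimitive) (s : F) (hs : s ≠ 0) (A B : ℂ) :
    ∑ x : F, ψ (s * x) * (if x = 0 then A else B) = A - B := by
  have h : ∀ x : F, ψ (s * x) * (if x = 0 then A else B) =
      B * ψ (s * x) + (if x = 0 then (A - B) else 0) := by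
    intro x
    by_cases hx : x = 0
    · subst hx
      simp only [mul_zero, AddChar.map_zero_eq_one, if_true]
      ring
    · simp only [if_neg hx]
      ring
  simp only [h, Finset.sum_add_distrib, ← Finset.mul_sum, psi_sum ψ hψ s hs, Finset.sum_ite_eq',
    Finset.mem_univ, if_true]
  ring

lemma psi_sum_ite_neg (ψ : AddChar F ℂ) (hψ : ψ.IsPrimitive) (s : F) (hs : s ≠ 0) (A B : ℂ) :
    ∑ x : F, ψ (s * (-x)) * (if x = 0 then A else B) = A - B := by
  have h : ∀ x : F, ψ (s * (-x)) * (if x = 0 then A else B) =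
      B * ψ (s * (-x)) + (if x = 0 then (A - B) else 0) := by
    intro x
    by_cases hx : x = 0
    · subst hx
      simp only [neg_zero, mul_zero, AddChar.map_zero_eq_one, if_true]
      ring
    · simp only [if_neg hx]
      ring
  simp only [h, Finset.sum_add_distrib, ← Finset.mul_sum, psi_sum_neg ψ hψ s hs, Finset.sum_ite_eq',
    Finset.mem_univ, if_true]
  ring

lemma pi_one (ψ : AddChar F ℂ) (hψ : ψ.IsPrimitive) (ε : F) (hε : ¬ IsSquare ε) (h2 : (2 : F) ≠ 0)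
    (θ : Tns ε →* ℂˣ) (x : F) :
    piC ψ ε θ (mkB 1 x) = if x = 0 then ((Fintype.card F : ℂ) - 1) else -1 := by
  rw [pi_B ψ hψ ε hε h2 θ 1 x]
  simp only [Units.val_one, inv_one, if_true, sg_one, mul_one]

lemma pi_negone (ψ : AddChar F ℂ) (hψ : ψ.IsPrimitive) (ε : F) (hε : ¬ IsSquare ε) (h2 : (2 : F) ≠ 0)
    (θ : Tns ε →* ℂˣ) (x : F) :
    piC ψ ε θ (mkB (-1) x) = if x = 0 then ((Fintype.card F : ℂ) - 1) * eT ε θ else - eT ε θ := by
  rw [pi_B ψ hψ ε hε h2 θ (-1) x]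
  have : ((-1 : Fˣ) : F) = ((-1 : Fˣ) : F)⁻¹ := by simp
  rw [if_pos this]
  simp only [Units.val_neg, Units.val_one, sg_neg_one h2]

lemma PS_one (hodd : Odd (Fintype.card F)) (α : MulChar F ℂ) (x : F) :
    PS α (mkB 1 x) = if x = 0 then ((Fintype.card F : ℂ) + 1) else 1 := by
  rw [PS_B hodd α 1 x]
  simp only [Units.val_one, inv_one, if_true, map_one, mul_one]

lemma PS_negone (hodd : Odd (Fintype.card F)) (α : MulChar F ℂ) (x : F) :
    PS α (mkB (-1) x) = if x = 0 then ((Fintype.card F : ℂ) + 1) * α (-1) else α (-1) := by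
  rw [PS_B hodd α (-1) x]
  have : ((-1 : Fˣ) : F) = ((-1 : Fˣ) : F)⁻¹ := by simp
  rw [if_pos this]
  simp only [Units.val_neg, Units.val_one]

lemma alpha_neg_one_sq (α : MulChar F ℂ) : α (-1) * α (-1) = 1 := by
  rw [← map_mul]; simp

lemma alpha_neg_one_pm (α : MulChar F ℂ) : α (-1) = 1 ∨ α (-1) = -1 := by
  have h3 : (α (-1) - 1) * (α (-1) + 1) = 0 := by linear_combination alpha_neg_one_sq α
  rcases mul_eq_zero.mp h3 with h | h
  · left; linear_combination h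
  · right; linear_combination h

/-- G1 : principal series are orthogonal to the cuspidal virtual characters -/
lemma inner_PS_pi (ψ : AddChar F ℂ) (hψ : ψ.IsPrimitive) (ε : F) (hε : ¬ IsSquare ε) (h2 : (2 : F) ≠ 0)
    (α : MulChar F ℂ) (θ : Tns ε →* ℂˣ) : classInner (PS α) (piC ψ ε θ) = 0 := by
  rw [inner_PS α _ (isClassFunction_piC ψ ε θ)]
  have hce := conj_pm _ (eT_pm ε θ)
  have : ∀ a : Fˣ, ∑ x : F, α (a : F) * conj (piC ψ ε θ (mkB a x)) = 0 := by
    intro a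
    simp only [pi_B ψ hψ ε hε h2 θ a]
    by_cases ha : (a : F) = (a : F)⁻¹
    · simp only [if_pos ha]
      rw [← Finset.mul_sum]
      have h3 : ∀ x : F, conj (if x = 0 then ((Fintype.card F : ℂ) - 1) * sg (eT ε θ) (a : F)
            else - sg (eT ε θ) (a : F))
          = if x = 0 then conj (((Fintype.card F : ℂ) - 1) * sg (eT ε θ) (a : F))
            else conj (- sg (eT ε θ) (a : F)) := by
        intro x; split_ifs <;> rfl
      simp only [h3, sum_ite_zero]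
      simp only [map_mul, map_sub, map_neg, Complex.conj_natCast, map_one]
      ring
    · simp only [if_neg ha, map_zero, mul_zero, Finset.sum_const_zero]
  simp only [this, Finset.sum_const_zero, mul_zero]

/-- G2 -/
lemma inner_Gam_pi (ψ : AddChar F ℂ) (hψ : ψ.IsPrimitive) (ε : F) (hε : ¬ IsSquare ε) (h2 : (2 : F) ≠ 0)
    (e : ℂ) (s : F) (hs : s ≠ 0) (θ : Tns ε →* ℂˣ) :
    classInner (Gam ψ e s) (piC ψ ε θ) = (1 + e * eT ε θ) / 2 := by
  rw [inner_Gam ψ e s h2 _ (isClassFunction_piC ψ ε θ), cZU h2]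
  have hce := conj_pm _ (eT_pm ε θ)
  have h3 : ∀ x : F, conj (piC ψ ε θ (mkB 1 x)) = if x = 0 then ((Fintype.card F : ℂ) - 1) else -1 := by
    intro x
    rw [pi_one ψ hψ ε hε h2 θ x]
    split_ifs <;> simp
  have h4 : ∀ x : F, conj (piC ψ ε θ (mkB (-1) x)) =
      if x = 0 then ((Fintype.card F : ℂ) - 1) * eT ε θ else - eT ε θ := by
    intro x
    rw [pi_negone ψ hψ ε hε h2 θ x]
    split_ifs <;> simp [hce]
  simp only [h3, h4, mul_assoc]
  rw [← Finset.mul_sum, psi_sum_ite ψ hψ s hs, psi_sum_ite_neg ψ hψ s hs]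
  have := q_ne_zero (F := F)
  field_simp
  ring

/-- G3 -/
lemma inner_IT_pi (ψ : AddChar F ℂ) (ε : F) (hε : ¬ IsSquare ε) (h2 : (2 : F) ≠ 0)
    (hcard : Fintype.card F % 2 = 1) (θ θ' : Tns ε →* ℂˣ) [Decidable (θ = θ')] [Decidable (θ = θ'⁻¹)] :
    classInner (IT ε θ) (piC ψ ε θ') =
      (1 + eT ε θ * eT ε θ') - (if θ = θ' then 1 else 0) - (if θ = θ'⁻¹ then 1 else 0) := by
  classical
  let _ : Fintype (Tns ε) := Fintype.ofFinite _
  rw [inner_IT ε θ _ (isClassFunction_piC ψ ε θ'), cT ε hε h2]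
  have hce := conj_pm _ (eT_pm ε θ')
  have key : ∀ c : Tns ε, ((θ c : ℂˣ) : ℂ) * conj (piC ψ ε θ' c) =
      - (((θ c : ℂˣ) : ℂ) * conj ((θ' c : ℂˣ) : ℂ)) - (((θ c : ℂˣ) : ℂ) * conj ((θ'⁻¹ c : ℂˣ) : ℂ))
      + (if c.1.1 1 0 = 0 then ((Fintype.card F : ℂ) + 1) * (((θ c : ℂˣ) : ℂ) * conj ((θ' c : ℂˣ) : ℂ)) else 0) := by
    intro c
    rw [pi_T ψ ε hε h2 hcard θ' c.1 c.2]
    have einv : (⟨c.1⁻¹, (Tns ε).inv_mem c.2⟩ : Tns ε) = c⁻¹ := rfl
    have e1 : ((θ'⁻¹ c : ℂˣ) : ℂ) = ((θ' c⁻¹ : ℂˣ) : ℂ) := by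
      rw [MonoidHom.inv_apply, map_inv]
    rw [einv, e1, Subtype.coe_eta]
    by_cases h10 : c.1.1 1 0 = 0
    · rw [if_pos h10, if_pos h10]
      have hcc : c⁻¹ = c := by
        rcases Cfsg.Agent.S2429.eq_pm_one ε c.1 c.2 h10 with h' | h'
        · have : c = 1 := Subtype.ext (Subtype.ext h')
          rw [this, inv_one]
        · have : c = ⟨-1, negOne_mem ε⟩ := by
            apply Subtype.ext
            apply Subtype.ext
            rw [h']
            simp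
          rw [this]
          apply Subtype.ext
          show (-1 : SL F)⁻¹ = -1
          rw [inv_eq_iff_eq_inv]
          apply eq_inv_of_mul_eq_one_left
          simp
      rw [hcc]
      simp only [map_mul, map_sub, Complex.conj_natCast, map_one]
      ring
    · rw [if_neg h10, if_neg h10]
      simp only [map_neg, map_add]
      ring
  simp only [key]
  rw [Finset.sum_add_distrib, Finset.sum_sub_distrib, Finset.sum_neg_distrib, hom_orth θ θ',
    hom_orth θ θ'⁻¹, sum_T_central ε h2]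
  have hcardT : (Fintype.card (Tns ε) : ℂ) = (Fintype.card F : ℂ) + 1 := by
    rw [← Nat.card_eq_fintype_card, cT ε hε h2]
  have hq1 := q_add_one_ne_zero (F := F)
  simp only [map_one, Units.val_one, one_mul, mul_one]
  have he1 : ((θ ⟨-1, negOne_mem ε⟩ : ℂˣ) : ℂ) = eT ε θ := rfl
  have he2 : ((θ' ⟨-1, negOne_mem ε⟩ : ℂˣ) : ℂ) = eT ε θ' := rfl
  have i1 : (if θ = θ' then (Fintype.card (Tns ε) : ℂ) else 0) =
      (Fintype.card (Tns ε) : ℂ) * (if θ = θ' then 1 else 0) := by split_ifs <;> simp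
  have i2 : (if θ = θ'⁻¹ then (Fintype.card (Tns ε) : ℂ) else 0) =
      (Fintype.card (Tns ε) : ℂ) * (if θ = θ'⁻¹ then 1 else 0) := by split_ifs <;> simp
  rw [he1, he2, hce, i1, i2, hcardT]
  generalize (if θ = θ' then (1 : ℂ) else 0) = u
  generalize (if θ = θ'⁻¹ then (1 : ℂ) else 0) = v
  field_simp
  ring

/-- G4 : the Gram matrix of the cuspidal virtual characters -/
lemma inner_pi_pi (ψ : AddChar F ℂ) (hψ : ψ.IsPrimitive) (ε : F) (hε : ¬ IsSquare ε) (h2 : (2 : F) ≠ 0)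
    (hcard : Fintype.card F % 2 = 1) (θ θ' : Tns ε →* ℂˣ) [Decidable (θ = θ')] [Decidable (θ = θ'⁻¹)] :
    classInner (piC ψ ε θ) (piC ψ ε θ') = (if θ = θ' then 1 else 0) + (if θ = θ'⁻¹ then 1 else 0) := by
  have hε0 : ε ≠ 0 := fun h => hε (h ▸ IsSquare.zero)
  conv_lhs => rw [piC]
  rw [Helper46.classInner_sub_left, Helper46.classInner_add_left,
    inner_Gam_pi ψ hψ ε hε h2 _ 1 one_ne_zero θ', inner_Gam_pi ψ hψ ε hε h2 _ ε hε0 θ',
    inner_IT_pi ψ ε hε h2 hcard θ θ']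
  ring

/-- G5 -/
lemma inner_Gam_PS (ψ : AddChar F ℂ) (hψ : ψ.IsPrimitive) (h2 : (2 : F) ≠ 0)
    (hodd : Odd (Fintype.card F)) (e : ℂ) (s : F) (hs : s ≠ 0) (α : MulChar F ℂ) :
    classInner (Gam ψ e s) (PS α) = (1 + e * α (-1)) / 2 := by
  rw [inner_Gam ψ e s h2 _ (isClassFunction_PS α), cZU h2]
  have hce := conj_pm _ (alpha_neg_one_pm α)
  have h3 : ∀ x : F, conj (PS α (mkB 1 x)) = if x = 0 then ((Fintype.card F : ℂ) + 1) else 1 := by
    intro x
    rw [PS_one hodd α x]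
    split_ifs <;> simp
  have h4 : ∀ x : F, conj (PS α (mkB (-1) x)) =
      if x = 0 then ((Fintype.card F : ℂ) + 1) * α (-1) else α (-1) := by
    intro x
    rw [PS_negone hodd α x]
    split_ifs <;> simp [hce]
  simp only [h3, h4, mul_assoc]
  rw [← Finset.mul_sum, psi_sum_ite ψ hψ s hs, psi_sum_ite_neg ψ hψ s hs]
  have := q_ne_zero (F := F)
  field_simp
  ring

/-- G6 -/
lemma inner_IT_PS (ε : F) (hε : ¬ IsSquare ε) (h2 : (2 : F) ≠ 0) (θ : Tns ε →* ℂˣ) (α : MulChar F ℂ) :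
    classInner (IT ε θ) (PS α) = 1 + eT ε θ * α (-1) := by
  classical
  let _ : Fintype (Tns ε) := Fintype.ofFinite _
  rw [inner_IT ε θ _ (isClassFunction_PS α), cT ε hε h2]
  have hce := conj_pm _ (alpha_neg_one_pm α)
  have key : ∀ c : Tns ε, ((θ c : ℂˣ) : ℂ) * conj (PS α c) =
      (if c.1.1 1 0 = 0 then ((Fintype.card F : ℂ) + 1) * (((θ c : ℂˣ) : ℂ) * conj (α (c.1.1 0 0))) else 0) := by
    intro c
    rw [PS_T' ε hε α c.1 c.2]
    by_cases h10 : c.1.1 1 0 = 0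
    · rw [if_pos h10, if_pos h10]
      simp only [map_mul, map_add, Complex.conj_natCast, map_one]
      ring
    · rw [if_neg h10, if_neg h10, map_zero, mul_zero]
  simp only [key]
  rw [sum_T_central ε h2]
  have hq1 := q_add_one_ne_zero (F := F)
  have he1 : ((θ ⟨-1, negOne_mem ε⟩ : ℂˣ) : ℂ) = eT ε θ := rfl
  have e00 : ((1 : Tns ε) : SL F).1 0 0 = 1 := by simp
  have e00' : ((⟨-1, negOne_mem ε⟩ : Tns ε) : SL F).1 0 0 = -1 := by simp
  rw [e00, e00', he1, hce]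
  simp only [map_one, Units.val_one, one_mul, mul_one]
  field_simp

/-- G7 -/
lemma inner_PS_one (α : MulChar F ℂ) [Decidable (α = 1)] :
    classInner (PS α) (fun _ => (1 : ℂ)) = if α = 1 then 1 else 0 := by
  rw [inner_PS α _ (fun _ _ => rfl), cB]
  simp only [map_one, mul_one, Finset.sum_const, Finset.card_univ, nsmul_eq_mul]
  rw [← Finset.mul_sum, Cfsg.Agent.S2432.sum_units_char]
  have := q_ne_zero (F := F)
  have := q_sub_one_ne_zero (F := F)
  split_ifs
  · field_simp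
  · simp

lemma inner_Gam_one (ψ : AddChar F ℂ) (hψ : ψ.IsPrimitive) (h2 : (2 : F) ≠ 0) (e : ℂ) (s : F)
    (hs : s ≠ 0) : classInner (Gam ψ e s) (fun _ => (1 : ℂ)) = 0 := by
  rw [inner_Gam ψ e s h2 _ (fun _ _ => rfl)]
  simp only [map_one, mul_one]
  rw [← Finset.mul_sum, psi_sum ψ hψ s hs, psi_sum_neg ψ hψ s hs]
  ring

lemma inner_IT_one (ε : F) (hε : ¬ IsSquare ε) (h2 : (2 : F) ≠ 0) (θ : Tns ε →* ℂˣ) [Decidable (θ = 1)] :
    classInner (IT ε θ) (fun _ => (1 : ℂ)) = if θ = 1 then 1 else 0 := by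
  classical
  let _ : Fintype (Tns ε) := Fintype.ofFinite _
  rw [inner_IT ε θ _ (fun _ _ => rfl), cT ε hε h2]
  simp only [map_one, mul_one]
  have hq1 := q_add_one_ne_zero (F := F)
  split_ifs with h
  · subst h
    simp only [MonoidHom.one_apply, Units.val_one, Finset.sum_const, Finset.card_univ, nsmul_eq_mul, mul_one]
    rw [← Nat.card_eq_fintype_card (α := Tns ε), cT ε hε h2]
    field_simp
  · rw [hom_sum_eq_zero θ h, mul_zero]

lemma inner_pi_one (ψ : AddChar F ℂ) (hψ : ψ.IsPrimitive) (ε : F) (hε : ¬ IsSquare ε) (h2 : (2 : F) ≠ 0)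
    (θ : Tns ε →* ℂˣ) [Decidable (θ = 1)] :
    classInner (piC ψ ε θ) (fun _ => (1 : ℂ)) = - (if θ = 1 then 1 else 0) := by
  have hε0 : ε ≠ 0 := fun h => hε (h ▸ IsSquare.zero)
  conv_lhs => rw [piC]
  rw [Helper46.classInner_sub_left, Helper46.classInner_add_left,
    inner_Gam_one ψ hψ h2 _ 1 one_ne_zero, inner_Gam_one ψ hψ h2 _ ε hε0, inner_IT_one ε hε h2 θ]
  ring

/-- G8 -/
lemma inner_PS_PS (hodd : Odd (Fintype.card F)) (α β : MulChar F ℂ) [Decidable (α = β)]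
    [Decidable (α = β⁻¹)] :
    classInner (PS α) (PS β) = (if α = β then 1 else 0) + (if α = β⁻¹ then 1 else 0) :=
  Cfsg.Agent.S2432.result hodd α β

end Gram

end Cfsg.Agent.Lib.Helper48
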