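import Mathlib
import Cfsg.Agent.Lib.Helper48.SL2e

set_option autoImplicit false

namespace Cfsg.Agent.Lib.Helper48

open Cfsg
open scoped ComplexConjugate
open Cfsg.Agent.S2429 (SL Tns Tw mem_Tns mem_Tw)
open Cfsg.Agent.S2433 (Bor theta mkB mkB_coe mkC mkC_coe slEquiv mem_bor_iff)

section Reg

variable {F : Type*} [Field F] [Fintype F] [DecidableEq F]

omit [Fintype F] [DecidableEq F] in
lemma eq_mkB_of_10 (b : SL F) (h : b.1 1 0 = 0) : ∃ (a : Fˣ) (x : F), b = mkB a x := by
  have hdet := Cfsg.Agent.S2429.det_eq b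
  rw [h, mul_zero, sub_zero] at hdet
  refine ⟨Units.mk0 _ (left_ne_zero_of_mul_eq_one hdet), b.1 0 1, ?_⟩
  apply Subtype.ext
  rw [mkB_coe]
  ext i j
  fin_cases i <;> fin_cases j
  · simp
  · simp
  · simp [h]
  · simp
    exact eq_inv_of_mul_eq_one_right hdet

omit [DecidableEq F] in
/-- every element is conjugate into the upper triangular subgroup or into the non-split torus -/
lemma conj_rep (ε : F) (hε : ¬ IsSquare ε) (hcard : Fintype.card F % 2 = 1) (h2 : (2 : F) ≠ 0)
    (g : SL F) :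
    (∃ (y : SL F) (a : Fˣ) (x : F), y⁻¹ * g * y = mkB a x) ∨ (∃ h : SL F, h * g * h⁻¹ ∈ Tns ε) := by
  by_cases hg : ∀ (c : F) (v : Fin 2 → F), v ≠ 0 → g.1.mulVec v ≠ c • v
  · right
    exact Cfsg.Agent.S2429.conj_into ε hε hcard h2 g hg
  · left
    push Not at hg
    obtain ⟨c, v, hv, hgv⟩ := hg
    have e0 : g.1 0 0 * v 0 + g.1 0 1 * v 1 = c * v 0 := by
      have := congrFun hgv 0
      simpa [Matrix.mulVec, dotProduct, Fin.sum_univ_two] using this
    have e1 : g.1 1 0 * v 0 + g.1 1 1 * v 1 = c * v 1 := by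
      have := congrFun hgv 1
      simpa [Matrix.mulVec, dotProduct, Fin.sum_univ_two] using this
    have hy : ∃ y : SL F, y.1 0 0 = v 0 ∧ y.1 1 0 = v 1 := by
      by_cases hv0 : v 0 = 0
      · have hv1 : v 1 ≠ 0 := by
          intro h1
          apply hv
          funext i
          fin_cases i <;> simp [hv0, h1]
        refine ⟨⟨!![0, -(v 1)⁻¹; v 1, 0], ?_⟩, ?_, ?_⟩
        · rw [Matrix.det_fin_two_of]
          field_simp
          ring
        · simp [hv0]
        · simp
      · refine ⟨⟨!![v 0, 0; v 1, (v 0)⁻¹], ?_⟩, ?_, ?_⟩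
        · rw [Matrix.det_fin_two_of]
          field_simp
          ring
        · simp
        · simp
    obtain ⟨y, hy0, hy1⟩ := hy
    have h10 : (y⁻¹ * g * y).1 1 0 = 0 := by
      rw [Cfsg.Agent.S2433.inv_conj_10, hy0, hy1]
      linear_combination v 0 * e1 - v 1 * e0
    obtain ⟨a, x, hax⟩ := eq_mkB_of_10 _ h10
    exact ⟨y, a, x, hax⟩

omit [DecidableEq F] in
/-- class functions are determined by their values on the upper triangular subgroup and on the
non-split torus -/
lemma eq_of_B_T (ε : F) (hε : ¬ IsSquare ε) (hcard : Fintype.card F % 2 = 1) (h2 : (2 : F) ≠ 0)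
    (f₁ f₂ : SL F → ℂ) (h₁ : IsClassFunction (SL F) f₁) (h₂ : IsClassFunction (SL F) f₂)
    (hB : ∀ (a : Fˣ) (x : F), f₁ (mkB a x) = f₂ (mkB a x)) (hT : ∀ c ∈ Tns ε, f₁ c = f₂ c) :
    f₁ = f₂ := by
  funext g
  rcases conj_rep ε hε hcard h2 g with ⟨y, a, x, h⟩ | ⟨h, hh⟩
  · have e1 := h₁ g y⁻¹
    have e2 := h₂ g y⁻¹
    rw [inv_inv, h] at e1 e2
    rw [← e1, ← e2, hB]
  · rw [← h₁ g h, ← h₂ g h, hT _ hh]

/-- dual orthogonality on the torus -/
lemma sum_theta (ε : F) (hε : ¬ IsSquare ε) (h2 : (2 : F) ≠ 0) [Fintype (Tns ε →* ℂˣ)] (c : Tns ε)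
    [Decidable (c = 1)] :
    ∑ θ : Tns ε →* ℂˣ, ((θ c : ℂˣ) : ℂ) = if c = 1 then (Fintype.card F : ℂ) + 1 else 0 := by
  classical
  let _ : Fintype (Tns ε) := Fintype.ofFinite _
  have hcomm : ∀ a b : Tns ε, a * b = b * a := fun a b =>
    Subtype.ext (Cfsg.Agent.S2429.comm_of_mem ε a.1 b.1 a.2 b.2)
  have h := hom_dual_sum' hcomm c
  rw [h]
  have hcardT : (Fintype.card (Tns ε) : ℂ) = (Fintype.card F : ℂ) + 1 := by
    rw [← Nat.card_eq_fintype_card, cT ε hε h2]
  by_cases hc : c = 1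
  · rw [if_pos hc, if_pos hc, hcardT]
  · rw [if_neg hc, if_neg hc]

lemma sum_sg (ε : F) (hε : ¬ IsSquare ε) (h2 : (2 : F) ≠ 0) [Fintype (Tns ε →* ℂˣ)] (a : F)
    (ha : a * a = 1) :
    ∑ θ : Tns ε →* ℂˣ, sg (eT ε θ) a = if a = 1 then (Fintype.card F : ℂ) + 1 else 0 := by
  classical
  rcases sq_one_cases a ha with rfl | rfl
  · rw [if_pos rfl]
    have := sum_theta ε hε h2 (1 : Tns ε)
    rw [if_pos rfl] at this
    rw [← this]
    apply Finset.sum_congr rfl
    intro θ _
    rw [sg_one, map_one, Units.val_one]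
  · have hne : (-1 : F) ≠ 1 := by
      intro h; apply h2; linear_combination -h
    rw [if_neg hne]
    have hne' : (⟨-1, negOne_mem ε⟩ : Tns ε) ≠ 1 := by
      intro h
      have h' := congrArg (fun c : Tns ε => c.1.1 0 0) h
      simp at h'
      exact hne h'
    have := sum_theta ε hε h2 (⟨-1, negOne_mem ε⟩ : Tns ε)
    rw [if_neg hne'] at this
    rw [← this]
    apply Finset.sum_congr rfl
    intro θ _
    rw [sg_neg_one h2]
    rfl

omit [Fintype F] [DecidableEq F] in
lemma mkB_eq_one_iff (a : Fˣ) (x : F) : (mkB a x : SL F) = 1 ↔ (a : F) = 1 ∧ x = 0 := by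
  constructor
  · intro h
    have h0 := congrArg (fun g : SL F => g.1 0 0) h
    have h1 := congrArg (fun g : SL F => g.1 0 1) h
    simp only [mkB_00, mkB_01] at h0 h1
    have e0 : (1 : SL F).1 0 0 = 1 := by simp
    have e1 : (1 : SL F).1 0 1 = 0 := by simp
    rw [e0] at h0
    rw [e1] at h1
    exact ⟨h0, h1⟩
  · rintro ⟨h0, h1⟩
    apply Subtype.ext
    rw [mkB_coe, h0, h1]
    ext i j
    fin_cases i <;> fin_cases j <;> simp

/-- the regular character as a combination of the principal series and the cuspidal virtual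
characters -/
theorem regular_identity (ψ : AddChar F ℂ) (hψ : ψ.IsPrimitive) (ε : F) (hε : ¬ IsSquare ε)
    (h2 : (2 : F) ≠ 0) (hcard : Fintype.card F % 2 = 1) (hodd : Odd (Fintype.card F))
    [Fintype (Tns ε →* ℂˣ)] [Fintype (MulChar F ℂ)] :
    (fun g : SL F => ((Fintype.card F : ℂ) - 1) / 2 * ∑ θ : Tns ε →* ℂˣ, piC ψ ε θ g +
        ((Fintype.card F : ℂ) + 1) / 2 * ∑ α : MulChar F ℂ, PS α g)
      = fun g : SL F => if g = 1 then (Nat.card (SL F) : ℂ) else 0 := by
  classical
  have hcG : (Nat.card (SL F) : ℂ) =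
      ((Fintype.card F : ℂ) - 1) * (Fintype.card F : ℂ) * ((Fintype.card F : ℂ) + 1) := by
    rw [Nat.card_eq_fintype_card, cG]
  apply eq_of_B_T ε hε hcard h2
  · intro g h
    simp only [isClassFunction_piC ψ ε _ g h, isClassFunction_PS _ g h]
  · intro g h
    show (if h * g * h⁻¹ = 1 then (Nat.card (SL F) : ℂ) else 0) =
      (if g = 1 then (Nat.card (SL F) : ℂ) else 0)
    by_cases hg : g = 1
    · subst hg; simp
    · have : h * g * h⁻¹ ≠ 1 := by
        intro h'
        apply hg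
        exact conj_eq_one_iff.mp h'
      rw [if_neg hg, if_neg this]
  · intro a x
    simp only [pi_B ψ hψ ε hε h2 _ a x, PS_B hodd _ a x]
    by_cases ha : (a : F) = (a : F)⁻¹
    · simp only [if_pos ha]
      have haa : (a : F) * (a : F) = 1 := by
        nth_rewrite 2 [ha]
        exact mul_inv_cancel₀ a.ne_zero
      have hsg := sum_sg ε hε h2 (a : F) haa
      have hα := Helper46.mulChar_sum_apply (a : F)
      by_cases hx : x = 0
      · simp only [if_pos hx, ← Finset.mul_sum, hsg, hα]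
        by_cases ha1 : (a : F) = 1
        · have : (mkB a x : SL F) = 1 := (mkB_eq_one_iff a x).mpr ⟨ha1, hx⟩
          rw [if_pos ha1, if_pos ha1, if_pos this, hcG]
          ring
        · have : (mkB a x : SL F) ≠ 1 := fun h => ha1 ((mkB_eq_one_iff a x).mp h).1
          rw [if_neg ha1, if_neg ha1, if_neg this]
          ring
      · simp only [if_neg hx, Finset.sum_neg_distrib, hsg, hα]
        have : (mkB a x : SL F) ≠ 1 := fun h => hx ((mkB_eq_one_iff a x).mp h).2
        rw [if_neg this]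
        by_cases ha1 : (a : F) = 1
        · rw [if_pos ha1, if_pos ha1]; ring
        · rw [if_neg ha1, if_neg ha1]; ring
    · simp only [if_neg ha, Finset.sum_const_zero, Finset.sum_add_distrib]
      have ha1 : (a : F) ≠ 1 := by
        intro h
        apply ha
        rw [h, inv_one]
      have ha1' : (a : F)⁻¹ ≠ 1 := by
        intro h
        apply ha1
        rw [← inv_inv (a : F), h, inv_one]
      have : (mkB a x : SL F) ≠ 1 := fun h => ha1 ((mkB_eq_one_iff a x).mp h).1
      rw [Helper46.mulChar_sum_apply (a : F), Helper46.mulChar_sum_apply ((a : F)⁻¹), if_neg ha1,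
        if_neg ha1', if_neg this]
      ring
  · intro c hc
    simp only [pi_T ψ ε hε h2 hcard _ c hc, PS_T' ε hε _ c hc]
    by_cases h10 : c.1 1 0 = 0
    · simp only [if_pos h10, ← Finset.mul_sum]
      rw [sum_theta ε hε h2 ⟨c, hc⟩, Helper46.mulChar_sum_apply (c.1 0 0)]
      rcases Cfsg.Agent.S2429.eq_pm_one ε c hc h10 with h | h
      · have e1 : (⟨c, hc⟩ : Tns ε) = 1 := Subtype.ext (Subtype.ext h)
        have e2 : c.1 0 0 = 1 := by rw [h]; simp
        have e3 : c = 1 := Subtype.ext h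
        rw [if_pos e1, if_pos e2, if_pos e3, hcG]
        ring
      · have e2 : c.1 0 0 ≠ 1 := by
          rw [h]
          simp only [Matrix.neg_apply, Matrix.one_apply_eq]
          intro h'; apply h2; linear_combination -h'
        have e3 : c ≠ 1 := by
          intro h'
          apply e2
          rw [h']; simp
        have e1 : (⟨c, hc⟩ : Tns ε) ≠ 1 := fun h' => e3 (congrArg Subtype.val h')
        rw [if_neg e1, if_neg e2, if_neg e3]
        ring
    · simp only [if_neg h10, Finset.sum_const_zero, mul_zero, add_zero, Finset.sum_neg_distrib,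
        Finset.sum_add_distrib]
      have e3 : c ≠ 1 := by
        intro h'
        apply h10
        rw [h']; simp
      have e1 : (⟨c, hc⟩ : Tns ε) ≠ 1 := fun h' => e3 (congrArg Subtype.val h')
      have e4 : (⟨c⁻¹, (Tns ε).inv_mem hc⟩ : Tns ε) ≠ 1 := by
        intro h'
        apply e3
        have := congrArg Subtype.val h'
        exact inv_eq_one.mp this
      rw [sum_theta ε hε h2 ⟨c, hc⟩, sum_theta ε hε h2 ⟨c⁻¹, (Tns ε).inv_mem hc⟩, if_neg e1, if_neg e4,
        if_neg e3]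
      ring

/-- the degree of an irreducible character in terms of its multiplicities -/
theorem degree_formula (ψ : AddChar F ℂ) (hψ : ψ.IsPrimitive) (ε : F) (hε : ¬ IsSquare ε)
    (h2 : (2 : F) ≠ 0) (hcard : Fintype.card F % 2 = 1) (hodd : Odd (Fintype.card F))
    [Fintype (Tns ε →* ℂˣ)] [Fintype (MulChar F ℂ)] (χ : SL F → ℂ) (hχ : IsIrrCharacter (SL F) χ) :
    χ 1 = ((Fintype.card F : ℂ) - 1) / 2 * ∑ θ : Tns ε →* ℂˣ, classInner (piC ψ ε θ) χ +
        ((Fintype.card F : ℂ) + 1) / 2 * ∑ α : MulChar F ℂ, classInner (PS α) χ := by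
  classical
  have h : classInner (fun g : SL F => ((Fintype.card F : ℂ) - 1) / 2 * ∑ θ : Tns ε →* ℂˣ, piC ψ ε θ g +
        ((Fintype.card F : ℂ) + 1) / 2 * ∑ α : MulChar F ℂ, PS α g) χ =
      classInner (fun g : SL F => if g = 1 then (Nat.card (SL F) : ℂ) else 0) χ := by
    rw [regular_identity ψ hψ ε hε h2 hcard hodd]
  rw [classInner_regular χ, Helper4.irr_one_conj ⟨χ, hχ⟩] at h
  have h' : χ 1 = classInner (fun g : SL F => ((Fintype.card F : ℂ) - 1) / 2 * ∑ θ : Tns ε →* ℂˣ, piC ψ ε θ g +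
        ((Fintype.card F : ℂ) + 1) / 2 * ∑ α : MulChar F ℂ, PS α g) χ := h.symm
  rw [h']
  have e : (fun g : SL F => ((Fintype.card F : ℂ) - 1) / 2 * ∑ θ : Tns ε →* ℂˣ, piC ψ ε θ g +
        ((Fintype.card F : ℂ) + 1) / 2 * ∑ α : MulChar F ℂ, PS α g) =
      (((Fintype.card F : ℂ) - 1) / 2) • (∑ θ : Tns ε →* ℂˣ, piC ψ ε θ) +
        (((Fintype.card F : ℂ) + 1) / 2) • (∑ α : MulChar F ℂ, PS α) := by
    funext g
    simp only [Pi.add_apply, Pi.smul_apply, Finset.sum_apply, smul_eq_mul]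
  rw [e, Helper46.classInner_add_left, Helper46.classInner_smul_left, Helper46.classInner_smul_left,
    classInner_sum_left, classInner_sum_left]

end Reg

end Cfsg.Agent.Lib.Helper48
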