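import Mathlib
import Cfsg.Agent.Lib.Helper48.SL2f
import Cfsg.Agent.Lib.Helper48.CharGen2

set_option autoImplicit false

namespace Cfsg.Agent.Lib.Helper48

open Cfsg
open scoped ComplexConjugate
open Cfsg.Agent.S2429 (SL Tns Tw mem_Tns mem_Tw)
open Cfsg.Agent.S2433 (Bor theta mkB mkB_coe mkC mkC_coe slEquiv mem_bor_iff)

section GenIrr

variable {G : Type*} [Group G] [Fintype G]

theorem char_irr_of_norm_one (φ : G → ℂ) (hφ : IsCharacter G φ)
    (h1 : classInner φ φ = 1) : IsIrrCharacter G φ := by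
  classical
  have := Helper4.irr_finite (G := G)
  let _ : Fintype (IrrCharacter G) := Fintype.ofFinite _
  exact Helper4.isIrrCharacter_of_norm_one φ hφ h1

theorem isCharacter_one' : IsCharacter G (fun _ => (1 : ℂ)) :=
  Helper46.isCharacter_of_irr _ Helper4.isIrrCharacter_one

theorem irr_deg_nat (χ : G → ℂ) (hχ : IsIrrCharacter G χ) : ∃ n : ℕ, 0 < n ∧ χ 1 = (n : ℂ) :=
  Helper4.irr_one_nat ⟨χ, hχ⟩

theorem irr_deg_ne_zero (χ : G → ℂ) (hχ : IsIrrCharacter G χ) : χ 1 ≠ 0 := by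
  obtain ⟨n, hn, h⟩ := irr_deg_nat χ hχ
  rw [h]
  exact Nat.cast_ne_zero.mpr hn.ne'

end GenIrr

section Cls

variable {F : Type*} [Field F] [Fintype F] [DecidableEq F]

omit [Fintype F] [DecidableEq F] in
lemma mkB_one_zero : (mkB (1 : Fˣ) (0 : F) : SL F) = 1 :=
  (mkB_eq_one_iff 1 0).mpr ⟨Units.val_one, rfl⟩

lemma PS_deg (hodd : Odd (Fintype.card F)) (α : MulChar F ℂ) :
    PS α 1 = (Fintype.card F : ℂ) + 1 := by
  have := PS_one hodd α 0
  rw [mkB_one_zero, if_pos rfl] at this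
  exact this

lemma pi_deg (ψ : AddChar F ℂ) (hψ : ψ.IsPrimitive) (ε : F) (hε : ¬ IsSquare ε) (h2 : (2 : F) ≠ 0)
    (θ : Tns ε →* ℂˣ) : piC ψ ε θ 1 = (Fintype.card F : ℂ) - 1 := by
  have := pi_one ψ hψ ε hε h2 θ 0
  rw [mkB_one_zero, if_pos rfl] at this
  exact this

lemma PS_irr (hodd : Odd (Fintype.card F)) (α : MulChar F ℂ) (hα : α ≠ α⁻¹) :
    IsIrrCharacter (SL F) (PS α) := by
  classical
  apply char_irr_of_norm_one _ (isCharacter_PS α)
  rw [inner_PS_PS hodd, if_pos rfl, if_neg hα, add_zero]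

lemma isCharacter_Gtot (ψ : AddChar F ℂ) (ε : F) (e : ℂ) (he : e = 1 ∨ e = -1) :
    IsCharacter (SL F) (Gam ψ e 1 + Gam ψ e ε) :=
  Helper46.isCharacter_add _ _ (isCharacter_Gam ψ e he 1) (isCharacter_Gam ψ e he ε)

lemma pi_irr (ψ : AddChar F ℂ) (hψ : ψ.IsPrimitive) (ε : F) (hε : ¬ IsSquare ε) (h2 : (2 : F) ≠ 0)
    (hcard : Fintype.card F % 2 = 1) (θ : Tns ε →* ℂˣ) (hθ : θ ≠ θ⁻¹) :
    IsIrrCharacter (SL F) (piC ψ ε θ) := by
  classical
  have hq : 1 < Fintype.card F := Fintype.one_lt_card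
  apply virt_irr (Gam ψ (eT ε θ) 1 + Gam ψ (eT ε θ) ε) (IT ε θ)
    (isCharacter_Gtot ψ ε _ (eT_pm ε θ)) (isCharacter_IT ε θ) _ (Fintype.card F - 1) (by omega)
  · show piC ψ ε θ 1 = _
    rw [pi_deg ψ hψ ε hε h2 θ, Nat.cast_sub hq.le, Nat.cast_one]
  · show classInner (piC ψ ε θ) (piC ψ ε θ) = 1
    rw [inner_pi_pi ψ hψ ε hε h2 hcard, if_pos rfl, if_neg hθ, add_zero]

lemma inner_one_PS (α : MulChar F ℂ) [Decidable (α = 1)] :
    classInner (fun _ : SL F => (1 : ℂ)) (PS α) = if α = 1 then 1 else 0 := by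
  rw [Helper4.classInner_conj_symm, inner_PS_one]
  split_ifs <;> simp

lemma St_irr (hodd : Odd (Fintype.card F)) :
    IsIrrCharacter (SL F) (PS (1 : MulChar F ℂ) - fun _ => (1 : ℂ)) := by
  classical
  have hq : 1 < Fintype.card F := Fintype.one_lt_card
  have h1 : classInner (PS (1 : MulChar F ℂ)) (fun _ : SL F => (1 : ℂ)) = 1 := by
    rw [inner_PS_one, if_pos rfl]
  have h1' : classInner (fun _ : SL F => (1 : ℂ)) (PS (1 : MulChar F ℂ)) = 1 := by
    rw [inner_one_PS, if_pos rfl]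
  have h11 : classInner (fun _ : SL F => (1 : ℂ)) (fun _ : SL F => (1 : ℂ)) = 1 :=
    inner_irr_self _ Helper4.isIrrCharacter_one
  have hPP : classInner (PS (1 : MulChar F ℂ)) (PS (1 : MulChar F ℂ)) = 2 := by
    rw [inner_PS_PS hodd, if_pos rfl, if_pos inv_one.symm]; norm_num
  apply virt_irr (PS 1) (fun _ => (1 : ℂ)) (isCharacter_PS 1) isCharacter_one' _ (Fintype.card F)
    (by omega)
  · show PS (1 : MulChar F ℂ) 1 - 1 = _
    rw [PS_deg hodd]; ring
  · rw [Helper46.classInner_sub_left, Helper46.classInner_sub_right, Helper46.classInner_sub_right,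
      hPP, h1, h1', h11]
    norm_num

omit [Fintype F] in
lemma eT_one (ε : F) : eT ε (1 : Tns ε →* ℂˣ) = 1 := by
  unfold eT
  rw [MonoidHom.one_apply, Units.val_one]

omit [Fintype F] in
lemma sg_one_left (b : F) : sg (1 : ℂ) b = 1 := by
  unfold sg
  split_ifs <;> rfl

lemma pi_one_eq (ψ : AddChar F ℂ) (hψ : ψ.IsPrimitive) (ε : F) (hε : ¬ IsSquare ε) (h2 : (2 : F) ≠ 0)
    (hcard : Fintype.card F % 2 = 1) (hodd : Odd (Fintype.card F)) :
    piC ψ ε (1 : Tns ε →* ℂˣ) = PS (1 : MulChar F ℂ) - fun _ => (2 : ℂ) := by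
  apply eq_of_B_T ε hε hcard h2
  · exact isClassFunction_piC ψ ε 1
  · intro g h
    show PS (1 : MulChar F ℂ) (h * g * h⁻¹) - 2 = PS (1 : MulChar F ℂ) g - 2
    rw [isClassFunction_PS 1 g h]
  · intro a x
    show _ = PS (1 : MulChar F ℂ) (mkB a x) - 2
    rw [pi_B ψ hψ ε hε h2, PS_B hodd, eT_one, sg_one_left]
    have h1a : (1 : MulChar F ℂ) (a : F) = 1 := MulChar.one_apply_coe a
    have h1a' : (1 : MulChar F ℂ) ((a : F)⁻¹) = 1 := by
      rw [← Units.val_inv_eq_inv_val]; exact MulChar.one_apply_coe _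
    rw [h1a, h1a']
    by_cases ha : (a : F) = (a : F)⁻¹
    · rw [if_pos ha, if_pos ha]
      by_cases hx : x = 0
      · rw [if_pos hx, if_pos hx]; ring
      · rw [if_neg hx, if_neg hx]; ring
    · rw [if_neg ha, if_neg ha]; ring
  · intro c hc
    show _ = PS (1 : MulChar F ℂ) c - 2
    rw [pi_T ψ ε hε h2 hcard _ c hc, PS_T' ε hε _ c hc]
    by_cases h10 : c.1 1 0 = 0
    · rw [if_pos h10, if_pos h10]
      have hdet := Cfsg.Agent.S2429.det_eq c
      rw [h10, mul_zero, sub_zero] at hdet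
      have hne : c.1 0 0 ≠ 0 := left_ne_zero_of_mul_eq_one hdet
      have : (1 : MulChar F ℂ) (c.1 0 0) = 1 := MulChar.one_apply (IsUnit.mk0 _ hne)
      rw [this, MonoidHom.one_apply, Units.val_one]; ring
    · rw [if_neg h10, if_neg h10, MonoidHom.one_apply, MonoidHom.one_apply, Units.val_one]; ring

end Cls

end Cfsg.Agent.Lib.Helper48
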