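import Mathlib
import Cfsg.Agent.Lib.Helper48.SL2g

set_option autoImplicit false

namespace Cfsg.Agent.Lib.Helper48

open Cfsg
open scoped ComplexConjugate
open Cfsg.Agent.S2429 (SL Tns Tw mem_Tns mem_Tw)
open Cfsg.Agent.S2433 (Bor theta mkB mkB_coe mkC mkC_coe slEquiv mem_bor_iff)

section Par

variable {F : Type*} [Field F] [Fintype F] [DecidableEq F]

omit [Fintype F] [DecidableEq F] in
lemma alpha_sq (α : MulChar F ℂ) (hinv : α = α⁻¹) (c : Fˣ) : α (c : F) * α (c : F) = 1 := by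
  nth_rewrite 2 [hinv]
  rw [MulChar.inv_apply', ← map_mul, mul_inv_cancel₀ c.ne_zero, map_one]

omit [Fintype F] [DecidableEq F] in
lemma alpha_toUnitHom_ne (α : MulChar F ℂ) (h1 : α ≠ 1) : α.toUnitHom ≠ 1 := by
  intro h
  apply h1
  ext a
  rw [MulChar.one_apply_coe, ← MulChar.coe_toUnitHom, h, MonoidHom.one_apply, Units.val_one]

omit [Fintype F] [DecidableEq F] in
lemma alpha_toUnitHom_sq (α : MulChar F ℂ) (hinv : α = α⁻¹) (c : Fˣ) : α.toUnitHom c ^ 2 = 1 := by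
  apply Units.ext
  rw [Units.val_pow_eq_pow_val, MulChar.coe_toUnitHom, Units.val_one, pow_two]
  exact alpha_sq α hinv c

lemma alpha_parity (h2 : (2 : F) ≠ 0) (α : MulChar F ℂ) (h1 : α ≠ 1) (hinv : α = α⁻¹) :
    α (-1) = (-1) ^ ((Fintype.card F - 1) / 2) := by
  have hne : (-1 : Fˣ) ≠ 1 := by
    intro h
    apply h2
    have := congrArg Units.val h
    rw [Units.val_neg, Units.val_one] at this
    linear_combination -this
  have := cyclic_quad_at_invol α.toUnitHom (alpha_toUnitHom_ne α h1) (alpha_toUnitHom_sq α hinv)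
    (-1 : Fˣ) hne (by simp)
  rw [MulChar.coe_toUnitHom, Units.val_neg, Units.val_one, Nat.card_units,
    Nat.card_eq_fintype_card] at this
  exact this

lemma alpha_unique (α α' : MulChar F ℂ) (h1 : α ≠ 1) (hinv : α = α⁻¹) (h1' : α' ≠ 1)
    (hinv' : α' = α'⁻¹) : α = α' := by
  have := cyclic_quad_unique α.toUnitHom α'.toUnitHom (alpha_toUnitHom_ne α h1)
    (alpha_toUnitHom_sq α hinv) (alpha_toUnitHom_ne α' h1') (alpha_toUnitHom_sq α' hinv')
  ext a
  rw [← MulChar.coe_toUnitHom, ← MulChar.coe_toUnitHom, this]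

omit [Fintype F] [DecidableEq F] in
lemma theta_sq (ε : F) (θ : Tns ε →* ℂˣ) (hinv : θ = θ⁻¹) (c : Tns ε) : θ c ^ 2 = 1 := by
  rw [pow_two]
  nth_rewrite 2 [hinv]
  rw [MonoidHom.inv_apply, mul_inv_cancel]

lemma theta_parity (ε : F) (hε : ¬ IsSquare ε) (h2 : (2 : F) ≠ 0) (θ : Tns ε →* ℂˣ) (h1 : θ ≠ 1)
    (hinv : θ = θ⁻¹) : eT ε θ = (-1) ^ ((Fintype.card F + 1) / 2) := by
  have : IsCyclic (Tns ε) := Cfsg.Agent.S2429.cyclic_Tns ε hε
  have hne : (⟨-1, negOne_mem ε⟩ : Tns ε) ≠ 1 := by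
    intro h
    have h' := congrArg (fun c : Tns ε => c.1.1 0 0) h
    simp at h'
    apply h2; linear_combination -h'
  have hz : (⟨-1, negOne_mem ε⟩ : Tns ε) * ⟨-1, negOne_mem ε⟩ = 1 := by
    apply Subtype.ext
    show (-1 : SL F) * (-1) = 1
    simp
  have := cyclic_quad_at_invol θ h1 (theta_sq ε θ hinv) ⟨-1, negOne_mem ε⟩ hne hz
  rw [Cfsg.Agent.S2429.card_Tns ε hε h2] at this
  exact this

lemma theta_unique (ε : F) (hε : ¬ IsSquare ε) (θ θ' : Tns ε →* ℂˣ) (h1 : θ ≠ 1) (hinv : θ = θ⁻¹)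
    (h1' : θ' ≠ 1) (hinv' : θ' = θ'⁻¹) : θ = θ' := by
  have : IsCyclic (Tns ε) := Cfsg.Agent.S2429.cyclic_Tns ε hε
  exact cyclic_quad_unique θ θ' h1 (theta_sq ε θ hinv) h1' (theta_sq ε θ' hinv')

lemma parity_prod (ε : F) (hε : ¬ IsSquare ε) (h2 : (2 : F) ≠ 0) (hcard : Fintype.card F % 2 = 1)
    (hodd : Odd (Fintype.card F)) (θ : Tns ε →* ℂˣ) (hθ1 : θ ≠ 1) (hθinv : θ = θ⁻¹)
    (α : MulChar F ℂ) (hα1 : α ≠ 1) (hαinv : α = α⁻¹) : eT ε θ * α (-1) = -1 := by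
  rw [theta_parity ε hε h2 θ hθ1 hθinv, alpha_parity h2 α hα1 hαinv, ← pow_add]
  have : (Fintype.card F + 1) / 2 + (Fintype.card F - 1) / 2 = Fintype.card F := by omega
  rw [this, hodd.neg_one_pow]

lemma half_add (hcard : Fintype.card F % 2 = 1) :
    (((Fintype.card F + 1) / 2 : ℕ) : ℂ) = ((Fintype.card F : ℂ) + 1) / 2 := by
  have hd : 2 ∣ Fintype.card F + 1 := by omega
  rw [Nat.cast_div hd (by norm_num)]; push_cast; ring

lemma half_sub (hcard : Fintype.card F % 2 = 1) :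
    (((Fintype.card F - 1) / 2 : ℕ) : ℂ) = ((Fintype.card F : ℂ) - 1) / 2 := by
  have hq : 1 ≤ Fintype.card F := Fintype.card_pos
  have hd : 2 ∣ Fintype.card F - 1 := by omega
  rw [Nat.cast_div hd (by norm_num), Nat.cast_sub hq]; push_cast; ring

end Par

section Xi

variable {F : Type*} [Field F] [Fintype F] [DecidableEq F]
variable (ψ : AddChar F ℂ) (hψ : ψ.IsPrimitive) (ε : F) (hε : ¬ IsSquare ε) (h2 : (2 : F) ≠ 0)
  (hcard : Fintype.card F % 2 = 1) (hodd : Odd (Fintype.card F))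

include hodd in
lemma PS_norm_two (α₀ : MulChar F ℂ) (hinv : α₀ = α₀⁻¹) : classInner (PS α₀) (PS α₀) = 2 := by
  classical
  rw [inner_PS_PS hodd, if_pos rfl, if_pos hinv]; norm_num

include hψ hε h2 in
lemma inner_pi_PS (θ : Tns ε →* ℂˣ) (α : MulChar F ℂ) : classInner (piC ψ ε θ) (PS α) = 0 := by
  rw [Helper4.classInner_conj_symm, inner_PS_pi ψ hψ ε hε h2, map_zero]

include hψ hε h2 hcard in
lemma pi_norm_two (θ₀ : Tns ε →* ℂˣ) (hinv : θ₀ = θ₀⁻¹) :
    classInner (piC ψ ε θ₀) (piC ψ ε θ₀) = 2 := by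
  classical
  rw [inner_pi_pi ψ hψ ε hε h2 hcard, if_pos rfl, if_pos hinv]; norm_num

variable (α₀ : MulChar F ℂ) (h1 : α₀ ≠ 1) (hinv : α₀ = α₀⁻¹) (χ : SL F → ℂ)
  (hχ : IsIrrCharacter (SL F) χ) (hne : classInner (PS α₀) χ ≠ 0)

include hodd hinv hχ hne in
lemma xi_inner : classInner (PS α₀) χ = 1 :=
  char_two_inner (PS α₀) (isCharacter_PS α₀) (PS_norm_two hodd α₀ hinv) χ hχ hne

include hodd hinv hχ hne in
lemma xi_compl : IsIrrCharacter (SL F) (PS α₀ - χ) :=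
  Helper46.isIrrCharacter_sub (PS α₀) χ (isCharacter_PS α₀) hχ (PS_norm_two hodd α₀ hinv)
    (xi_inner hodd α₀ hinv χ hχ hne)

include hodd hinv hχ hne in
lemma xi_compl_ne : PS α₀ - χ ≠ χ := by
  intro h
  have h1 := xi_inner hodd α₀ hinv χ hχ hne
  have : classInner (PS α₀ - χ) χ = 0 := by
    rw [Helper46.classInner_sub_left, h1, inner_irr_self χ hχ, sub_self]
  rw [h, inner_irr_self χ hχ] at this
  exact one_ne_zero this

include hodd hinv hχ hne in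
lemma xi_PS (β : MulChar F ℂ) (hβ : β ≠ α₀) : classInner (PS β) χ = 0 := by
  classical
  apply char_inner_zero (PS β) (PS α₀) χ (isCharacter_PS β) (Helper46.isCharacter_of_irr _ hχ)
    (Helper46.isCharacter_of_irr _ (xi_compl hodd α₀ hinv χ hχ hne))
  rw [inner_PS_PS hodd, if_neg hβ, if_neg (by rw [← hinv]; exact hβ), add_zero]

include h1 hne in
lemma xi_ne_one : χ ≠ fun _ => (1 : ℂ) := by
  classical
  intro h
  apply hne
  rw [h, inner_PS_one, if_neg h1]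

include h1 hχ hne in
lemma xi_one_inner : classInner (fun _ : SL F => (1 : ℂ)) χ = 0 :=
  inner_irr_ne _ _ Helper4.isIrrCharacter_one hχ (Ne.symm (xi_ne_one α₀ h1 χ hne))

omit [Fintype F] [DecidableEq F] in
lemma const_two : (fun _ : SL F => (2 : ℂ)) = (2 : ℂ) • (fun _ : SL F => (1 : ℂ)) := by
  funext g; simp

include hψ hε h2 hcard hodd h1 hinv hχ hne in
lemma xi_pi (θ : Tns ε →* ℂˣ) : classInner (piC ψ ε θ) χ = 0 := by
  classical
  have hε0 : ε ≠ 0 := fun h => hε (h ▸ IsSquare.zero)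
  by_cases hθ : θ = θ⁻¹
  · by_cases hθ1 : θ = 1
    · rw [hθ1, pi_one_eq ψ hψ ε hε h2 hcard hodd, Helper46.classInner_sub_left, const_two,
        Helper46.classInner_smul_left, xi_PS hodd α₀ hinv χ hχ hne 1 (Ne.symm h1),
        xi_one_inner α₀ h1 χ hχ hne, mul_zero, sub_zero]
    · have hp := parity_prod ε hε h2 hcard hodd θ hθ1 hθ α₀ h1 hinv
      have hchi := Helper46.isCharacter_of_irr _ hχ
      have hcompl := Helper46.isCharacter_of_irr _ (xi_compl hodd α₀ hinv χ hχ hne)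
      have g1 : classInner (Gam ψ (eT ε θ) 1) χ = 0 := by
        apply char_inner_zero _ (PS α₀) χ (isCharacter_Gam ψ _ (eT_pm ε θ) 1) hchi hcompl
        rw [inner_Gam_PS ψ hψ h2 hodd _ 1 one_ne_zero, hp]; norm_num
      have g2 : classInner (Gam ψ (eT ε θ) ε) χ = 0 := by
        apply char_inner_zero _ (PS α₀) χ (isCharacter_Gam ψ _ (eT_pm ε θ) ε) hchi hcompl
        rw [inner_Gam_PS ψ hψ h2 hodd _ ε hε0, hp]; norm_num
      have g3 : classInner (IT ε θ) χ = 0 := by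
        apply char_inner_zero _ (PS α₀) χ (isCharacter_IT ε θ) hchi hcompl
        rw [inner_IT_PS ε hε h2, hp]; norm_num
      show classInner (Gam ψ (eT ε θ) 1 + Gam ψ (eT ε θ) ε - IT ε θ) χ = 0
      rw [Helper46.classInner_sub_left, Helper46.classInner_add_left, g1, g2, g3]; norm_num
  · by_contra hc
    have e := Helper46.eq_of_classInner_ne_zero (piC ψ ε θ) χ (pi_irr ψ hψ ε hε h2 hcard θ hθ) hχ hc
    apply hne
    rw [e, inner_PS_pi ψ hψ ε hε h2]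

include hodd hinv hχ hne in
lemma xi_sumPS [Fintype (MulChar F ℂ)] : ∑ β : MulChar F ℂ, classInner (PS β) χ = 1 := by
  classical
  rw [Finset.sum_eq_single α₀ (fun b _ hb => xi_PS hodd α₀ hinv χ hχ hne b hb)
    (fun h => absurd (Finset.mem_univ _) h), xi_inner hodd α₀ hinv χ hχ hne]

include hψ hε h2 hcard hodd h1 hinv hχ hne in
lemma xi_deg [Fintype (Tns ε →* ℂˣ)] [Fintype (MulChar F ℂ)] :
    χ 1 = ((Fintype.card F : ℂ) + 1) / 2 := by
  rw [degree_formula ψ hψ ε hε h2 hcard hodd χ hχ, xi_sumPS hodd α₀ hinv χ hχ hne,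
    Finset.sum_eq_zero (fun θ _ => xi_pi ψ hψ ε hε h2 hcard hodd α₀ h1 hinv χ hχ hne θ)]
  ring

end Xi

section Eta

variable {F : Type*} [Field F] [Fintype F] [DecidableEq F]
variable (ψ : AddChar F ℂ) (hψ : ψ.IsPrimitive) (ε : F) (hε : ¬ IsSquare ε) (h2 : (2 : F) ≠ 0)
  (hcard : Fintype.card F % 2 = 1) (hodd : Odd (Fintype.card F))
variable (θ₀ : Tns ε →* ℂˣ) (h1 : θ₀ ≠ 1) (hinv : θ₀ = θ₀⁻¹) (χ : SL F → ℂ)
  (hχ : IsIrrCharacter (SL F) χ) (hne : classInner (piC ψ ε θ₀) χ ≠ 0)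

include hψ hε h2 h1 hne in
lemma eta_ne_one : χ ≠ fun _ => (1 : ℂ) := by
  classical
  intro h
  apply hne
  rw [h, inner_pi_one ψ hψ ε hε h2, if_neg h1, neg_zero]

include hψ hε h2 h1 hne in
lemma eta_ne_St : χ ≠ PS (1 : MulChar F ℂ) - fun _ => (1 : ℂ) := by
  classical
  intro h
  apply hne
  rw [h, Helper46.classInner_sub_right, inner_pi_PS ψ hψ ε hε h2, inner_pi_one ψ hψ ε hε h2,
    if_neg h1, neg_zero, sub_zero]

include hψ hε h2 hcard hodd h1 hχ hne in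
lemma eta_PS (β : MulChar F ℂ) : classInner (PS β) χ = 0 := by
  classical
  by_contra hc
  by_cases hβ : β = β⁻¹
  · by_cases hβ1 : β = 1
    · rw [hβ1] at hc
      have e : PS (1 : MulChar F ℂ) = (PS (1 : MulChar F ℂ) - fun _ => (1 : ℂ)) + fun _ => (1 : ℂ) :=
        (sub_add_cancel _ _).symm
      rw [e, Helper46.classInner_add_left] at hc
      by_cases hS : classInner (PS (1 : MulChar F ℂ) - fun _ => (1 : ℂ)) χ = 0
      · rw [hS, zero_add] at hc
        exact eta_ne_one ψ hψ ε hε h2 θ₀ h1 χ hne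
          (Helper46.eq_of_classInner_ne_zero _ χ Helper4.isIrrCharacter_one hχ hc)
      · exact eta_ne_St ψ hψ ε hε h2 θ₀ h1 χ hne
          (Helper46.eq_of_classInner_ne_zero _ χ (St_irr hodd) hχ hS)
    · exact hne (xi_pi ψ hψ ε hε h2 hcard hodd β hβ1 hβ χ hχ hc θ₀)
  · have e := Helper46.eq_of_classInner_ne_zero (PS β) χ (PS_irr hodd β hβ) hχ hc
    apply hne
    rw [e, inner_pi_PS ψ hψ ε hε h2]

include hψ hε h2 hcard hodd h1 hinv hχ hne in
lemma eta_pi (θ : Tns ε →* ℂˣ) (hθ : θ ≠ θ₀) : classInner (piC ψ ε θ) χ = 0 := by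
  classical
  by_cases hθi : θ = θ⁻¹
  · by_cases hθ1 : θ = 1
    · rw [hθ1, pi_one_eq ψ hψ ε hε h2 hcard hodd, Helper46.classInner_sub_left, const_two,
        Helper46.classInner_smul_left, eta_PS ψ hψ ε hε h2 hcard hodd θ₀ h1 χ hχ hne 1,
        inner_irr_ne _ _ Helper4.isIrrCharacter_one hχ
          (Ne.symm (eta_ne_one ψ hψ ε hε h2 θ₀ h1 χ hne)), mul_zero, sub_zero]
    · exact absurd (theta_unique ε hε θ θ₀ hθ1 hθi h1 hinv) hθ
  · by_contra hc
    have e := Helper46.eq_of_classInner_ne_zero (piC ψ ε θ) χ (pi_irr ψ hψ ε hε h2 hcard θ hθi) hχ hc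
    apply hne
    have hne' : θ₀ ≠ θ⁻¹ := by
      intro h'
      have : θ = θ₀⁻¹ := by
        rw [h']
        apply MonoidHom.ext
        intro c
        rw [MonoidHom.inv_apply, MonoidHom.inv_apply, inv_inv]
      exact hθ (this.trans hinv.symm)
    rw [e, inner_pi_pi ψ hψ ε hε h2 hcard, if_neg (Ne.symm hθ), if_neg hne', add_zero]

include hψ hε h2 hcard hodd h1 hinv hχ hne in
lemma eta_inner [Fintype (Tns ε →* ℂˣ)] [Fintype (MulChar F ℂ)] :
    classInner (piC ψ ε θ₀) χ = 1 ∧ χ 1 = ((Fintype.card F : ℂ) - 1) / 2 := by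
  classical
  have hdeg := degree_formula ψ hψ ε hε h2 hcard hodd χ hχ
  rw [Finset.sum_eq_zero (fun β _ => eta_PS ψ hψ ε hε h2 hcard hodd θ₀ h1 χ hχ hne β),
    Finset.sum_eq_single θ₀ (fun b _ hb => eta_pi ψ hψ ε hε h2 hcard hodd θ₀ h1 hinv χ hχ hne b hb)
      (fun h => absurd (Finset.mem_univ _) h), mul_zero, add_zero] at hdeg
  have hpm := virt_two_inner (Gam ψ (eT ε θ₀) 1 + Gam ψ (eT ε θ₀) ε) (IT ε θ₀)
    (isCharacter_Gtot ψ ε _ (eT_pm ε θ₀)) (isCharacter_IT ε θ₀)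
    (pi_norm_two ψ hψ ε hε h2 hcard θ₀ hinv) χ hχ hne
  rcases hpm with h | h
  · have h' : classInner (piC ψ ε θ₀) χ = 1 := h
    refine ⟨h', ?_⟩
    rw [hdeg, h', mul_one]
  · exfalso
    have h' : classInner (piC ψ ε θ₀) χ = -1 := h
    rw [h'] at hdeg
    obtain ⟨n, hn, hn1⟩ := irr_deg_nat χ hχ
    rw [hn1] at hdeg
    have hq : 1 < Fintype.card F := Fintype.one_lt_card
    have : ((2 * n + Fintype.card F : ℕ) : ℂ) = ((1 : ℕ) : ℂ) := by
      push_cast; linear_combination 2 * hdeg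
    have := Nat.cast_injective this
    omega

include hψ hε h2 hcard hodd h1 hinv hχ hne in
lemma eta_compl [Fintype (Tns ε →* ℂˣ)] [Fintype (MulChar F ℂ)] :
    ∃ χ' : SL F → ℂ, IsIrrCharacter (SL F) χ' ∧ χ' ≠ χ ∧ piC ψ ε θ₀ = χ + χ' := by
  classical
  obtain ⟨χ₁, χ₂, hne12, e₁, e₂, he₁, he₂, hd⟩ := virt_two (Gam ψ (eT ε θ₀) 1 + Gam ψ (eT ε θ₀) ε)
    (IT ε θ₀) (isCharacter_Gtot ψ ε _ (eT_pm ε θ₀)) (isCharacter_IT ε θ₀)
    (pi_norm_two ψ hψ ε hε h2 hcard θ₀ hinv)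
  have hd' : piC ψ ε θ₀ = e₁ • (χ₁ : SL F → ℂ) + e₂ • (χ₂ : SL F → ℂ) := hd
  have i11 := inner_irr_self _ χ₁.2
  have i22 := inner_irr_self _ χ₂.2
  have i12 : classInner (χ₁ : SL F → ℂ) (χ₂ : SL F → ℂ) = 0 :=
    inner_irr_ne _ _ χ₁.2 χ₂.2 (fun h => hne12 (Subtype.ext h))
  have i21 : classInner (χ₂ : SL F → ℂ) (χ₁ : SL F → ℂ) = 0 :=
    inner_irr_ne _ _ χ₂.2 χ₁.2 (fun h => hne12 (Subtype.ext h.symm))
  have c1 : classInner (piC ψ ε θ₀) (χ₁ : SL F → ℂ) = e₁ := by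
    rw [hd', Helper46.classInner_add_left, Helper46.classInner_smul_left,
      Helper46.classInner_smul_left, i11, i21]; ring
  have c2 : classInner (piC ψ ε θ₀) (χ₂ : SL F → ℂ) = e₂ := by
    rw [hd', Helper46.classInner_add_left, Helper46.classInner_smul_left,
      Helper46.classInner_smul_left, i12, i22]; ring
  have e1ne : e₁ ≠ 0 := by rcases he₁ with h | h <;> rw [h] <;> norm_num
  have e2ne : e₂ ≠ 0 := by rcases he₂ with h | h <;> rw [h] <;> norm_num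
  have e1 : e₁ = 1 := by
    rw [← c1]
    exact (eta_inner ψ hψ ε hε h2 hcard hodd θ₀ h1 hinv χ₁ χ₁.2 (by rw [c1]; exact e1ne)).1
  have e2 : e₂ = 1 := by
    rw [← c2]
    exact (eta_inner ψ hψ ε hε h2 hcard hodd θ₀ h1 hinv χ₂ χ₂.2 (by rw [c2]; exact e2ne)).1
  rw [e1, e2, one_smul, one_smul] at hd'
  rw [hd', Helper46.classInner_add_left] at hne
  by_cases hx : (χ₁ : SL F → ℂ) = χ
  · refine ⟨χ₂, χ₂.2, fun h => hne12 (Subtype.ext (hx.trans h.symm)), ?_⟩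
    rw [hd', hx]
  · rw [inner_irr_ne _ _ χ₁.2 hχ hx, zero_add] at hne
    have hx2 : (χ₂ : SL F → ℂ) = χ := by
      by_contra hx2
      exact hne (inner_irr_ne _ _ χ₂.2 hχ hx2)
    refine ⟨χ₁, χ₁.2, hx, ?_⟩
    rw [hd', hx2, add_comm]

end Eta

section Cases

variable {F : Type*} [Field F] [Fintype F] [DecidableEq F]
variable (ψ : AddChar F ℂ) (hψ : ψ.IsPrimitive) (ε : F) (hε : ¬ IsSquare ε) (h2 : (2 : F) ≠ 0)
  (hcard : Fintype.card F % 2 = 1) (hodd : Odd (Fintype.card F))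

include hψ hε h2 hcard hodd in
theorem irr_cases [Fintype (Tns ε →* ℂˣ)] [Fintype (MulChar F ℂ)] (χ : SL F → ℂ)
    (hχ : IsIrrCharacter (SL F) χ) :
    χ = (fun _ => (1 : ℂ)) ∨ χ = (PS (1 : MulChar F ℂ) - fun _ => (1 : ℂ)) ∨
    (∃ α : MulChar F ℂ, α ≠ α⁻¹ ∧ χ = PS α) ∨
    (∃ α : MulChar F ℂ, α ≠ 1 ∧ α = α⁻¹ ∧ classInner (PS α) χ ≠ 0) ∨
    (∃ θ : Tns ε →* ℂˣ, θ ≠ θ⁻¹ ∧ χ = piC ψ ε θ) ∨
    (∃ θ : Tns ε →* ℂˣ, θ ≠ 1 ∧ θ = θ⁻¹ ∧ classInner (piC ψ ε θ) χ ≠ 0) := by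
  classical
  have hdeg := degree_formula ψ hψ ε hε h2 hcard hodd χ hχ
  have hne := irr_deg_ne_zero χ hχ
  have key : (∃ θ : Tns ε →* ℂˣ, classInner (piC ψ ε θ) χ ≠ 0) ∨
      (∃ α : MulChar F ℂ, classInner (PS α) χ ≠ 0) := by
    by_contra hcon
    push Not at hcon
    apply hne
    rw [hdeg, Finset.sum_eq_zero (fun θ _ => hcon.1 θ), Finset.sum_eq_zero (fun α _ => hcon.2 α)]
    ring
  have one_or_St : (classInner (PS (1 : MulChar F ℂ) - fun _ => (1 : ℂ)) χ ≠ 0 ∨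
      classInner (fun _ : SL F => (1 : ℂ)) χ ≠ 0) →
      χ = (fun _ => (1 : ℂ)) ∨ χ = (PS (1 : MulChar F ℂ) - fun _ => (1 : ℂ)) := by
    rintro (h | h)
    · right; exact Helper46.eq_of_classInner_ne_zero _ χ (St_irr hodd) hχ h
    · left; exact Helper46.eq_of_classInner_ne_zero _ χ Helper4.isIrrCharacter_one hχ h
  rcases key with ⟨θ, hθ⟩ | ⟨α, hα⟩
  · by_cases hθi : θ = θ⁻¹
    · by_cases hθ1 : θ = 1
      · rw [hθ1, pi_one_eq ψ hψ ε hε h2 hcard hodd] at hθ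
        have e : (PS (1 : MulChar F ℂ) - fun _ : SL F => (2 : ℂ)) =
            (PS (1 : MulChar F ℂ) - fun _ => (1 : ℂ)) - fun _ => (1 : ℂ) := by
          funext g; simp only [Pi.sub_apply]; ring
        rw [e, Helper46.classInner_sub_left] at hθ
        have : classInner (PS (1 : MulChar F ℂ) - fun _ => (1 : ℂ)) χ ≠ 0 ∨
            classInner (fun _ : SL F => (1 : ℂ)) χ ≠ 0 := by
          by_contra hcon
          push Not at hcon
          apply hθ; rw [hcon.1, hcon.2, sub_zero]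
        rcases one_or_St this with h | h
        · left; exact h
        · right; left; exact h
      · right; right; right; right; right; exact ⟨θ, hθ1, hθi, hθ⟩
    · right; right; right; right; left
      exact ⟨θ, hθi, Helper46.eq_of_classInner_ne_zero _ χ (pi_irr ψ hψ ε hε h2 hcard θ hθi) hχ hθ⟩
  · by_cases hαi : α = α⁻¹
    · by_cases hα1 : α = 1
      · rw [hα1] at hα
        have e : PS (1 : MulChar F ℂ) = (PS (1 : MulChar F ℂ) - fun _ => (1 : ℂ)) + fun _ => (1 : ℂ) :=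
          (sub_add_cancel _ _).symm
        rw [e, Helper46.classInner_add_left] at hα
        have : classInner (PS (1 : MulChar F ℂ) - fun _ => (1 : ℂ)) χ ≠ 0 ∨
            classInner (fun _ : SL F => (1 : ℂ)) χ ≠ 0 := by
          by_contra hcon
          push Not at hcon
          apply hα; rw [hcon.1, hcon.2, add_zero]
        rcases one_or_St this with h | h
        · left; exact h
        · right; left; exact h
      · right; right; right; left; exact ⟨α, hα1, hαi, hα⟩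
    · right; right; left
      exact ⟨α, hαi, Helper46.eq_of_classInner_ne_zero _ χ (PS_irr hodd α hαi) hχ hα⟩

end Cases

end Cfsg.Agent.Lib.Helper48
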