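import Mathlib
import Cfsg.Agent.Lib.Helper48.SL2h

set_option autoImplicit false

namespace Cfsg.Agent.Lib.Helper48

open Cfsg
open scoped ComplexConjugate
open Cfsg.Agent.S2429 (SL Tns Tw mem_Tns mem_Tw)
open Cfsg.Agent.S2433 (Bor theta mkB mkB_coe mkC mkC_coe slEquiv mem_bor_iff)

section DArg

variable {F : Type*} [Field F] [Fintype F] [DecidableEq F]
variable (ψ : AddChar F ℂ) (hψ : ψ.IsPrimitive) (ε : F) (hε : ¬ IsSquare ε) (h2 : (2 : F) ≠ 0)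
  (hcard : Fintype.card F % 2 = 1) (hodd : Odd (Fintype.card F))

include hε h2 in
/-- the characters induced from the non-split torus add up to the regular character -/
lemma sum_inner_IT [Fintype (Tns ε →* ℂˣ)] (f : SL F → ℂ) (hf : IsClassFunction (SL F) f) :
    ∑ θ : Tns ε →* ℂˣ, classInner (IT ε θ) f = conj (f 1) := by
  classical
  let _ : Fintype (Tns ε) := Fintype.ofFinite _
  simp_rw [inner_IT ε _ f hf]
  rw [← Finset.mul_sum, Finset.sum_comm]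
  simp_rw [← Finset.sum_mul, sum_theta ε hε h2]
  rw [Finset.sum_eq_single 1]
  · rw [if_pos rfl, cT ε hε h2]
    show _ * (_ * conj (f ((1 : Tns ε) : SL F))) = _
    rw [OneMemClass.coe_one]
    have := q_add_one_ne_zero (F := F)
    field_simp
  · intro b _ hb; rw [if_neg hb, zero_mul]
  · intro h; exact absurd (Finset.mem_univ _) h

include hψ hε h2 hcard hodd in
lemma gam_eta_zero [Fintype (Tns ε →* ℂˣ)] [Fintype (MulChar F ℂ)] (e : ℂ) (he : e = 1 ∨ e = -1)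
    (θ : Tns ε →* ℂˣ) (h1 : θ ≠ 1) (hinv : θ = θ⁻¹) (χ : SL F → ℂ) (hχ : IsIrrCharacter (SL F) χ)
    (hne : classInner (piC ψ ε θ) χ ≠ 0) (hprod : e * eT ε θ = -1) (s : F) (hs : s ≠ 0) :
    classInner (Gam ψ e s) χ = 0 := by
  obtain ⟨χ', hχ', -, hd⟩ := eta_compl ψ hψ ε hε h2 hcard hodd θ h1 hinv χ hχ hne
  have hW : IsCharacter (SL F) (piC ψ ε θ - χ) := by
    have : piC ψ ε θ - χ = χ' := by rw [hd]; abel
    rw [this]; exact Helper46.isCharacter_of_irr _ hχ'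
  apply char_inner_zero (Gam ψ e s) (piC ψ ε θ) χ (isCharacter_Gam ψ e he s)
    (Helper46.isCharacter_of_irr _ hχ) hW
  rw [inner_Gam_pi ψ hψ ε hε h2 e s hs, hprod]; norm_num

include hψ h2 hodd in
lemma gam_xi_zero (e : ℂ) (he : e = 1 ∨ e = -1)
    (α : MulChar F ℂ) (hinv : α = α⁻¹) (χ : SL F → ℂ) (hχ : IsIrrCharacter (SL F) χ)
    (hne : classInner (PS α) χ ≠ 0) (hprod : e * α (-1) = -1) (s : F) (hs : s ≠ 0) :
    classInner (Gam ψ e s) χ = 0 := by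
  apply char_inner_zero (Gam ψ e s) (PS α) χ (isCharacter_Gam ψ e he s)
    (Helper46.isCharacter_of_irr _ hχ) (Helper46.isCharacter_of_irr _ (xi_compl hodd α hinv χ hχ hne))
  rw [inner_Gam_PS ψ hψ h2 hodd e s hs, hprod]; norm_num

include hψ hε h2 hcard hodd in
lemma xi_Gam_ne [Fintype (Tns ε →* ℂˣ)] (α₀ : MulChar F ℂ) (h1 : α₀ ≠ 1) (hinv : α₀ = α₀⁻¹)
    (χ : SL F → ℂ) (hχ : IsIrrCharacter (SL F) χ) (hne : classInner (PS α₀) χ ≠ 0) :
    classInner (Gam ψ (α₀ (-1)) 1) χ + classInner (Gam ψ (α₀ (-1)) ε) χ ≠ 0 := by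
  classical
  have hsum := sum_inner_IT ε hε h2 χ (isClassFunction_of_char χ (Helper46.isCharacter_of_irr _ hχ))
  have hdeg : conj (χ 1) ≠ 0 := by
    rw [Helper4.irr_one_conj ⟨χ, hχ⟩]; exact irr_deg_ne_zero χ hχ
  rw [← hsum] at hdeg
  obtain ⟨θ, -, hθ⟩ := Finset.exists_ne_zero_of_sum_ne_zero hdeg
  have heq : eT ε θ = α₀ (-1) := by
    by_contra hcon
    apply hθ
    apply char_inner_zero (IT ε θ) (PS α₀) χ (isCharacter_IT ε θ) (Helper46.isCharacter_of_irr _ hχ)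
      (Helper46.isCharacter_of_irr _ (xi_compl hodd α₀ hinv χ hχ hne))
    rw [inner_IT_PS ε hε h2]
    rcases eT_pm ε θ with h | h <;> rcases alpha_neg_one_pm α₀ with h' | h'
    · exact absurd (h.trans h'.symm) hcon
    · rw [h, h']; norm_num
    · rw [h, h']; norm_num
    · exact absurd (h.trans h'.symm) hcon
  have hpi := xi_pi ψ hψ ε hε h2 hcard hodd α₀ h1 hinv χ hχ hne θ
  have hpi' : classInner (Gam ψ (eT ε θ) 1 + Gam ψ (eT ε θ) ε - IT ε θ) χ = 0 := hpi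
  rw [Helper46.classInner_sub_left, Helper46.classInner_add_left, heq] at hpi'
  intro h0
  apply hθ
  rw [h0] at hpi'
  linear_combination -hpi'

include hψ hε h2 hcard hodd in
/-- the two constituents of the reducible principal series agree wherever the two Gelfand–Graev
type characters agree -/
theorem xi_half [Fintype (Tns ε →* ℂˣ)] [Fintype (MulChar F ℂ)] (α₀ : MulChar F ℂ) (h1 : α₀ ≠ 1)
    (hinv : α₀ = α₀⁻¹) (χ : SL F → ℂ) (hχ : IsIrrCharacter (SL F) χ)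
    (hne : classInner (PS α₀) χ ≠ 0) (g : SL F)
    (hg : Gam ψ (α₀ (-1)) 1 g = Gam ψ (α₀ (-1)) ε g) : χ g = PS α₀ g / 2 := by
  classical
  have he : α₀ (-1) = 1 ∨ α₀ (-1) = -1 := alpha_neg_one_pm α₀
  have hε0 : ε ≠ 0 := fun h => hε (h ▸ IsSquare.zero)
  have hχ' := xi_compl hodd α₀ hinv χ hχ hne
  have hne' := xi_compl_ne hodd α₀ hinv χ hχ hne
  have hne'' : classInner (PS α₀) (PS α₀ - χ) ≠ 0 := by
    rw [Helper46.classInner_sub_right, PS_norm_two hodd α₀ hinv, xi_inner hodd α₀ hinv χ hχ hne]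
    norm_num
  have hother : ∀ χ'' : SL F → ℂ, IsIrrCharacter (SL F) χ'' → χ'' ≠ χ → χ'' ≠ PS α₀ - χ →
      classInner (Gam ψ (α₀ (-1)) 1) χ'' = classInner (Gam ψ (α₀ (-1)) ε) χ'' := by
    intro χ'' hχ'' hn1 hn2
    rcases irr_cases ψ hψ ε hε h2 hcard hodd χ'' hχ'' with
      h | h | ⟨α, hα, h⟩ | ⟨α, hα1, hαi, hα⟩ | ⟨θ, hθ, h⟩ | ⟨θ, hθ1, hθi, hθ⟩
    · rw [h, inner_Gam_one ψ hψ h2 _ 1 one_ne_zero, inner_Gam_one ψ hψ h2 _ ε hε0]
    · rw [h, Helper46.classInner_sub_right, Helper46.classInner_sub_right,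
        inner_Gam_one ψ hψ h2 _ 1 one_ne_zero, inner_Gam_one ψ hψ h2 _ ε hε0,
        inner_Gam_PS ψ hψ h2 hodd _ 1 one_ne_zero, inner_Gam_PS ψ hψ h2 hodd _ ε hε0]
    · rw [h, inner_Gam_PS ψ hψ h2 hodd _ 1 one_ne_zero, inner_Gam_PS ψ hψ h2 hodd _ ε hε0]
    · exfalso
      have hαα : α = α₀ := alpha_unique α α₀ hα1 hαi h1 hinv
      rw [hαα] at hα
      have e1 : PS α₀ = χ + (PS α₀ - χ) := (add_sub_cancel _ _).symm
      rw [e1, Helper46.classInner_add_left, inner_irr_ne _ _ hχ hχ'' (Ne.symm hn1),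
        inner_irr_ne _ _ hχ' hχ'' (Ne.symm hn2), add_zero] at hα
      exact hα rfl
    · rw [h, inner_Gam_pi ψ hψ ε hε h2 _ 1 one_ne_zero, inner_Gam_pi ψ hψ ε hε h2 _ ε hε0]
    · have hp : α₀ (-1) * eT ε θ = -1 := by
        rw [mul_comm]; exact parity_prod ε hε h2 hcard hodd θ hθ1 hθi α₀ h1 hinv
      rw [gam_eta_zero ψ hψ ε hε h2 hcard hodd _ he θ hθ1 hθi χ'' hχ'' hθ hp 1 one_ne_zero,
        gam_eta_zero ψ hψ ε hε h2 hcard hodd _ he θ hθ1 hθi χ'' hχ'' hθ hp ε hε0]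
  have hs : ∀ s : F, s ≠ 0 →
      classInner (Gam ψ (α₀ (-1)) s) χ + classInner (Gam ψ (α₀ (-1)) s) (PS α₀ - χ) = 1 := by
    intro s hs
    rw [← Helper46.classInner_add_right, add_sub_cancel, inner_Gam_PS ψ hψ h2 hodd _ s hs,
      alpha_neg_one_sq]
    norm_num
  have key := diff_vanish (Gam ψ (α₀ (-1)) 1) (Gam ψ (α₀ (-1)) ε) (isCharacter_Gam ψ _ he 1)
    (isCharacter_Gam ψ _ he ε) χ (PS α₀ - χ) hχ hχ' (Ne.symm hne') hother (hs 1 one_ne_zero)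
    (hs ε hε0) (xi_Gam_ne ψ hψ ε hε h2 hcard hodd α₀ h1 hinv χ hχ hne)
    (xi_Gam_ne ψ hψ ε hε h2 hcard hodd α₀ h1 hinv (PS α₀ - χ) hχ' hne'') g hg
  have key' : χ g = PS α₀ g - χ g := key
  linear_combination key' / 2

include hψ hε h2 hcard hodd in
/-- the two constituents of the reducible cuspidal virtual character agree wherever the two
Gelfand–Graev type characters agree -/
theorem eta_half [Fintype (Tns ε →* ℂˣ)] [Fintype (MulChar F ℂ)] (θ₀ : Tns ε →* ℂˣ) (h1 : θ₀ ≠ 1)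
    (hinv : θ₀ = θ₀⁻¹) (χ : SL F → ℂ) (hχ : IsIrrCharacter (SL F) χ)
    (hne : classInner (piC ψ ε θ₀) χ ≠ 0) (g : SL F)
    (hg : Gam ψ (eT ε θ₀) 1 g = Gam ψ (eT ε θ₀) ε g) : χ g = piC ψ ε θ₀ g / 2 := by
  classical
  have he := eT_pm ε θ₀
  have hε0 : ε ≠ 0 := fun h => hε (h ▸ IsSquare.zero)
  obtain ⟨χ', hχ', hne', hd⟩ := eta_compl ψ hψ ε hε h2 hcard hodd θ₀ h1 hinv χ hχ hne
  have hother : ∀ χ'' : SL F → ℂ, IsIrrCharacter (SL F) χ'' → χ'' ≠ χ → χ'' ≠ χ' →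
      classInner (Gam ψ (eT ε θ₀) 1) χ'' = classInner (Gam ψ (eT ε θ₀) ε) χ'' := by
    intro χ'' hχ'' hn1 hn2
    rcases irr_cases ψ hψ ε hε h2 hcard hodd χ'' hχ'' with
      h | h | ⟨α, hα, h⟩ | ⟨α, hα1, hαi, hα⟩ | ⟨θ, hθ, h⟩ | ⟨θ, hθ1, hθi, hθ⟩
    · rw [h, inner_Gam_one ψ hψ h2 _ 1 one_ne_zero, inner_Gam_one ψ hψ h2 _ ε hε0]
    · rw [h, Helper46.classInner_sub_right, Helper46.classInner_sub_right,
        inner_Gam_one ψ hψ h2 _ 1 one_ne_zero, inner_Gam_one ψ hψ h2 _ ε hε0,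
        inner_Gam_PS ψ hψ h2 hodd _ 1 one_ne_zero, inner_Gam_PS ψ hψ h2 hodd _ ε hε0]
    · rw [h, inner_Gam_PS ψ hψ h2 hodd _ 1 one_ne_zero, inner_Gam_PS ψ hψ h2 hodd _ ε hε0]
    · have hp : eT ε θ₀ * α (-1) = -1 := parity_prod ε hε h2 hcard hodd θ₀ h1 hinv α hα1 hαi
      rw [gam_xi_zero ψ hψ h2 hodd _ he α hαi χ'' hχ'' hα hp 1 one_ne_zero,
        gam_xi_zero ψ hψ h2 hodd _ he α hαi χ'' hχ'' hα hp ε hε0]
    · rw [h, inner_Gam_pi ψ hψ ε hε h2 _ 1 one_ne_zero, inner_Gam_pi ψ hψ ε hε h2 _ ε hε0]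
    · exfalso
      have hθθ : θ = θ₀ := theta_unique ε hε θ θ₀ hθ1 hθi h1 hinv
      rw [hθθ, hd, Helper46.classInner_add_left, inner_irr_ne _ _ hχ hχ'' (Ne.symm hn1),
        inner_irr_ne _ _ hχ' hχ'' (Ne.symm hn2), add_zero] at hθ
      exact hθ rfl
  have hs : ∀ s : F, s ≠ 0 →
      classInner (Gam ψ (eT ε θ₀) s) χ + classInner (Gam ψ (eT ε θ₀) s) χ' = 1 := by
    intro s hs
    rw [← Helper46.classInner_add_right, ← hd, inner_Gam_pi ψ hψ ε hε h2 _ s hs]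
    have : eT ε θ₀ * eT ε θ₀ = 1 := by rcases he with h | h <;> rw [h] <;> norm_num
    rw [this]; norm_num
  have hcgen : ∀ χ₁ : SL F → ℂ, IsIrrCharacter (SL F) χ₁ → classInner (piC ψ ε θ₀) χ₁ ≠ 0 →
      classInner (Gam ψ (eT ε θ₀) 1) χ₁ + classInner (Gam ψ (eT ε θ₀) ε) χ₁ ≠ 0 := by
    intro χ₁ hχ₁ hne₁
    have h1' := (eta_inner ψ hψ ε hε h2 hcard hodd θ₀ h1 hinv χ₁ hχ₁ hne₁).1
    have h1'' : classInner (Gam ψ (eT ε θ₀) 1 + Gam ψ (eT ε θ₀) ε - IT ε θ₀) χ₁ = 1 := h1'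
    rw [Helper46.classInner_sub_left, Helper46.classInner_add_left] at h1''
    obtain ⟨k, hk⟩ := Helper46.classInner_char_char_nat (IT ε θ₀) χ₁ (isCharacter_IT ε θ₀)
      (Helper46.isCharacter_of_irr _ hχ₁)
    rw [hk] at h1''
    intro h0
    rw [h0] at h1''
    have : ((k + 1 : ℕ) : ℂ) = ((0 : ℕ) : ℂ) := by push_cast; linear_combination -h1''
    have := Nat.cast_injective this
    omega
  have hne1 : classInner (piC ψ ε θ₀) χ' ≠ 0 := by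
    rw [hd, Helper46.classInner_add_left, inner_irr_ne _ _ hχ hχ' (Ne.symm hne'),
      inner_irr_self χ' hχ', zero_add]
    exact one_ne_zero
  have key := diff_vanish (Gam ψ (eT ε θ₀) 1) (Gam ψ (eT ε θ₀) ε) (isCharacter_Gam ψ _ he 1)
    (isCharacter_Gam ψ _ he ε) χ χ' hχ hχ' (Ne.symm hne') hother (hs 1 one_ne_zero) (hs ε hε0)
    (hcgen χ hχ hne) (hcgen χ' hχ' hne1) g hg
  rw [hd]
  show χ g = (χ g + χ' g) / 2
  rw [← key]; ring

end DArg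

end Cfsg.Agent.Lib.Helper48
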