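import Mathlib
import Cfsg.Agent.Lib.Helper48.SL2i

set_option autoImplicit false

namespace Cfsg.Agent.Lib.Helper48

open Cfsg
open scoped ComplexConjugate
open Cfsg.Agent.S2429 (SL Tns Tw mem_Tns mem_Tw)
open Cfsg.Agent.S2433 (Bor theta mkB mkB_coe mkC mkC_coe slEquiv mem_bor_iff)

section CycQ

variable {C : Type*} [Group C] [Finite C] [IsCyclic C]

/-- the kernel of the character of order two of a cyclic group of order `2 * m` -/
theorem cyclic_quad_eq_one_iff (φ : C →* ℂˣ) (hφ : φ ≠ 1) (hφ2 : ∀ c, φ c ^ 2 = 1) (m : ℕ)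
    (hm : Nat.card C = 2 * m) (c : C) : φ c = 1 ↔ c ^ m = 1 := by
  obtain ⟨g, hg⟩ := IsCyclic.exists_generator (α := C)
  have hord : orderOf g = Nat.card C := orderOf_eq_card_of_forall_mem_zpowers hg
  have hgval : φ g = -1 := by
    have h1 : ((φ g : ℂˣ) : ℂ) ^ 2 = 1 := by
      rw [← Units.val_pow_eq_pow_val, hφ2 g, Units.val_one]
    have h2 : (((φ g : ℂˣ) : ℂ) - 1) * (((φ g : ℂˣ) : ℂ) + 1) = 0 := by linear_combination h1
    rcases mul_eq_zero.mp h2 with h | h
    · exfalso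
      apply hφ
      apply MonoidHom.ext
      intro c
      obtain ⟨k, rfl⟩ := hg c
      have : φ g = 1 := by
        apply Units.ext
        rw [Units.val_one]; linear_combination h
      rw [map_zpow, this, one_zpow, MonoidHom.one_apply]
    · apply Units.ext
      rw [Units.val_neg, Units.val_one]; linear_combination h
  obtain ⟨j, hj⟩ : ∃ j : ℕ, g ^ j = c := by
    have := (mem_powers_iff_mem_zpowers (x := g) (y := c)).mpr (hg c)
    obtain ⟨j, hj⟩ := this
    exact ⟨j, hj⟩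
  have hmpos : 0 < m := by
    have : 0 < Nat.card C := Nat.card_pos
    omega
  rw [← hj, map_pow, hgval, ← pow_mul, ← orderOf_dvd_iff_pow_eq_one (x := g), hord, hm]
  constructor
  · intro h
    have hev : Even j := by
      by_contra hodd
      rw [Nat.not_even_iff_odd] at hodd
      rw [hodd.neg_one_pow] at h
      have := congrArg Units.val h
      rw [Units.val_neg, Units.val_one] at this
      norm_num at this
    obtain ⟨r, hr⟩ := hev
    exact ⟨r, by rw [hr]; ring⟩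
  · rintro ⟨r, hr⟩
    have : j = 2 * r := by
      have : j * m = (2 * r) * m := by rw [hr]; ring
      exact Nat.eq_of_mul_eq_mul_right hmpos this
    rw [this, pow_mul]; simp

end CycQ

section IndC

variable {G : Type*} [Group G] [Fintype G]

/-- induced functions transform under a central element of the subgroup like the inducing
function -/
theorem indFun_central_mul (H : Subgroup G) (f : H → ℂ) (z : G) (hz : z ∈ H)
    (hc : ∀ x : G, x * z = z * x) (e : ℂ) (hf : ∀ h : H, f (⟨z, hz⟩ * h) = e * f h) (g : G) :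
    indFun H f (z * g) = e * indFun H f g := by
  unfold indFun
  have key : ∀ x : G, extendByZero H f (x⁻¹ * (z * g) * x) = e * extendByZero H f (x⁻¹ * g * x) := by
    intro x
    have e1 : x⁻¹ * (z * g) * x = z * (x⁻¹ * g * x) := by
      have := hc x⁻¹
      rw [← mul_assoc, this, mul_assoc, mul_assoc, mul_assoc]
    rw [e1]
    by_cases hy : x⁻¹ * g * x ∈ H
    · rw [Helper46.extendByZero_of_mem H f hy, Helper46.extendByZero_of_mem H f (H.mul_mem hz hy)]
      exact hf ⟨_, hy⟩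
    · have hy' : z * (x⁻¹ * g * x) ∉ H := by
        intro h'
        apply hy
        have := H.mul_mem (H.inv_mem hz) h'
        rwa [inv_mul_cancel_left] at this
      rw [Helper46.extendByZero_of_not_mem H f hy, Helper46.extendByZero_of_not_mem H f hy', mul_zero]
  simp_rw [key]
  rw [← Finset.mul_sum]; ring

end IndC

section Pkg

variable {F : Type*} [Field F] [Fintype F] [DecidableEq F]
variable (ψ : AddChar F ℂ) (hψ : ψ.IsPrimitive) (ε : F) (hε : ¬ IsSquare ε) (h2 : (2 : F) ≠ 0)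
  (hcard : Fintype.card F % 2 = 1) (hodd : Odd (Fintype.card F))

/-- the sum of a class function over the unipotent subgroup -/
lemma U_sum [Fintype (MulChar F ℂ)] (f : SL F → ℂ) (hf : IsClassFunction (SL F) f) :
    ∑ g : SL F, (if g.1 1 0 = 0 ∧ g.1 0 0 = 1 ∧ g.1 1 1 = 1 then f g else 0) =
      (Fintype.card F : ℂ) * conj (∑ β : MulChar F ℂ, classInner (PS β) f) := by
  classical
  have h1 : ∀ g : SL F, (if g.1 1 0 = 0 ∧ g.1 0 0 = 1 ∧ g.1 1 1 = 1 then f g else 0) =
      if g.1 1 0 = 0 then (if g.1 0 0 = 1 ∧ g.1 1 1 = 1 then f g else 0) else 0 := by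
    intro g
    by_cases h : g.1 1 0 = 0 <;> simp [h]
  simp_rw [h1]
  rw [sum_B]
  simp_rw [mkB_00, mkB_11]
  have hL : ∑ a : Fˣ, ∑ x : F, (if (a : F) = 1 ∧ (a : F)⁻¹ = 1 then f (mkB a x) else 0) =
      ∑ x : F, f (mkB 1 x) := by
    rw [Finset.sum_eq_single (1 : Fˣ)]
    · simp
    · intro b _ hb
      have : (b : F) ≠ 1 := fun h => hb (Units.ext h)
      simp [this]
    · intro h; exact absurd (Finset.mem_univ _) h
  rw [hL]
  have hR : ∑ β : MulChar F ℂ, classInner (PS β) f =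
      (Fintype.card F : ℂ)⁻¹ * ∑ x : F, conj (f (mkB 1 x)) := by
    simp_rw [inner_PS _ f hf]
    rw [← Finset.mul_sum, Finset.sum_comm]
    have : ∀ a : Fˣ, ∑ β : MulChar F ℂ, ∑ x : F, β (a : F) * conj (f (mkB a x)) =
        if a = 1 then ((Fintype.card F : ℂ) - 1) * ∑ x : F, conj (f (mkB a x)) else 0 := by
      intro a
      rw [Finset.sum_comm]
      simp_rw [← Finset.sum_mul, Helper46.mulChar_sum_apply]
      by_cases ha : a = 1
      · rw [if_pos ha]; subst ha
        simp only [Units.val_one, if_true]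
        rw [Finset.mul_sum]
      · have : (a : F) ≠ 1 := fun h => ha (Units.ext h)
        simp [this, ha]
    simp_rw [this]
    rw [Finset.sum_ite_eq' Finset.univ (1 : Fˣ), if_pos (Finset.mem_univ _), cB]
    have h1 := q_sub_one_ne_zero (F := F)
    have h2 := q_ne_zero (F := F)
    field_simp
  rw [hR, map_mul, map_inv₀, map_natCast, map_sum]
  simp_rw [Complex.conj_conj]
  have h2 := q_ne_zero (F := F)
  field_simp

include hodd in
lemma sumPS_St [Fintype (MulChar F ℂ)] :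
    ∑ β : MulChar F ℂ, classInner (PS β) (PS (1 : MulChar F ℂ) - fun _ => (1 : ℂ)) = 1 := by
  classical
  have : ∀ β : MulChar F ℂ, classInner (PS β) (PS (1 : MulChar F ℂ) - fun _ => (1 : ℂ)) =
      if β = 1 then 1 else 0 := by
    intro β
    rw [Helper46.classInner_sub_right, inner_PS_PS hodd, inner_PS_one, inv_one]; ring
  simp_rw [this]
  rw [Finset.sum_ite_eq' Finset.univ (1 : MulChar F ℂ), if_pos (Finset.mem_univ _)]

include hodd in
lemma sumPS_PS [Fintype (MulChar F ℂ)] (α : MulChar F ℂ) :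
    ∑ β : MulChar F ℂ, classInner (PS β) (PS α) = 2 := by
  classical
  have : ∀ β : MulChar F ℂ, classInner (PS β) (PS α) =
      (if β = α then 1 else 0) + (if β = α⁻¹ then 1 else 0) := fun β => inner_PS_PS hodd β α
  simp_rw [this]
  rw [Finset.sum_add_distrib, Finset.sum_ite_eq' Finset.univ α, Finset.sum_ite_eq' Finset.univ α⁻¹,
    if_pos (Finset.mem_univ _), if_pos (Finset.mem_univ _)]
  norm_num

include hψ hε h2 hcard hodd in
/-- the irreducible characters of `SL₂(q)`, `q` odd: degrees, multiplicities in the principal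
series, and the values of the characters of half degree -/
theorem classify [Fintype (Tns ε →* ℂˣ)] [Fintype (MulChar F ℂ)] (χ : SL F → ℂ)
    (hχ : IsIrrCharacter (SL F) χ) :
    (χ = fun _ => (1 : ℂ)) ∨
    (χ 1 = (Fintype.card F : ℂ) ∧ ∑ β : MulChar F ℂ, classInner (PS β) χ = 1) ∨
    (χ 1 = (Fintype.card F : ℂ) + 1 ∧ ∑ β : MulChar F ℂ, classInner (PS β) χ = 2) ∨
    (χ 1 = ((Fintype.card F : ℂ) + 1) / 2 ∧ ∑ β : MulChar F ℂ, classInner (PS β) χ = 1 ∧
      ∃ α₀ : MulChar F ℂ, α₀ ≠ 1 ∧ α₀ = α₀⁻¹ ∧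
        ∀ g, Gam ψ (α₀ (-1)) 1 g = Gam ψ (α₀ (-1)) ε g → χ g = PS α₀ g / 2) ∨
    (χ 1 = (Fintype.card F : ℂ) - 1 ∧ ∑ β : MulChar F ℂ, classInner (PS β) χ = 0 ∧
      ∃ θ : Tns ε →* ℂˣ, θ ≠ θ⁻¹ ∧ χ = piC ψ ε θ) ∨
    (χ 1 = ((Fintype.card F : ℂ) - 1) / 2 ∧ ∑ β : MulChar F ℂ, classInner (PS β) χ = 0 ∧
      ∃ θ₀ : Tns ε →* ℂˣ, θ₀ ≠ 1 ∧ θ₀ = θ₀⁻¹ ∧
        ∀ g, Gam ψ (eT ε θ₀) 1 g = Gam ψ (eT ε θ₀) ε g → χ g = piC ψ ε θ₀ g / 2) := by
  classical
  rcases irr_cases ψ hψ ε hε h2 hcard hodd χ hχ with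
    h | h | ⟨α, hα, h⟩ | ⟨α, hα1, hαi, hα⟩ | ⟨θ, hθ, h⟩ | ⟨θ, hθ1, hθi, hθ⟩
  · left; exact h
  · right; left
    refine ⟨?_, ?_⟩
    · rw [h]
      show PS (1 : MulChar F ℂ) 1 - 1 = _
      rw [PS_deg hodd]; ring
    · rw [h]; exact sumPS_St hodd
  · right; right; left
    refine ⟨?_, ?_⟩
    · rw [h, PS_deg hodd]
    · rw [h]; exact sumPS_PS hodd α
  · right; right; right; left
    exact ⟨xi_deg ψ hψ ε hε h2 hcard hodd α hα1 hαi χ hχ hα, xi_sumPS hodd α hαi χ hχ hα, α, hα1,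
      hαi, fun g hg => xi_half ψ hψ ε hε h2 hcard hodd α hα1 hαi χ hχ hα g hg⟩
  · right; right; right; right; left
    refine ⟨?_, ?_, θ, hθ, h⟩
    · rw [h, pi_deg ψ hψ ε hε h2]
    · rw [h]
      exact Finset.sum_eq_zero (fun β _ => inner_PS_pi ψ hψ ε hε h2 β θ)
  · right; right; right; right; right
    exact ⟨(eta_inner ψ hψ ε hε h2 hcard hodd θ hθ1 hθi χ hχ hθ).2,
      Finset.sum_eq_zero (fun β _ => eta_PS ψ hψ ε hε h2 hcard hodd θ hθ1 χ hχ hθ β), θ, hθ1, hθi,
      fun g hg => eta_half ψ hψ ε hε h2 hcard hodd θ hθ1 hθi χ hχ hθ g hg⟩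

omit [Fintype F] [DecidableEq F] in
lemma alpha_isSquare (α₀ : MulChar F ℂ) (hinv : α₀ = α₀⁻¹) (a : F) (ha0 : a ≠ 0) (ha : IsSquare a) :
    α₀ a = 1 := by
  obtain ⟨b, rfl⟩ := ha
  have hb : b ≠ 0 := by rintro rfl; simp at ha0
  rw [map_mul]
  exact alpha_sq α₀ hinv (Units.mk0 b hb)

omit [DecidableEq F] in
lemma alpha_nonsq (α₀ : MulChar F ℂ) (h1 : α₀ ≠ 1) (hinv : α₀ = α₀⁻¹) (a : F) (ha : ¬ IsSquare a) :
    α₀ a = -1 := by
  obtain ⟨u, hu⟩ := MulChar.ne_one_iff.mp h1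
  have husq := alpha_sq α₀ hinv u
  have hu' : α₀ (u : F) = -1 := by
    have : (α₀ (u : F) - 1) * (α₀ (u : F) + 1) = 0 := by linear_combination husq
    rcases mul_eq_zero.mp this with h | h
    · exact absurd (by linear_combination h) hu
    · linear_combination h
  have hnsq : ¬ IsSquare (u : F) := by
    intro h
    exact hu (alpha_isSquare α₀ hinv (u : F) u.ne_zero h)
  have hsq := Cfsg.Agent.S2429.isSquare_mul_of_not ha hnsq
  have ha0 : a ≠ 0 := fun h => ha (h ▸ IsSquare.zero)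
  have := alpha_isSquare α₀ hinv (a * u) (mul_ne_zero ha0 u.ne_zero) hsq
  rw [map_mul, hu'] at this
  linear_combination -this

include hε h2 hcard in
/-- the kernel of the character of order two of the non-split torus -/
lemma theta_half (θ₀ : Tns ε →* ℂˣ) (h1 : θ₀ ≠ 1) (hinv : θ₀ = θ₀⁻¹) (c : Tns ε) :
    θ₀ c = 1 ↔ c ^ ((Fintype.card F + 1) / 2) = 1 := by
  have : IsCyclic (Tns ε) := Cfsg.Agent.S2429.cyclic_Tns ε hε
  apply cyclic_quad_eq_one_iff θ₀ h1 (theta_sq ε θ₀ hinv)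
  rw [Cfsg.Agent.S2429.card_Tns ε hε h2]
  omega

end Pkg

end Cfsg.Agent.Lib.Helper48
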