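import Mathlib
import Cfsg.Agent.Lib.Helper48.SL2j

set_option autoImplicit false

namespace Cfsg.Agent.Lib.Helper48

open Cfsg
open scoped ComplexConjugate
open Cfsg.Agent.S2429 (SL Tns Tw mem_Tns mem_Tw)
open Cfsg.Agent.S2433 (Bor theta mkB mkB_coe mkC mkC_coe slEquiv mem_bor_iff)

section Fin1

variable {F : Type*} [Field F] [Fintype F] [DecidableEq F]
variable (ψ : AddChar F ℂ) (hψ : ψ.IsPrimitive) (ε : F) (hε : ¬ IsSquare ε) (h2 : (2 : F) ≠ 0)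
  (hcard : Fintype.card F % 2 = 1) (hodd : Odd (Fintype.card F))

include hψ hε h2 hcard hodd in
/-- the classification with degrees as natural numbers -/
theorem classify_nat [Fintype (Tns ε →* ℂˣ)] [Fintype (MulChar F ℂ)] (χ : SL F → ℂ)
    (hχ : IsIrrCharacter (SL F) χ) :
    ∃ d : ℕ, χ 1 = (d : ℂ) ∧ (d = 1 ∨
    (d = Fintype.card F ∧ ∑ β : MulChar F ℂ, classInner (PS β) χ = 1) ∨
    (d = Fintype.card F + 1 ∧ ∑ β : MulChar F ℂ, classInner (PS β) χ = 2) ∨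
    (d = (Fintype.card F + 1) / 2 ∧ ∑ β : MulChar F ℂ, classInner (PS β) χ = 1 ∧
      ∃ α₀ : MulChar F ℂ, α₀ ≠ 1 ∧ α₀ = α₀⁻¹ ∧
        ∀ g, Gam ψ (α₀ (-1)) 1 g = Gam ψ (α₀ (-1)) ε g → χ g = PS α₀ g / 2) ∨
    (d = Fintype.card F - 1 ∧ ∑ β : MulChar F ℂ, classInner (PS β) χ = 0 ∧
      ∃ θ : Tns ε →* ℂˣ, θ ≠ θ⁻¹ ∧ χ = piC ψ ε θ) ∨
    (d = (Fintype.card F - 1) / 2 ∧ ∑ β : MulChar F ℂ, classInner (PS β) χ = 0 ∧
      ∃ θ₀ : Tns ε →* ℂˣ, θ₀ ≠ 1 ∧ θ₀ = θ₀⁻¹ ∧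
        ∀ g, Gam ψ (eT ε θ₀) 1 g = Gam ψ (eT ε θ₀) ε g → χ g = piC ψ ε θ₀ g / 2)) := by
  have hq1 : 1 ≤ Fintype.card F := Fintype.card_pos
  rcases classify ψ hψ ε hε h2 hcard hodd χ hχ with
    h | ⟨hd, hP⟩ | ⟨hd, hP⟩ | ⟨hd, hP⟩ | ⟨hd, hP⟩ | ⟨hd, hP⟩
  · exact ⟨1, by rw [h]; simp, Or.inl rfl⟩
  · exact ⟨Fintype.card F, hd, Or.inr (Or.inl ⟨rfl, hP⟩)⟩
  · exact ⟨Fintype.card F + 1, by rw [hd]; push_cast; ring, Or.inr (Or.inr (Or.inl ⟨rfl, hP⟩))⟩
  · exact ⟨(Fintype.card F + 1) / 2, by rw [hd, half_add hcard],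
      Or.inr (Or.inr (Or.inr (Or.inl ⟨rfl, hP⟩)))⟩
  · exact ⟨Fintype.card F - 1, by rw [hd, Nat.cast_sub hq1]; simp,
      Or.inr (Or.inr (Or.inr (Or.inr (Or.inl ⟨rfl, hP⟩))))⟩
  · exact ⟨(Fintype.card F - 1) / 2, by rw [hd, half_sub hcard],
      Or.inr (Or.inr (Or.inr (Or.inr (Or.inr ⟨rfl, hP⟩))))⟩

include hodd in
/-- a constituent of the reducible principal series at a regular diagonal element -/
lemma half_diag (α₀ : MulChar F ℂ) (hαi : α₀ = α₀⁻¹) (χ : SL F → ℂ)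
    (hval : ∀ g, Gam ψ (α₀ (-1)) 1 g = Gam ψ (α₀ (-1)) ε g → χ g = PS α₀ g / 2) (g : SL F)
    (h01 : g.1 0 1 = 0) (h10 : g.1 1 0 = 0) (hsq : g.1 0 0 ^ 2 ≠ 1) : χ g = α₀ (g.1 0 0) := by
  obtain ⟨a, x, rfl⟩ := eq_mkB_of_10 g h10
  rw [mkB_01] at h01
  rw [mkB_00] at hsq ⊢
  subst h01
  have ha : (a : F) ≠ (a : F)⁻¹ := by
    intro h
    apply hsq
    rw [pow_two]
    nth_rewrite 2 [h]
    exact mul_inv_cancel₀ a.ne_zero
  have htr : ((mkB a 0 : SL F).1 0 0 + (mkB a 0 : SL F).1 1 1) ^ 2 ≠ 4 := by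
    rw [mkB_00, mkB_11]; exact trace_sq_ne a ha
  rw [hval _ (by rw [Gam_trace ψ _ _ _ htr, Gam_trace ψ _ _ _ htr]), PS_B hodd, if_neg ha]
  have : α₀ ((a : F)⁻¹) = α₀ (a : F) := by
    rw [← MulChar.inv_apply', ← hαi]
  rw [this]; ring

include hε h2 hcard in
/-- a constituent of the reducible cuspidal virtual character at an elliptic element -/
lemma half_ell (θ₀ : Tns ε →* ℂˣ) (hθi : θ₀ = θ₀⁻¹) (χ : SL F → ℂ)
    (hcf : IsClassFunction (SL F) χ)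
    (hval : ∀ g, Gam ψ (eT ε θ₀) 1 g = Gam ψ (eT ε θ₀) ε g → χ g = piC ψ ε θ₀ g / 2) (g : SL F)
    (hg : ∀ (c : F) (v : Fin 2 → F), v ≠ 0 → g.1.mulVec v ≠ c • v) :
    ∃ (h : SL F) (hc : h * g * h⁻¹ ∈ Tns ε), χ g = -((θ₀ ⟨h * g * h⁻¹, hc⟩ : ℂˣ) : ℂ) := by
  obtain ⟨h, hh⟩ := Cfsg.Agent.S2429.conj_into ε hε hcard h2 g hg
  refine ⟨h, hh, ?_⟩
  have h10 : (h * g * h⁻¹).1 1 0 ≠ 0 := by
    intro h10
    have h01 : (h * g * h⁻¹).1 0 1 = 0 := by rw [hh.2, h10, mul_zero]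
    have hsc := scalar_conj (h * g * h⁻¹) h01 h10 hh.1 h
    have hgeq : g = h * g * h⁻¹ := by
      calc g = h⁻¹ * (h * g * h⁻¹) * h := by group
        _ = h * g * h⁻¹ := hsc
    have hg10 : g.1 1 0 = 0 := by rw [hgeq]; exact h10
    apply hg (g.1 0 0) ![1, 0]
    · intro hv
      have := congrFun hv 0
      simp at this
    · funext i
      fin_cases i <;> simp [Matrix.mulVec, dotProduct, Fin.sum_univ_two, hg10]
  rw [← hcf g h, hval _ (by rw [Gam_T ψ ε hε h2 _ _ _ hh, Gam_T ψ ε hε h2 _ _ _ hh, if_neg h10]),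
    pi_T ψ ε hε h2 hcard θ₀ _ hh, if_neg h10]
  have : ((θ₀ ⟨(h * g * h⁻¹)⁻¹, (Tns ε).inv_mem hh⟩ : ℂˣ) : ℂ) =
      ((θ₀ ⟨h * g * h⁻¹, hh⟩ : ℂˣ) : ℂ) := by
    have e : (⟨(h * g * h⁻¹)⁻¹, (Tns ε).inv_mem hh⟩ : Tns ε) = (⟨h * g * h⁻¹, hh⟩ : Tns ε)⁻¹ := rfl
    rw [e, map_inv, ← MonoidHom.inv_apply, ← hθi]
  rw [this]; ring

end Fin1

section Neg

variable {F : Type*} [Field F] [Fintype F] [DecidableEq F]

omit [Fintype F] [DecidableEq F] in
lemma neg_one_comm (x : SL F) : x * (-1) = (-1) * x := by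
  rw [mul_neg, neg_mul, mul_one, one_mul]

lemma Gam_neg (ψ : AddChar F ℂ) (e : ℂ) (he : e = 1 ∨ e = -1) (h2 : (2 : F) ≠ 0) (s : F) (g : SL F) :
    Gam ψ e s ((-1) * g) = e * Gam ψ e s g := by
  have hz : (-1 : SL F) ∈ ZU F := by rw [mem_ZU]; simp
  apply indFun_central_mul (ZU F) (lamFun ψ e s) (-1) hz neg_one_comm e
  intro h
  have := (lamHom ψ e he s).map_mul ⟨-1, hz⟩ h
  have e1 : lamFun ψ e s ⟨-1, hz⟩ = e := by
    show sg e ((-1 : SL F).1 0 0) * ψ (s * ((-1 : SL F).1 0 0 * (-1 : SL F).1 0 1)) = e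
    simp [sg_neg_one h2]
  calc lamFun ψ e s (⟨-1, hz⟩ * h) = lamFun ψ e s ⟨-1, hz⟩ * lamFun ψ e s h := this
    _ = e * lamFun ψ e s h := by rw [e1]

lemma IT_neg (ε : F) (θ : Tns ε →* ℂˣ) (g : SL F) : IT ε θ ((-1) * g) = eT ε θ * IT ε θ g := by
  apply indFun_central_mul (Tns ε) _ (-1) (negOne_mem ε) neg_one_comm (eT ε θ)
  intro h
  show ((θ (⟨-1, negOne_mem ε⟩ * h) : ℂˣ) : ℂ) = eT ε θ * ((θ h : ℂˣ) : ℂ)
  rw [map_mul, Units.val_mul]; rfl

/-- the central character of the cuspidal virtual character -/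
lemma pi_neg (ψ : AddChar F ℂ) (ε : F) (h2 : (2 : F) ≠ 0) (θ : Tns ε →* ℂˣ) (g : SL F) :
    piC ψ ε θ ((-1) * g) = eT ε θ * piC ψ ε θ g := by
  show Gam ψ (eT ε θ) 1 ((-1) * g) + Gam ψ (eT ε θ) ε ((-1) * g) - IT ε θ ((-1) * g) =
    eT ε θ * (Gam ψ (eT ε θ) 1 g + Gam ψ (eT ε θ) ε g - IT ε θ g)
  rw [Gam_neg ψ _ (eT_pm ε θ) h2, Gam_neg ψ _ (eT_pm ε θ) h2, IT_neg]; ring

omit [Fintype F] [DecidableEq F] in
lemma scalar_mem_center (z : SL F) (h01 : z.1 0 1 = 0) (h10 : z.1 1 0 = 0) (h : z.1 0 0 = z.1 1 1) :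
    z ∈ Subgroup.center (SL F) := by
  rw [Subgroup.mem_center_iff]
  intro g
  have hs := scalar_conj z h01 h10 h g
  calc g * z = g * (g⁻¹ * z * g) := by rw [hs]
    _ = z * g := by group

omit [Fintype F] [DecidableEq F] in
lemma center_10 (z : SL F) (hz : z ∈ Subgroup.center (SL F)) : z.1 1 0 = 0 := by
  rw [Subgroup.mem_center_iff] at hz
  have := congrArg (fun y : SL F => y.1 0 0) (hz (mkB 1 1))
  simp only [Matrix.SpecialLinearGroup.coe_mul, Matrix.mul_apply, Fin.sum_univ_two, mkB_coe] at this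
  simp at this
  exact this

/-- a cyclic subgroup of order `q + 1` is conjugate to the non-split torus -/
lemma conj_cyclic (ε : F) (hε : ¬ IsSquare ε) (hcard : Fintype.card F % 2 = 1) (h2 : (2 : F) ≠ 0)
    (C : Subgroup (SL F)) (hC : IsCyclic C) (hcardC : Nat.card C = Fintype.card F + 1) :
    ∃ h : SL F, (∀ c ∈ C, h * c * h⁻¹ ∈ Tns ε) ∧ (∀ c' ∈ Tns ε, h⁻¹ * c' * h ∈ C) := by
  classical
  obtain ⟨t, ht⟩ := hC.exists_generator
  have hord : orderOf (t : SL F) = Fintype.card F + 1 := by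
    rw [Subgroup.orderOf_coe, orderOf_eq_card_of_forall_mem_zpowers ht, hcardC]
  have hq : 2 ≤ Fintype.card F := Fintype.one_lt_card
  rcases conj_rep ε hε hcard h2 (t : SL F) with ⟨y, a, x, hy⟩ | ⟨h, hh⟩
  · exfalso
    have h1 : orderOf (mkB a x : SL F) = Fintype.card F + 1 := by
      rw [← hy, ← hord]
      have := MulEquiv.orderOf_eq (MulAut.conj y⁻¹) (t : SL F)
      rw [MulAut.conj_apply, inv_inv] at this
      exact this
    have hmem : (mkB a x : SL F) ∈ Bor F := by rw [mem_bor_iff]; exact mkB_10 a x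
    have h3 : orderOf (mkB a x : SL F) ∣ Nat.card (Bor F) := by
      have := orderOf_dvd_natCard (⟨mkB a x, hmem⟩ : Bor F)
      rwa [← Subgroup.orderOf_coe] at this
    rw [h1, Cfsg.Agent.S2433.card_Bor] at h3
    have hcop : Nat.Coprime (Fintype.card F + 1) (Fintype.card F) := by simp
    have h4 : Fintype.card F + 1 ∣ Fintype.card F - 1 := hcop.dvd_of_dvd_mul_right h3
    have := Nat.le_of_dvd (by omega) h4
    omega
  · have hsub : ∀ c ∈ C, h * c * h⁻¹ ∈ Tns ε := by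
      intro c hc
      obtain ⟨k, hk⟩ := Subgroup.mem_zpowers_iff.mp (ht ⟨c, hc⟩)
      have : c = (t : SL F) ^ k := by
        have := congrArg Subtype.val hk
        simpa using this.symm
      rw [this, ← conj_zpow]
      exact (Tns ε).zpow_mem hh k
    refine ⟨h, hsub, ?_⟩
    let φ : C → Tns ε := fun c => ⟨h * c.1 * h⁻¹, hsub c.1 c.2⟩
    have hinj : Function.Injective φ := by
      intro c₁ c₂ hc
      have := congrArg Subtype.val hc
      apply Subtype.ext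
      exact mul_left_cancel (mul_right_cancel this)
    have hbij : Function.Bijective φ := by
      rw [Nat.bijective_iff_injective_and_card]
      exact ⟨hinj, by rw [hcardC, Cfsg.Agent.S2429.card_Tns ε hε h2]⟩
    intro c' hc'
    obtain ⟨c, hc⟩ := hbij.2 ⟨c', hc'⟩
    have : h * c.1 * h⁻¹ = c' := congrArg Subtype.val hc
    rw [← this]
    have : h⁻¹ * (h * c.1 * h⁻¹) * h = c.1 := by group
    rw [this]; exact c.2

/-- there is a character of the torus which is non-trivial at `-1` -/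
lemma exists_theta_neg (ε : F) (hε : ¬ IsSquare ε) (h2 : (2 : F) ≠ 0) :
    ∃ θ' : Tns ε →* ℂˣ, eT ε θ' = -1 := by
  classical
  let _ : Fintype (Tns ε →* ℂˣ) := Fintype.ofFinite _
  by_contra hcon
  push Not at hcon
  have hne : (⟨-1, negOne_mem ε⟩ : Tns ε) ≠ 1 := by
    intro h
    have h' := congrArg (fun c : Tns ε => c.1.1 0 0) h
    simp at h'
    apply h2; linear_combination -h'
  have hs := sum_theta ε hε h2 (⟨-1, negOne_mem ε⟩ : Tns ε)
  rw [if_neg hne] at hs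
  have : ∀ θ : Tns ε →* ℂˣ, ((θ ⟨-1, negOne_mem ε⟩ : ℂˣ) : ℂ) = 1 := by
    intro θ
    rcases eT_pm ε θ with h | h
    · exact h
    · exact absurd h (hcon θ)
  simp_rw [this] at hs
  rw [Finset.sum_const, Finset.card_univ, nsmul_eq_mul, mul_one] at hs
  have : Fintype.card (Tns ε →* ℂˣ) ≠ 0 := Fintype.card_ne_zero
  exact this (by exact_mod_cast hs)

omit [DecidableEq F] in
/-- for `q = 3` the non-central elements of the torus square to `-1` -/
lemma T_sq_q3 (ε : F) (hε : ¬ IsSquare ε) (hq3 : Fintype.card F = 3) (c : SL F) (hc : c ∈ Tns ε)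
    (h10 : c.1 1 0 ≠ 0) : c * c = -1 := by
  have hε0 : ε ≠ 0 := fun h => hε (h ▸ IsSquare.zero)
  have hb2 : c.1 1 0 ^ 2 = 1 := by
    have := FiniteField.pow_card_sub_one_eq_one (c.1 1 0) h10
    rwa [hq3] at this
  have hε2 : ε ^ 2 = 1 := by
    have := FiniteField.pow_card_sub_one_eq_one ε hε0
    rwa [hq3] at this
  have hε1 : ε = -1 := by
    have : (ε - 1) * (ε + 1) = 0 := by linear_combination hε2
    rcases mul_eq_zero.mp this with h | h
    · exfalso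
      apply hε
      have : ε = 1 := by linear_combination h
      rw [this]; exact IsSquare.one
    · linear_combination h
  obtain ⟨h00, h01⟩ := hc
  have hdet := Cfsg.Agent.S2429.det_eq c
  rw [h01, ← h00, hε1] at hdet
  have ha : c.1 0 0 = 0 := by
    have : c.1 0 0 ^ 2 = 0 := by linear_combination hdet - hb2
    exact pow_eq_zero_iff (two_ne_zero) |>.mp this
  have e00 : (c * c).1 0 0 = -1 := by
    simp only [Matrix.SpecialLinearGroup.coe_mul, Matrix.mul_apply, Fin.sum_univ_two]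
    rw [h01, hε1, ha]; linear_combination -hb2
  have e01 : (c * c).1 0 1 = 0 := by
    simp only [Matrix.SpecialLinearGroup.coe_mul, Matrix.mul_apply, Fin.sum_univ_two]
    rw [← h00, ha]; ring
  have e10 : (c * c).1 1 0 = 0 := by
    simp only [Matrix.SpecialLinearGroup.coe_mul, Matrix.mul_apply, Fin.sum_univ_two]
    rw [← h00, ha]; ring
  have e11 : (c * c).1 1 1 = -1 := by
    simp only [Matrix.SpecialLinearGroup.coe_mul, Matrix.mul_apply, Fin.sum_univ_two]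
    rw [h01, hε1, ← h00, ha]; linear_combination -hb2
  ext i j
  fin_cases i <;> fin_cases j
  · simpa using e00
  · simpa using e01
  · simpa using e10
  · simpa using e11

end Neg

end Cfsg.Agent.Lib.Helper48
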