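import Mathlib
import Cfsg.Agent.Lib.Helper48.SL2k

set_option autoImplicit false

namespace Cfsg.Agent.Lib.Helper48

open Cfsg
open scoped ComplexConjugate
open Cfsg.Agent.S2429 (SL Tns Tw mem_Tns mem_Tw)
open Cfsg.Agent.S2433 (Bor theta mkB mkB_coe mkC mkC_coe slEquiv mem_bor_iff)

section Transport

variable {F : Type*} [Field F] [Fintype F] [DecidableEq F]

/-- conjugation from a subgroup into the torus -/
def toT (ε : F) (C : Subgroup (SL F)) (h : SL F) (hsub : ∀ c ∈ C, h * c * h⁻¹ ∈ Tns ε) :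
    C →* Tns ε :=
  MonoidHom.mk' (fun c => ⟨h * c.1 * h⁻¹, hsub c.1 c.2⟩) (by
    intro a b
    apply Subtype.ext
    show h * (a.1 * b.1) * h⁻¹ = (h * a.1 * h⁻¹) * (h * b.1 * h⁻¹)
    group)

/-- conjugation from the torus into a subgroup -/
def toC (ε : F) (C : Subgroup (SL F)) (h : SL F) (hmem : ∀ c' ∈ Tns ε, h⁻¹ * c' * h ∈ C) :
    Tns ε →* C :=
  MonoidHom.mk' (fun c' => ⟨h⁻¹ * c'.1 * h, hmem c'.1 c'.2⟩) (by
    intro a b
    apply Subtype.ext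
    show h⁻¹ * (a.1 * b.1) * h = (h⁻¹ * a.1 * h) * (h⁻¹ * b.1 * h)
    group)

omit [Fintype F] [DecidableEq F] in
lemma C_noncentral_10 (ε : F) (C : Subgroup (SL F)) (h : SL F)
    (hsub : ∀ c ∈ C, h * c * h⁻¹ ∈ Tns ε) (c : C)
    (hc : (c : SL F) ∉ Subgroup.center (SL F)) : (h * c.1 * h⁻¹).1 1 0 ≠ 0 := by
  have hh := hsub c.1 c.2
  intro h10
  apply hc
  have h01 : (h * c.1 * h⁻¹).1 0 1 = 0 := by rw [hh.2, h10, mul_zero]
  have hcen := scalar_mem_center _ h01 h10 hh.1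
  have hsc := scalar_conj (h * c.1 * h⁻¹) h01 h10 hh.1 h
  have : c.1 = h * c.1 * h⁻¹ := by
    calc c.1 = h⁻¹ * (h * c.1 * h⁻¹) * h := by group
      _ = h * c.1 * h⁻¹ := hsc
  rw [this]; exact hcen

/-- the values of the cuspidal character on the non-central elements of a cyclic subgroup of order
`q + 1` -/
lemma pi_C_noncentral (ψ : AddChar F ℂ) (ε : F) (hε : ¬ IsSquare ε) (h2 : (2 : F) ≠ 0)
    (hcard : Fintype.card F % 2 = 1) (C : Subgroup (SL F)) (h : SL F)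
    (hsub : ∀ c ∈ C, h * c * h⁻¹ ∈ Tns ε) (θ : C →* ℂˣ) (θ' : Tns ε →* ℂˣ)
    (hrel : ∀ c : C, θ c = θ' ⟨h * c.1 * h⁻¹, hsub c.1 c.2⟩) (c : C)
    (hc : (c : SL F) ∉ Subgroup.center (SL F)) :
    piC ψ ε θ' c = -((θ c).val + (θ c)⁻¹.val) := by
  have hh := hsub c.1 c.2
  have h10 := C_noncentral_10 ε C h hsub c hc
  rw [← isClassFunction_piC ψ ε θ' c.1 h, pi_T ψ ε hε h2 hcard θ' _ hh, if_neg h10, hrel c]
  have e : (⟨(h * c.1 * h⁻¹)⁻¹, (Tns ε).inv_mem hh⟩ : Tns ε) = (⟨h * c.1 * h⁻¹, hh⟩ : Tns ε)⁻¹ := rfl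
  rw [e, map_inv]

/-- the central character of the cuspidal character, on a cyclic subgroup of order `q + 1` -/
lemma pi_C_central (ψ : AddChar F ℂ) (ε : F) (h2 : (2 : F) ≠ 0)
    (C : Subgroup (SL F)) (h : SL F)
    (hsub : ∀ c ∈ C, h * c * h⁻¹ ∈ Tns ε) (θ : C →* ℂˣ) (θ' : Tns ε →* ℂˣ)
    (hrel : ∀ c : C, θ c = θ' ⟨h * c.1 * h⁻¹, hsub c.1 c.2⟩) (c : C)
    (hc : (c : SL F) ∈ Subgroup.center (SL F)) (g : SL F) :
    piC ψ ε θ' ((c : SL F) * g) = (θ c).val * piC ψ ε θ' g := by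
  have hh := hsub c.1 c.2
  have hconj : h * c.1 * h⁻¹ = c.1 := by
    have := (Subgroup.mem_center_iff.mp hc) h
    rw [this]; group
  have hcT : c.1 ∈ Tns ε := by
    have := hh
    rwa [hconj] at this
  have h10 := center_10 c.1 hc
  have hθ : θ c = θ' ⟨c.1, hcT⟩ := by
    rw [hrel c]
    congr 1
    exact Subtype.ext hconj
  rcases Cfsg.Agent.S2429.eq_pm_one ε c.1 hcT h10 with h1 | h1
  · have e1 : c.1 = 1 := Subtype.ext h1
    have e2 : (⟨c.1, hcT⟩ : Tns ε) = 1 := Subtype.ext e1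
    rw [hθ, e2, map_one, Units.val_one, one_mul, e1, one_mul]
  · have e1 : c.1 = -1 := by
      apply Subtype.ext
      rw [h1]; simp
    have e2 : (⟨c.1, hcT⟩ : Tns ε) = ⟨-1, negOne_mem ε⟩ := Subtype.ext e1
    rw [hθ, e2, e1, pi_neg ψ ε h2]
    rfl

end Transport

end Cfsg.Agent.Lib.Helper48
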