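import Mathlib
import Cfsg.Agent.Lib.Helper48.SL2l
import Cfsg.Agent.Lib.Helper81.IrrEquiv
import Cfsg.Agent.Lib.Helper83.LinearCount
import Cfsg.Agent.Lib.Helper83.Codeg
import Cfsg.Agent.S0133
import Cfsg.Agent.S0169
import Cfsg.Agent.S0178
import Cfsg.Agent.S0261
import Cfsg.Agent.S2325
import Cfsg.Agent.S2428
import Cfsg.Agent.S2431
import Cfsg.Agent.S2437

/-!
# McKay counts for `SL₂(q)`: foundation (helper48)

`mk H ℓ` is the number of irreducible characters of `H` of degree prime to `ℓ`.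
-/

set_option autoImplicit false

namespace Cfsg.Agent.Lib.Helper48.Mc

open Cfsg

universe u v

/-- the number of irreducible complex characters of degree not divisible by `ℓ` -/
noncomputable def mk (H : Type u) [Group H] (ℓ : ℕ) : ℕ :=
  Nat.card {χ : IrrCharacter H // ¬ ℓ ∣ charDegree (χ : H → ℂ)}

/-- the value of `mk (SL₂(q)) ℓ` read off from the character degrees -/
def gform (q ℓ : ℕ) : ℕ :=
  (if ℓ ∣ 1 then 0 else 1) + (if ℓ ∣ q then 0 else 1) + (if ℓ ∣ q + 1 then 0 else (q - 3) / 2) +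
    (if ℓ ∣ (q + 1) / 2 then 0 else 2) + (if ℓ ∣ q - 1 then 0 else (q - 1) / 2) +
    (if ℓ ∣ (q - 1) / 2 then 0 else 2)

theorem mk_congr {H : Type u} {K : Type v} [Group H] [Group K] (e : H ≃* K) (ℓ : ℕ) :
    mk H ℓ = mk K ℓ := by
  unfold mk
  apply Nat.card_congr
  refine ⟨fun χ => ⟨Helper81.irrMap e χ.1, ?_⟩, fun χ => ⟨Helper81.irrMap e.symm χ.1, ?_⟩, ?_, ?_⟩
  · have h : charDegree (Helper81.irrMap e χ.1 : K → ℂ) = charDegree (χ.1 : H → ℂ) := by
      unfold charDegree; rw [Helper81.irrMap_one]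
    rw [h]; exact χ.2
  · have h : charDegree (Helper81.irrMap e.symm χ.1 : H → ℂ) = charDegree (χ.1 : K → ℂ) := by
      unfold charDegree; rw [Helper81.irrMap_one]
    rw [h]; exact χ.2
  · intro χ; apply Subtype.ext; exact Helper81.irrMap_symm_irrMap e χ.1
  · intro χ; apply Subtype.ext; exact Helper81.irrMap_irrMap_symm e χ.1

theorem mk_eq_card_of_forall {H : Type u} [Group H] [Finite H] (ℓ : ℕ)
    (h : ∀ χ : IrrCharacter H, ¬ ℓ ∣ charDegree (χ : H → ℂ)) :
    mk H ℓ = Nat.card (ConjClasses H) := by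
  unfold mk
  rw [← Cfsg.Agent.S0133.result]
  exact Nat.card_congr (Equiv.subtypeUnivEquiv h)

theorem charDegree_eq_finrank {H : Type u} [Group H] [Finite H] (n : ℕ)
    (ρ : Representation ℂ H (Fin n → ℂ)) : charDegree ρ.character = n := by
  unfold charDegree
  rw [Representation.char_one]
  simp

theorem charDegree_dvd_index {H : Type u} [Group H] [Finite H] (A : Subgroup H) [A.Normal]
    (hA : ∀ a ∈ A, ∀ b ∈ A, a * b = b * a) (χ : IrrCharacter H) :
    charDegree (χ : H → ℂ) ∣ A.index := by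
  obtain ⟨n, ρ, hρ, hχ⟩ := χ.2
  have := hρ
  have h := Cfsg.Agent.S0169.result ρ A hA
  rw [← hχ, charDegree_eq_finrank]
  simpa using h

theorem charDegree_le_index {H : Type u} [Group H] [Finite H] (A : Subgroup H)
    (hA : ∀ a ∈ A, ∀ b ∈ A, a * b = b * a) (χ : IrrCharacter H) :
    charDegree (χ : H → ℂ) ≤ A.index := by
  obtain ⟨n, ρ, hρ, hχ⟩ := χ.2
  have := hρ
  have h := Cfsg.Agent.S0178.result ρ A hA
  rw [← hχ, charDegree_eq_finrank]
  simpa using h

theorem charDegree_pos {H : Type u} [Group H] [Finite H] (χ : IrrCharacter H) :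
    0 < charDegree (χ : H → ℂ) := (Helper83.irr_degree χ.2).1

end Cfsg.Agent.Lib.Helper48.Mc
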