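import Mathlib
import Cfsg.Agent.Lib.Helper48.McA

/-!
# S2436 pieces NCONJ, NTRIV, PGRP, TORMK (helper48)
-/

set_option autoImplicit false

namespace Cfsg.Agent.Lib.Helper48.Mc

open Cfsg Cfsg.Agent.Lib.Helper48

universe u v

/-- conjugation by `g` carries the normalizer of `H` onto the normalizer of `g H g⁻¹` -/
def normalizerConjEquiv {G : Type u} [Group G] (H K : Subgroup G) (g : G)
    (hK : ∀ x, x ∈ K ↔ g⁻¹ * x * g ∈ H) :
    ↥(Subgroup.normalizer (H : Set G)) ≃* ↥(Subgroup.normalizer (K : Set G)) where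
  toFun x := ⟨g * x.1 * g⁻¹, by
    have hx := x.2
    rw [Subgroup.mem_normalizer_iff] at hx ⊢
    intro y
    rw [hK y, hK, hx (g⁻¹ * y * g)]
    have e : g⁻¹ * (g * x.1 * g⁻¹ * y * (g * x.1 * g⁻¹)⁻¹) * g = x.1 * (g⁻¹ * y * g) * x.1⁻¹ := by
      group
    rw [e]⟩
  invFun x := ⟨g⁻¹ * x.1 * g, by
    have hx := x.2
    rw [Subgroup.mem_normalizer_iff] at hx ⊢
    intro y
    have h1 : y ∈ H ↔ g * y * g⁻¹ ∈ K := by
      rw [hK]
      have e : g⁻¹ * (g * y * g⁻¹) * g = y := by group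
      rw [e]
    rw [h1, hx (g * y * g⁻¹), hK]
    have e : g⁻¹ * (x.1 * (g * y * g⁻¹) * x.1⁻¹) * g = g⁻¹ * x.1 * g * y * (g⁻¹ * x.1 * g)⁻¹ := by
      group
    rw [e]⟩
  left_inv x := by
    apply Subtype.ext
    show g⁻¹ * (g * x.1 * g⁻¹) * g = x.1
    group
  right_inv x := by
    apply Subtype.ext
    show g * (g⁻¹ * x.1 * g) * g⁻¹ = x.1
    group
  map_mul' x y := by
    apply Subtype.ext
    show g * (x.1 * y.1) * g⁻¹ = g * x.1 * g⁻¹ * (g * y.1 * g⁻¹)
    group

/-- piece NCONJ -/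
theorem normalizer_sylow_equiv {G : Type u} [Group G] [Finite G] (ℓ : ℕ) [Fact ℓ.Prime]
    (S S' : Sylow ℓ G) :
    Nonempty (↥(Subgroup.normalizer ((S : Subgroup G) : Set G)) ≃*
      ↥(Subgroup.normalizer ((S' : Subgroup G) : Set G))) := by
  obtain ⟨g, hg⟩ := MulAction.exists_smul_eq G S S'
  refine ⟨normalizerConjEquiv (S : Subgroup G) (S' : Subgroup G) g ?_⟩
  intro x
  rw [← hg, Sylow.coe_subgroup_smul, Subgroup.mem_pointwise_smul_iff_inv_smul_mem]
  have e : (MulAut.conj g)⁻¹ • x = g⁻¹ * x * g := by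
    rw [← map_inv]
    show MulAut.conj g⁻¹ x = _
    simp
  rw [e]

/-- piece NTRIV -/
theorem normalizer_equiv_of_not_dvd {G : Type u} [Group G] [Finite G] (ℓ : ℕ) [Fact ℓ.Prime]
    (S : Sylow ℓ G) (h : ¬ ℓ ∣ Nat.card G) :
    Nonempty (↥(Subgroup.normalizer ((S : Subgroup G) : Set G)) ≃* G) := by
  have hS : (S : Subgroup G) = ⊥ := by
    rw [← Subgroup.card_eq_one]
    obtain ⟨k, hk⟩ := IsPGroup.iff_card.mp S.isPGroup'
    rw [hk]
    rcases Nat.eq_zero_or_pos k with h0 | h0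
    · rw [h0, pow_zero]
    · exfalso
      apply h
      have h1 : ℓ ∣ Nat.card (S : Subgroup G) := by
        rw [hk]; exact dvd_pow_self ℓ (by omega)
      exact h1.trans (Subgroup.card_subgroup_dvd_card _)
  have hN : Subgroup.normalizer ((S : Subgroup G) : Set G) = ⊤ := by
    rw [hS]
    ext g
    simp only [Subgroup.mem_top, iff_true]
    rw [Subgroup.mem_normalizer_iff]
    intro x
    simp only [Subgroup.mem_bot]
    constructor
    · rintro rfl; group
    · intro hx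
      have : x = g⁻¹ * (g * x * g⁻¹) * g := by group
      rw [this, hx]; group
  exact ⟨(MulEquiv.subgroupCongr hN).trans Subgroup.topEquiv⟩

/-- piece PGRP -/
theorem mk_pgroup {H : Type u} [Group H] [Finite H] (p : ℕ) [Fact p.Prime] (hH : IsPGroup p H) :
    mk H p = (commutator H).index := by
  have hp := (Fact.out : p.Prime)
  rw [← Helper83.card_linear']
  unfold mk
  apply Nat.card_congr
  apply Equiv.subtypeEquivRight
  intro χ
  obtain ⟨k, hk⟩ := IsPGroup.iff_card.mp hH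
  have hd : charDegree (χ : H → ℂ) ∣ p ^ k := hk ▸ Helper83.irr_degree_dvd_card χ
  obtain ⟨j, -, hj⟩ := (Nat.dvd_prime_pow hp).mp hd
  constructor
  · intro hnd
    rcases Nat.eq_zero_or_pos j with h0 | h0
    · rw [hj, h0, pow_zero]
    · exfalso; apply hnd; rw [hj]; exact dvd_pow_self p (by omega)
  · intro h1 hdvd
    rw [h1] at hdvd
    exact hp.one_lt.ne' (Nat.dvd_one.mp hdvd)

/-- piece TORMK -/
theorem mk_normalizer_torus {G : Type u} [Group G] [Finite G] (ℓ : ℕ) [Fact ℓ.Prime] (hℓ : ℓ ≠ 2)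
    (T : Subgroup G) (hTab : ∀ a ∈ T, ∀ b ∈ T, a * b = b * a)
    (hN : Nat.card (Subgroup.normalizer (T : Set G)) = 2 * Nat.card T) :
    mk ↥(Subgroup.normalizer (T : Set G)) ℓ =
      Nat.card (ConjClasses ↥(Subgroup.normalizer (T : Set G))) := by
  have hp := (Fact.out : ℓ.Prime)
  apply mk_eq_card_of_forall
  set N := Subgroup.normalizer (T : Set G) with hNdef
  intro χ
  have hTN : T ≤ N := Subgroup.le_normalizer
  have hA : ∀ a ∈ T.subgroupOf N, ∀ b ∈ T.subgroupOf N, a * b = b * a := by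
    intro a ha b hb
    apply Subtype.ext
    exact hTab a.1 (Subgroup.mem_subgroupOf.mp ha) b.1 (Subgroup.mem_subgroupOf.mp hb)
  have hidx : (T.subgroupOf N).index = 2 := by
    have h1 := (T.subgroupOf N).card_mul_index
    have h2 : Nat.card (T.subgroupOf N) = Nat.card T :=
      Nat.card_congr (Subgroup.subgroupOfEquivOfLe hTN).toEquiv
    rw [h2, hN] at h1
    have hT : 0 < Nat.card T := Nat.card_pos
    have : Nat.card T * (T.subgroupOf N).index = Nat.card T * 2 := by rw [h1]; ring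
    exact Nat.eq_of_mul_eq_mul_left hT this
  have hle := charDegree_le_index (T.subgroupOf N) hA χ
  rw [hidx] at hle
  have hpos := charDegree_pos χ
  intro hdvd
  have h3 : ℓ ≤ charDegree (χ : N → ℂ) := Nat.le_of_dvd hpos hdvd
  have h2 := hp.two_le
  omega

end Cfsg.Agent.Lib.Helper48.Mc
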