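import Mathlib
import Cfsg.Agent.Lib.Helper48.McA

/-!
# S2436 pieces BORSYL, BORMK (helper48)
-/

set_option autoImplicit false

namespace Cfsg.Agent.Lib.Helper48.Mc

open Cfsg Cfsg.Agent.Lib.Helper48
open Cfsg.Agent.S2429 (SL Tns)
open Cfsg.Agent.S2433 (Bor mkB mkB_coe)

section Unip

variable {F : Type*} [Field F]

/-- the upper unitriangular subgroup of `SL₂` -/
def unip (F : Type*) [Field F] : Subgroup (SL F) where
  carrier := {g | g.1 1 0 = 0 ∧ g.1 0 0 = 1 ∧ g.1 1 1 = 1}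
  mul_mem' := by
    rintro g h ⟨hg1, hg2, hg3⟩ ⟨hh1, hh2, hh3⟩
    simp only [Set.mem_ofPred_eq, Matrix.SpecialLinearGroup.coe_mul, Matrix.mul_apply,
      Fin.sum_univ_two]
    refine ⟨?_, ?_, ?_⟩
    · rw [hg1, hh1]; ring
    · rw [hg2, hh2, hh1]; ring
    · rw [hg1, hg3, hh3]; ring
  one_mem' := by simp
  inv_mem' := by
    rintro g ⟨hg1, hg2, hg3⟩
    simp only [Set.mem_ofPred_eq, Matrix.SpecialLinearGroup.coe_inv, Matrix.adjugate_fin_two,
      Matrix.of_apply, Matrix.cons_val', Matrix.cons_val_zero, Matrix.cons_val_one,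
      Matrix.empty_val', Matrix.cons_val_fin_one]
    refine ⟨?_, hg3, hg2⟩
    rw [hg1]; simp

lemma mem_unip (g : SL F) : g ∈ unip F ↔ g.1 1 0 = 0 ∧ g.1 0 0 = 1 ∧ g.1 1 1 = 1 := Iff.rfl

lemma unip_mkB (x : F) : (mkB 1 x : SL F) ∈ unip F := by
  rw [mem_unip, mkB_coe]; simp

lemma unip_eq_mkB (g : SL F) (hg : g ∈ unip F) : g = mkB 1 (g.1 0 1) := by
  obtain ⟨h1, h2, h3⟩ := hg
  apply Subtype.ext
  rw [mkB_coe]
  ext i j
  fin_cases i <;> fin_cases j <;> simp [h1, h2, h3]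

lemma unip_comm (a b : SL F) (ha : a ∈ unip F) (hb : b ∈ unip F) : a * b = b * a := by
  obtain ⟨h1, h2, h3⟩ := ha
  obtain ⟨k1, k2, k3⟩ := hb
  ext i j
  fin_cases i <;> fin_cases j <;>
    simp only [Matrix.SpecialLinearGroup.coe_mul, Matrix.mul_apply, Fin.sum_univ_two, Fin.zero_eta,
      Fin.mk_one, Fin.isValue] <;>
    simp only [h1, h2, h3, k1, k2, k3] <;> ring

lemma conj_entries (g h : SL F) :
    (g * h * g⁻¹).1 1 0 = (g.1 1 0 * h.1 0 0 + g.1 1 1 * h.1 1 0) * g.1 1 1 -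
      (g.1 1 0 * h.1 0 1 + g.1 1 1 * h.1 1 1) * g.1 1 0 ∧
    (g * h * g⁻¹).1 0 0 = (g.1 0 0 * h.1 0 0 + g.1 0 1 * h.1 1 0) * g.1 1 1 -
      (g.1 0 0 * h.1 0 1 + g.1 0 1 * h.1 1 1) * g.1 1 0 ∧
    (g * h * g⁻¹).1 1 1 = -(g.1 1 0 * h.1 0 0 + g.1 1 1 * h.1 1 0) * g.1 0 1 +
      (g.1 1 0 * h.1 0 1 + g.1 1 1 * h.1 1 1) * g.1 0 0 := by
  refine ⟨?_, ?_, ?_⟩ <;>
  · simp only [Matrix.SpecialLinearGroup.coe_mul, Matrix.SpecialLinearGroup.coe_inv,
      Matrix.adjugate_fin_two, Matrix.mul_apply, Fin.sum_univ_two]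
    simp only [Matrix.of_apply, Matrix.cons_val', Matrix.cons_val_zero, Matrix.cons_val_one,
      Matrix.empty_val', Matrix.cons_val_fin_one]
    ring

lemma bor_conj_unip (g : SL F) (hg : g.1 1 0 = 0) (h : SL F) (hh : h ∈ unip F) :
    g * h * g⁻¹ ∈ unip F := by
  obtain ⟨h1, h2, h3⟩ := hh
  have hdet := Cfsg.Agent.S2429.det_eq g
  rw [hg, mul_zero, sub_zero] at hdet
  obtain ⟨e1, e2, e3⟩ := conj_entries g h
  refine ⟨?_, ?_, ?_⟩
  · rw [e1, hg, h1]; ring
  · rw [e2, hg, h1, h2]; linear_combination hdet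
  · rw [e3, hg, h1, h3]; linear_combination hdet

lemma normalizer_unip : Subgroup.normalizer ((unip F : Subgroup (SL F)) : Set (SL F)) = Bor F := by
  ext g
  rw [Cfsg.Agent.S2433.mem_bor_iff, Subgroup.mem_normalizer_iff]
  constructor
  · intro hg
    have h1 := (hg (mkB 1 1)).mp (unip_mkB 1)
    have h10 := h1.1
    rw [(conj_entries g (mkB 1 1)).1, mkB_coe] at h10
    simp only [Matrix.of_apply, Matrix.cons_val', Matrix.cons_val_zero, Matrix.cons_val_one,
      Matrix.empty_val', Matrix.cons_val_fin_one, Units.val_one, inv_one] at h10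
    have : g.1 1 0 ^ 2 = 0 := by linear_combination -h10
    exact pow_eq_zero_iff (two_ne_zero) |>.mp this
  · intro hg h
    constructor
    · exact bor_conj_unip g hg h
    · intro hh
      have hg' : (g⁻¹).1 1 0 = 0 := by
        simp only [Matrix.SpecialLinearGroup.coe_inv, Matrix.adjugate_fin_two, Matrix.of_apply,
          Matrix.cons_val', Matrix.cons_val_zero, Matrix.cons_val_one, Matrix.empty_val',
          Matrix.cons_val_fin_one]
        rw [hg]; simp
      have := bor_conj_unip g⁻¹ hg' _ hh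
      have e : g⁻¹ * (g * h * g⁻¹) * g⁻¹⁻¹ = h := by group
      rwa [e] at this

lemma card_unip [Fintype F] : Nat.card (unip F) = Fintype.card F := by
  have hbij : Function.Bijective (fun x : F => (⟨mkB 1 x, unip_mkB x⟩ : unip F)) := by
    constructor
    · intro x y h
      have h' := congrArg (fun t : unip F => t.1.1 0 1) h
      simpa [mkB_coe] using h'
    · rintro ⟨g, hg⟩
      exact ⟨g.1 0 1, Subtype.ext (unip_eq_mkB g hg).symm⟩
  rw [← Nat.card_eq_of_bijective _ hbij, Nat.card_eq_fintype_card]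

end Unip

section Subgroups

variable {F : Type*} [Field F] [Fintype F]

lemma char_not_dvd (ℓ : ℕ) (hℓ : ℓ.Prime) (h : ℓ ∣ Fintype.card F) :
    ¬ ℓ ∣ (Fintype.card F - 1) * (Fintype.card F + 1) := by
  have hq : 2 ≤ Fintype.card F := Fintype.one_lt_card
  intro hd
  rcases (Nat.Prime.dvd_mul hℓ).mp hd with h1 | h1
  · have : ℓ ∣ Fintype.card F - (Fintype.card F - 1) := Nat.dvd_sub h h1
    have e : Fintype.card F - (Fintype.card F - 1) = 1 := by omega
    rw [e] at this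
    exact hℓ.one_lt.ne' (Nat.dvd_one.mp this)
  · exact hℓ.one_lt.ne' (Nat.dvd_one.mp ((Nat.dvd_add_right h).mp h1))

lemma unip_isPGroup (ℓ : ℕ) [Fact ℓ.Prime] (hℓ : ℓ ∣ Fintype.card F) : IsPGroup ℓ (unip F) := by
  have hp := (Fact.out : ℓ.Prime)
  obtain ⟨p, hchar⟩ := CharP.exists F
  obtain ⟨n, hpp, hn⟩ := FiniteField.card F p
  have e : ℓ = p := by
    rw [hn] at hℓ
    exact (Nat.prime_dvd_prime_iff_eq hp hpp).mp (hp.dvd_of_dvd_pow hℓ)
  apply IsPGroup.of_card (n := n)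
  rw [card_unip, hn, e]

/-- piece BORSYL -/
theorem exists_sylow_normalizer_eq_bor (ℓ : ℕ) [Fact ℓ.Prime] (hℓ : ℓ ∣ Fintype.card F) :
    ∃ P : Sylow ℓ (SL F), Subgroup.normalizer ((P : Subgroup (SL F)) : Set (SL F)) = Bor F := by
  classical
  have hp := (Fact.out : ℓ.Prime)
  have hq : 2 ≤ Fintype.card F := Fintype.one_lt_card
  have hidx : ¬ ℓ ∣ (unip F).index := by
    have e := (unip F).card_mul_index
    rw [card_unip, Nat.card_eq_fintype_card, Cfsg.Agent.S2433.card_SL] at e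
    have e' : (unip F).index = (Fintype.card F - 1) * (Fintype.card F + 1) := by
      apply Nat.eq_of_mul_eq_mul_left (show 0 < Fintype.card F by omega)
      rw [e]; ring
    rw [e']
    exact char_not_dvd ℓ hp hℓ
  refine ⟨(unip_isPGroup ℓ hℓ).toSylow hidx, ?_⟩
  rw [IsPGroup.toSylow_coe]
  exact normalizer_unip

/-- piece BORMK -/
theorem mk_bor (hodd : Odd (Fintype.card F)) (ℓ : ℕ) [Fact ℓ.Prime] (hℓ : ℓ ∣ Fintype.card F) :
    mk ↥(Bor F) ℓ = Fintype.card F + 3 := by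
  classical
  have hp := (Fact.out : ℓ.Prime)
  have hq : 2 ≤ Fintype.card F := Fintype.one_lt_card
  rw [← Cfsg.Agent.S2437.result hodd]
  apply mk_eq_card_of_forall
  intro χ
  have hle : unip F ≤ Bor F := by
    intro g hg
    rw [Cfsg.Agent.S2433.mem_bor_iff]
    exact hg.1
  have hnorm : ((unip F).subgroupOf (Bor F)).Normal := by
    rw [Subgroup.normal_subgroupOf_iff_le_normalizer hle, normalizer_unip]
  have hA : ∀ a ∈ (unip F).subgroupOf (Bor F), ∀ b ∈ (unip F).subgroupOf (Bor F), a * b = b * a := by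
    intro a ha b hb
    apply Subtype.ext
    exact unip_comm a.1 b.1 (Subgroup.mem_subgroupOf.mp ha) (Subgroup.mem_subgroupOf.mp hb)
  have hidx : ((unip F).subgroupOf (Bor F)).index = Fintype.card F - 1 := by
    have h1 := ((unip F).subgroupOf (Bor F)).card_mul_index
    have h2 : Nat.card ((unip F).subgroupOf (Bor F)) = Nat.card (unip F) :=
      Nat.card_congr (Subgroup.subgroupOfEquivOfLe hle).toEquiv
    rw [h2, card_unip, Cfsg.Agent.S2433.card_Bor] at h1
    apply Nat.eq_of_mul_eq_mul_left (show 0 < Fintype.card F by omega)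
    rw [h1]; ring
  have hd := charDegree_dvd_index ((unip F).subgroupOf (Bor F)) hA χ
  rw [hidx] at hd
  intro hdvd
  have h1 : ℓ ∣ Fintype.card F - 1 := hdvd.trans hd
  have : ℓ ∣ Fintype.card F - (Fintype.card F - 1) := Nat.dvd_sub hℓ h1
  have e : Fintype.card F - (Fintype.card F - 1) = 1 := by omega
  rw [e] at this
  exact hp.one_lt.ne' (Nat.dvd_one.mp this)

end Subgroups

end Cfsg.Agent.Lib.Helper48.Mc
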