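import Mathlib
import Cfsg.Agent.Lib.Helper48.McA

/-!
# S2436 pieces C4, C6, C3B, C5B (helper48)
-/

set_option autoImplicit false

namespace Cfsg.Agent.Lib.Helper48.Mc

open Cfsg Cfsg.Agent.Lib.Helper48
open Cfsg.Agent.S2429 (SL Tns)
open Cfsg.Agent.S2433 (Bor)

section Chars

variable {F : Type*} [Field F] [Fintype F] [DecidableEq F]

/-- a set of irreducible characters all of which are one of two given ones has at most two
elements -/
theorem ncard_le_two_of_pair {X : Type*} (A : Set X) (a b : X) (h : ∀ x ∈ A, x = a ∨ x = b) :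
    A.ncard ≤ 2 := by
  classical
  have hsub : A ⊆ ({a, b} : Set X) := by
    intro x hx
    rcases h x hx with h | h
    · left; exact h
    · right; exact h
  calc A.ncard ≤ ({a, b} : Set X).ncard := Set.ncard_le_ncard hsub (Set.toFinite _)
    _ ≤ 2 := by
      have := Set.ncard_insert_le a ({b} : Set X)
      rw [Set.ncard_singleton] at this
      exact this

/-- piece C4 -/
theorem ncard_C4 (hodd : Odd (Fintype.card F)) :
    {χ : IrrCharacter (SL F) | ∃ α : MulChar F ℂ, α ≠ 1 ∧ α = α⁻¹ ∧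
      classInner (PS α) (χ : SL F → ℂ) ≠ 0}.ncard ≤ 2 := by
  classical
  by_cases hne : ∃ χ₀ : IrrCharacter (SL F), ∃ α : MulChar F ℂ, α ≠ 1 ∧ α = α⁻¹ ∧
      classInner (PS α) (χ₀ : SL F → ℂ) ≠ 0
  · obtain ⟨χ₀, α₀, h1, hinv, h0⟩ := hne
    have hc := xi_compl hodd α₀ hinv χ₀.1 χ₀.2 h0
    apply ncard_le_two_of_pair _ χ₀ ⟨PS α₀ - χ₀.1, hc⟩
    rintro χ ⟨α, hα1, hαi, hα⟩
    have e : α = α₀ := alpha_unique α α₀ hα1 hαi h1 hinv
    rw [e] at hα
    have hsplit : PS α₀ = (χ₀ : SL F → ℂ) + (PS α₀ - (χ₀ : SL F → ℂ)) := by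
      funext g; simp
    rw [hsplit, Helper46.classInner_add_left] at hα
    by_cases hx : classInner (χ₀ : SL F → ℂ) (χ : SL F → ℂ) = 0
    · right
      rw [hx, zero_add] at hα
      exact Subtype.ext (Helper46.eq_of_classInner_ne_zero _ _ hc χ.2 hα)
    · left
      exact Subtype.ext (Helper46.eq_of_classInner_ne_zero _ _ χ₀.2 χ.2 hx)
  · have : {χ : IrrCharacter (SL F) | ∃ α : MulChar F ℂ, α ≠ 1 ∧ α = α⁻¹ ∧
        classInner (PS α) (χ : SL F → ℂ) ≠ 0} = ∅ := by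
      ext χ
      simp only [Set.mem_ofPred_eq, Set.mem_empty_iff_false, iff_false]
      exact fun h => hne ⟨χ, h⟩
    rw [this]; simp

/-- piece C6 -/
theorem ncard_C6 (ψ : AddChar F ℂ) (hψ : ψ.IsPrimitive) (ε : F) (hε : ¬ IsSquare ε)
    (h2 : (2 : F) ≠ 0) (hcard : Fintype.card F % 2 = 1) (hodd : Odd (Fintype.card F)) :
    {χ : IrrCharacter (SL F) | ∃ θ : Tns ε →* ℂˣ, θ ≠ 1 ∧ θ = θ⁻¹ ∧
      classInner (piC ψ ε θ) (χ : SL F → ℂ) ≠ 0}.ncard ≤ 2 := by
  classical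
  let _ : Fintype (Tns ε →* ℂˣ) := Fintype.ofFinite _
  let _ : Fintype (MulChar F ℂ) := Fintype.ofFinite _
  by_cases hne : ∃ χ₀ : IrrCharacter (SL F), ∃ θ : Tns ε →* ℂˣ, θ ≠ 1 ∧ θ = θ⁻¹ ∧
      classInner (piC ψ ε θ) (χ₀ : SL F → ℂ) ≠ 0
  · obtain ⟨χ₀, θ₀, h1, hinv, h0⟩ := hne
    obtain ⟨χ', hc, -, hsplit⟩ := eta_compl ψ hψ ε hε h2 hcard hodd θ₀ h1 hinv χ₀.1 χ₀.2 h0
    apply ncard_le_two_of_pair _ χ₀ ⟨χ', hc⟩
    rintro χ ⟨θ, hθ1, hθi, hθ⟩
    have e : θ = θ₀ := theta_unique ε hε θ θ₀ hθ1 hθi h1 hinv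
    rw [e, hsplit, Helper46.classInner_add_left] at hθ
    by_cases hx : classInner (χ₀ : SL F → ℂ) (χ : SL F → ℂ) = 0
    · right
      rw [hx, zero_add] at hθ
      exact Subtype.ext (Helper46.eq_of_classInner_ne_zero _ _ hc χ.2 hθ)
    · left
      exact Subtype.ext (Helper46.eq_of_classInner_ne_zero _ _ χ₀.2 χ.2 hx)
  · have : {χ : IrrCharacter (SL F) | ∃ θ : Tns ε →* ℂˣ, θ ≠ 1 ∧ θ = θ⁻¹ ∧
        classInner (piC ψ ε θ) (χ : SL F → ℂ) ≠ 0} = ∅ := by
      ext χ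
      simp only [Set.mem_ofPred_eq, Set.mem_empty_iff_false, iff_false]
      exact fun h => hne ⟨χ, h⟩
    rw [this]; simp

/-- in a finite commutative group of even order at most `card - 2` elements are not
self-inverse -/
theorem card_not_selfinv_le {A : Type*} [CommGroup A] [Finite A] (heven : Even (Nat.card A)) :
    Nat.card {a : A // a ≠ a⁻¹} ≤ Nat.card A - 2 := by
  classical
  have := Fintype.ofFinite A
  obtain ⟨a₀, ha₀⟩ := exists_prime_orderOf_dvd_card' (G := A) 2 (even_iff_two_dvd.mp heven)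
  have ha1 : a₀ ≠ 1 := by
    intro h; rw [h, orderOf_one] at ha₀; omega
  have ha2 : a₀ = a₀⁻¹ := by
    have : a₀ ^ 2 = 1 := by rw [← ha₀]; exact pow_orderOf_eq_one a₀
    rw [eq_inv_iff_mul_eq_one, ← sq]; exact this
  rw [Nat.card_eq_fintype_card, Nat.card_eq_fintype_card, Fintype.card_subtype]
  have hsub : (Finset.univ.filter (fun a : A => a ≠ a⁻¹)) ⊆ (Finset.univ.erase (1 : A)).erase a₀ := by
    intro a ha
    rw [Finset.mem_filter] at ha
    rw [Finset.mem_erase, Finset.mem_erase]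
    refine ⟨?_, ?_, Finset.mem_univ _⟩
    · rintro rfl; exact ha.2 ha2
    · rintro rfl; exact ha.2 (by simp)
  have h1 := Finset.card_le_card hsub
  rw [Finset.card_erase_of_mem (by rw [Finset.mem_erase]; exact ⟨ha1, Finset.mem_univ _⟩),
    Finset.card_erase_of_mem (Finset.mem_univ _), Finset.card_univ] at h1
  omega

/-- piece C3B -/
theorem card_mulChar_not_selfinv (hodd : Odd (Fintype.card F)) :
    Nat.card {α : MulChar F ℂ // α ≠ α⁻¹} ≤ Fintype.card F - 3 := by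
  classical
  have hq2 : 2 ≤ Fintype.card F := Fintype.one_lt_card
  have hc : Nat.card (MulChar F ℂ) = Fintype.card F - 1 := by
    rw [MulChar.card_eq_card_units_of_hasEnoughRootsOfUnity, Nat.card_eq_fintype_card,
      Fintype.card_units]
  have heven : Even (Nat.card (MulChar F ℂ)) := by
    rw [hc]
    obtain ⟨k, hk⟩ := hodd
    exact ⟨k, by omega⟩
  have := card_not_selfinv_le (A := MulChar F ℂ) heven
  rw [hc] at this
  omega

/-- piece C5B -/
theorem card_thetaChar_not_selfinv (ε : F) (hε : ¬ IsSquare ε) (h2 : (2 : F) ≠ 0)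
    (hodd : Odd (Fintype.card F)) :
    Nat.card {θ : Tns ε →* ℂˣ // θ ≠ θ⁻¹} ≤ Fintype.card F - 1 := by
  classical
  let _ : Fintype (Tns ε →* ℂˣ) := Fintype.ofFinite _
  have hc : Nat.card (Tns ε →* ℂˣ) = Fintype.card F + 1 := by
    have h := sum_theta ε hε h2 (1 : Tns ε)
    rw [if_pos rfl] at h
    simp only [map_one, Units.val_one, Finset.sum_const, Finset.card_univ, nsmul_eq_mul,
      mul_one] at h
    rw [Nat.card_eq_fintype_card]
    exact_mod_cast h
  have heven : Even (Nat.card (Tns ε →* ℂˣ)) := by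
    rw [hc]
    obtain ⟨k, hk⟩ := hodd
    exact ⟨k + 1, by omega⟩
  have := card_not_selfinv_le (A := Tns ε →* ℂˣ) heven
  rw [hc] at this
  omega

end Chars

end Cfsg.Agent.Lib.Helper48.Mc
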