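import Mathlib
import Cfsg.Agent.Lib.Helper48.McA

/-!
# S2436 pieces DEG, PSINV, PIINV (helper48)
-/

set_option autoImplicit false

namespace Cfsg.Agent.Lib.Helper48.Mc

open Cfsg Cfsg.Agent.Lib.Helper48
open Cfsg.Agent.S2429 (SL Tns)
open Cfsg.Agent.S2433 (Bor)

section Chars

variable {F : Type*} [Field F] [Fintype F] [DecidableEq F]

theorem charDegree_of_eq_nat {G : Type*} [Group G] (χ : G → ℂ) (d : ℕ) (h : χ 1 = (d : ℂ)) :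
    charDegree χ = d := by
  unfold charDegree
  rw [h]
  simp

/-- piece DEG -/
theorem deg_cases (ψ : AddChar F ℂ) (hψ : ψ.IsPrimitive) (ε : F) (hε : ¬ IsSquare ε)
    (h2 : (2 : F) ≠ 0) (hcard : Fintype.card F % 2 = 1) (hodd : Odd (Fintype.card F))
    [Fintype (Tns ε →* ℂˣ)] [Fintype (MulChar F ℂ)] (χ : SL F → ℂ)
    (hχ : IsIrrCharacter (SL F) χ) :
    (χ = (fun _ => (1 : ℂ)) → charDegree χ = 1) ∧
    (χ = (PS (1 : MulChar F ℂ) - fun _ => (1 : ℂ)) → charDegree χ = Fintype.card F) ∧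
    ((∃ α : MulChar F ℂ, α ≠ α⁻¹ ∧ χ = PS α) → charDegree χ = Fintype.card F + 1) ∧
    ((∃ α : MulChar F ℂ, α ≠ 1 ∧ α = α⁻¹ ∧ classInner (PS α) χ ≠ 0) →
      charDegree χ = (Fintype.card F + 1) / 2) ∧
    ((∃ θ : Tns ε →* ℂˣ, θ ≠ θ⁻¹ ∧ χ = piC ψ ε θ) → charDegree χ = Fintype.card F - 1) ∧
    ((∃ θ : Tns ε →* ℂˣ, θ ≠ 1 ∧ θ = θ⁻¹ ∧ classInner (piC ψ ε θ) χ ≠ 0) →
      charDegree χ = (Fintype.card F - 1) / 2) := by
  have hq1 : 1 ≤ Fintype.card F := Fintype.card_pos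
  refine ⟨?_, ?_, ?_, ?_, ?_, ?_⟩
  · intro h
    apply charDegree_of_eq_nat
    rw [h]; simp
  · intro h
    apply charDegree_of_eq_nat
    rw [h]
    show PS (1 : MulChar F ℂ) 1 - 1 = _
    rw [PS_deg hodd]; ring
  · rintro ⟨α, hα, h⟩
    apply charDegree_of_eq_nat
    rw [h, PS_deg hodd]; push_cast; ring
  · rintro ⟨α, hα1, hαi, hα⟩
    apply charDegree_of_eq_nat
    rw [xi_deg ψ hψ ε hε h2 hcard hodd α hα1 hαi χ hχ hα, half_add hcard]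
  · rintro ⟨θ, hθ, h⟩
    apply charDegree_of_eq_nat
    rw [h, pi_deg ψ hψ ε hε h2, Nat.cast_sub hq1]; simp
  · rintro ⟨θ, hθ1, hθi, hθ⟩
    apply charDegree_of_eq_nat
    rw [(eta_inner ψ hψ ε hε h2 hcard hodd θ hθ1 hθi χ hχ hθ).2, half_sub hcard]

/-- piece PSINV -/
theorem PS_inv (hodd : Odd (Fintype.card F)) (α : MulChar F ℂ) (hα : α ≠ α⁻¹) :
    PS α⁻¹ = PS α := by
  classical
  have hα' : α⁻¹ ≠ (α⁻¹)⁻¹ := by rw [inv_inv]; exact fun h => hα h.symm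
  apply Helper46.eq_of_classInner_ne_zero (PS α) (PS α⁻¹) (PS_irr hodd α hα) (PS_irr hodd α⁻¹ hα')
  rw [inner_PS_PS hodd, if_neg hα, if_pos (inv_inv α).symm]
  norm_num

/-- piece PIINV -/
theorem pi_inv (ψ : AddChar F ℂ) (hψ : ψ.IsPrimitive) (ε : F) (hε : ¬ IsSquare ε)
    (h2 : (2 : F) ≠ 0) (hcard : Fintype.card F % 2 = 1) (θ : Tns ε →* ℂˣ) (hθ : θ ≠ θ⁻¹) :
    piC ψ ε θ⁻¹ = piC ψ ε θ := by
  classical
  have hii : (θ⁻¹)⁻¹ = θ := by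
    apply MonoidHom.ext; intro c
    simp only [MonoidHom.inv_apply, inv_inv]
  have hθ' : θ⁻¹ ≠ (θ⁻¹)⁻¹ := by rw [hii]; exact fun h => hθ h.symm
  apply Helper46.eq_of_classInner_ne_zero (piC ψ ε θ) (piC ψ ε θ⁻¹)
    (pi_irr ψ hψ ε hε h2 hcard θ hθ) (pi_irr ψ hψ ε hε h2 hcard θ⁻¹ hθ')
  rw [inner_pi_pi ψ hψ ε hε h2 hcard, if_neg hθ, if_pos hii.symm]
  norm_num

end Chars

end Cfsg.Agent.Lib.Helper48.Mc
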