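import Mathlib
import Cfsg.Agent.Lib.Helper48.McA

/-!
# S2436 pieces HALF, COUNT, ARITH (helper48)
-/

set_option autoImplicit false

namespace Cfsg.Agent.Lib.Helper48.Mc

open Cfsg Cfsg.Agent.Lib.Helper48

universe u v

/-- piece HALF -/
theorem two_mul_ncard_range_le {A : Type u} {X : Type v} [Finite A] (f : A → X) (inv : A → A)
    (hinv : ∀ a, inv a ≠ a) (hf : ∀ a, f (inv a) = f a) :
    2 * (Set.range f).ncard ≤ Nat.card A := by
  classical
  have hs : ∀ y : Set.range f, ∃ a, f a = y.1 := fun y => y.2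
  choose s hs using hs
  let g : Set.range f × Bool → A := fun p => if p.2 then s p.1 else inv (s p.1)
  have hfg : ∀ p, f (g p) = p.1.1 := by
    rintro ⟨y, b⟩
    cases b
    · show f (inv (s y)) = y.1
      rw [hf, hs]
    · show f (s y) = y.1
      rw [hs]
  have hg : Function.Injective g := by
    rintro ⟨y, b⟩ ⟨y', b'⟩ h
    have hy : y = y' := by
      apply Subtype.ext
      have := congrArg f h
      rw [hfg, hfg] at this
      exact this
    subst hy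
    cases b <;> cases b'
    · rfl
    · exfalso
      exact hinv (s y) h
    · exfalso
      exact hinv (s y) h.symm
    · rfl
  have h1 := Nat.card_le_card_of_injective g hg
  rw [Nat.card_prod, Nat.card_eq_fintype_card (α := Bool), Fintype.card_bool,
    _root_.Nat.card_coe_set_eq] at h1
  omega

/-- piece COUNT -/
theorem count_partition {X : Type u} {ι : Type v} [Fintype X] [Fintype ι] (C : ι → Set X)
    (n d : ι → ℕ) (deg : X → ℕ) (hcover : ∀ x, ∃ i, x ∈ C i) (hcard : ∀ i, (C i).ncard ≤ n i)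
    (htot : ∑ i, n i ≤ Fintype.card X) (hdeg : ∀ i, ∀ x ∈ C i, deg x = d i) (ℓ : ℕ) :
    Nat.card {x : X // ¬ ℓ ∣ deg x} = ∑ i, if ℓ ∣ d i then 0 else n i := by
  classical
  choose t ht using hcover
  have hF : ∀ i, (Finset.univ.filter (fun x => t x = i)).card ≤ n i := by
    intro i
    refine le_trans ?_ (hcard i)
    rw [← Set.ncard_coe_finset]
    apply Set.ncard_le_ncard _ (Set.toFinite _)
    intro x hx
    have hx' : t x = i := by simpa using hx
    rw [← hx']; exact ht x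
  have hsum : ∑ i, (Finset.univ.filter (fun x => t x = i)).card = Fintype.card X := by
    rw [← Finset.card_univ]
    exact (Finset.card_eq_sum_card_fiberwise (f := t) (s := Finset.univ) (t := Finset.univ)
      (fun x _ => Finset.mem_univ _)).symm
  have heq : ∀ i, (Finset.univ.filter (fun x => t x = i)).card = n i := by
    by_contra hcon
    push Not at hcon
    obtain ⟨i₀, hi₀⟩ := hcon
    have hlt : (Finset.univ.filter (fun x => t x = i₀)).card < n i₀ := lt_of_le_of_ne (hF i₀) hi₀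
    have : ∑ i, (Finset.univ.filter (fun x => t x = i)).card < ∑ i, n i :=
      Finset.sum_lt_sum (fun i _ => hF i) ⟨i₀, Finset.mem_univ _, hlt⟩
    omega
  rw [Nat.card_eq_fintype_card, Fintype.card_subtype,
    Finset.card_eq_sum_card_fiberwise (f := t) (t := Finset.univ) (fun x _ => Finset.mem_univ _)]
  apply Finset.sum_congr rfl
  intro i _
  by_cases hdi : ℓ ∣ d i
  · rw [if_pos hdi, Finset.card_eq_zero]
    ext x
    simp only [Finset.mem_filter, Finset.mem_univ, true_and, Finset.notMem_empty, iff_false,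
      not_and]
    intro hx hti
    rw [hdeg (t x) x (ht x), hti] at hx
    exact hx hdi
  · rw [if_neg hdi, ← heq i]
    congr 1
    ext x
    simp only [Finset.mem_filter, Finset.mem_univ, true_and, and_iff_right_iff_imp]
    intro hti
    rw [hdeg (t x) x (ht x), hti]
    exact hdi

theorem arith_not_dvd_one (ℓ : ℕ) (hℓ : ℓ.Prime) : ¬ ℓ ∣ 1 :=
  fun h => hℓ.one_lt.ne' (Nat.dvd_one.mp h)

theorem arith_half_dvd (ℓ m : ℕ) (hm : 2 ∣ m) (h : ℓ ∣ m / 2) : ℓ ∣ m := by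
  obtain ⟨k, rfl⟩ := hm
  rw [Nat.mul_div_cancel_left k (by norm_num)] at h
  exact h.mul_left 2

theorem arith_dvd_half (ℓ m : ℕ) (hℓ : ℓ.Prime) (hℓ2 : ℓ ≠ 2) (hm : 2 ∣ m) (h : ℓ ∣ m) :
    ℓ ∣ m / 2 := by
  obtain ⟨k, rfl⟩ := hm
  rw [Nat.mul_div_cancel_left k (by norm_num)]
  rcases (Nat.Prime.dvd_mul hℓ).mp h with h | h
  · exact absurd ((Nat.prime_dvd_prime_iff_eq hℓ Nat.prime_two).mp h) hℓ2
  · exact h

/-- piece ARITH (four lemmas) -/
theorem gform_char (q ℓ : ℕ) (hq : Odd q) (hq3 : 3 ≤ q) (hℓ : ℓ.Prime) (h : ℓ ∣ q) :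
    gform q ℓ = q + 3 := by
  obtain ⟨k, hk⟩ := hq
  have h1 := arith_not_dvd_one ℓ hℓ
  have hp1 : ¬ ℓ ∣ q + 1 := fun h' => h1 ((Nat.dvd_add_right h).mp h')
  have hm1 : ¬ ℓ ∣ q - 1 := by
    intro h'
    have : ℓ ∣ q - (q - 1) := Nat.dvd_sub h h'
    have e : q - (q - 1) = 1 := by omega
    rw [e] at this
    exact h1 this
  have hp2 : ¬ ℓ ∣ (q + 1) / 2 := fun h' => hp1 (arith_half_dvd ℓ _ (by omega) h')
  have hm2 : ¬ ℓ ∣ (q - 1) / 2 := fun h' => hm1 (arith_half_dvd ℓ _ (by omega) h')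
  unfold gform
  rw [if_neg h1, if_pos h, if_neg hp1, if_neg hp2, if_neg hm1, if_neg hm2]
  omega

theorem gform_split (q ℓ : ℕ) (hq : Odd q) (hq3 : 3 ≤ q) (hℓ : ℓ.Prime) (hℓ2 : ℓ ≠ 2)
    (h : ℓ ∣ q - 1) : gform q ℓ = (q + 5) / 2 := by
  obtain ⟨k, hk⟩ := hq
  have h1 := arith_not_dvd_one ℓ hℓ
  have hq0 : ¬ ℓ ∣ q := by
    intro h'
    have : ℓ ∣ q - (q - 1) := Nat.dvd_sub h' h
    have e : q - (q - 1) = 1 := by omega
    rw [e] at this
    exact h1 this
  have hp1 : ¬ ℓ ∣ q + 1 := by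
    intro h'
    have : ℓ ∣ (q + 1) - (q - 1) := Nat.dvd_sub h' h
    have e : (q + 1) - (q - 1) = 2 := by omega
    rw [e] at this
    exact hℓ2 ((Nat.prime_dvd_prime_iff_eq hℓ Nat.prime_two).mp this)
  have hp2 : ¬ ℓ ∣ (q + 1) / 2 := fun h' => hp1 (arith_half_dvd ℓ _ (by omega) h')
  have hm2 : ℓ ∣ (q - 1) / 2 := arith_dvd_half ℓ _ hℓ hℓ2 (by omega) h
  unfold gform
  rw [if_neg h1, if_neg hq0, if_neg hp1, if_neg hp2, if_pos h, if_pos hm2]
  omega

theorem gform_nonsplit (q ℓ : ℕ) (hq : Odd q) (hq3 : 3 ≤ q) (hℓ : ℓ.Prime) (hℓ2 : ℓ ≠ 2)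
    (h : ℓ ∣ q + 1) : gform q ℓ = (q + 7) / 2 := by
  obtain ⟨k, hk⟩ := hq
  have h1 := arith_not_dvd_one ℓ hℓ
  have hq0 : ¬ ℓ ∣ q := fun h' => h1 ((Nat.dvd_add_right h').mp h)
  have hm1 : ¬ ℓ ∣ q - 1 := by
    intro h'
    have : ℓ ∣ (q + 1) - (q - 1) := Nat.dvd_sub h h'
    have e : (q + 1) - (q - 1) = 2 := by omega
    rw [e] at this
    exact hℓ2 ((Nat.prime_dvd_prime_iff_eq hℓ Nat.prime_two).mp this)
  have hm2 : ¬ ℓ ∣ (q - 1) / 2 := fun h' => hm1 (arith_half_dvd ℓ _ (by omega) h')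
  have hp2 : ℓ ∣ (q + 1) / 2 := arith_dvd_half ℓ _ hℓ hℓ2 (by omega) h
  unfold gform
  rw [if_neg h1, if_neg hq0, if_pos h, if_pos hp2, if_neg hm1, if_neg hm2]
  omega

theorem gform_two (q : ℕ) (hq : Odd q) (hq3 : 3 ≤ q) : gform q 2 = 4 := by
  obtain ⟨k, hk⟩ := hq
  unfold gform
  split_ifs <;> omega

end Cfsg.Agent.Lib.Helper48.Mc
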