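import Mathlib
import Cfsg.Agent.Lib.Helper48.McA

/-!
# S2436 piece COMM3 (helper48 backup)
-/

set_option autoImplicit false

namespace Cfsg.Agent.Lib.Helper48.Mc

open Cfsg Cfsg.Agent.Lib.Helper48
open scoped commutatorElement

universe u v

/-- piece COMM3 -/
theorem commutator_index_three {N : Type u} [Group N] [Finite N] (S : Subgroup N) [S.Normal]
    (hS : Nat.card S = 8) (hN : Nat.card N = 24)
    (hinv : ∀ s ∈ S, ∀ t ∈ S, s ^ 2 = 1 → t ^ 2 = 1 → s ≠ 1 → t ≠ 1 → s = t)
    (hcent : ∀ x : N, (∀ s ∈ S, x * s = s * x) → x ^ 2 = 1) :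
    (commutator N).index = 3 := by
  classical
  have hidxS : S.index = 3 := by
    have := S.card_mul_index
    rw [hS, hN] at this
    omega
  have hDS : commutator N ≤ S := by
    have hc : Nat.card (N ⧸ S) = 3 := by rw [← Subgroup.index_eq_card]; exact hidxS
    haveI : Fact (Nat.Prime 3) := ⟨by norm_num⟩
    haveI := isCyclic_of_prime_card hc
    letI := IsCyclic.commGroup (α := N ⧸ S)
    have := Abelianization.commutator_subset_ker (QuotientGroup.mk' S)
    rwa [QuotientGroup.ker_mk'] at this
  haveI : Fact (Nat.Prime 3) := ⟨by norm_num⟩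
  obtain ⟨x, hx⟩ := exists_prime_orderOf_dvd_card' (G := N) 3 (by rw [hN]; norm_num)
  have hx3 : x ^ 3 = 1 := by rw [← hx]; exact pow_orderOf_eq_one x
  have hx1 : x ≠ 1 := by
    intro h
    rw [h, orderOf_one] at hx
    omega
  have hxxx : x * x * x = 1 := by
    rw [← hx3, pow_succ, pow_succ, pow_one]
  have hS8 : ∀ s ∈ S, s ^ 8 = 1 := by
    intro s hs
    have := pow_card_eq_one' (G := S) (x := ⟨s, hs⟩)
    rw [hS] at this
    exact congrArg Subtype.val this
  by_contra hne
  have hDcard : Nat.card (commutator N) ≤ 4 := by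
    have h1 : Nat.card (commutator N) ∣ 8 := by rw [← hS]; exact Subgroup.card_dvd_of_le hDS
    have h2 : Nat.card (commutator N) ≠ 8 := by
      intro h8
      apply hne
      have := (commutator N).card_mul_index
      rw [h8, hN] at this
      omega
    have h3 : Nat.card (commutator N) ≤ 8 := Nat.le_of_dvd (by norm_num) h1
    by_contra hcon
    have h4 : Nat.card (commutator N) = 5 ∨ Nat.card (commutator N) = 6 ∨
        Nat.card (commutator N) = 7 := by omega
    rcases h4 with h | h | h <;> rw [h] at h1 <;> norm_num at h1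
  have hnormD : (commutator N).Normal := inferInstance
  -- `x` centralizes the commutator subgroup
  have hxD : ∀ d ∈ commutator N, x * d * x⁻¹ = d := by
    intro d hd
    by_contra hdx
    have hd₁D : x * d * x⁻¹ ∈ commutator N := hnormD.conj_mem d hd x
    have hd₂D : x * (x * d * x⁻¹) * x⁻¹ ∈ commutator N := hnormD.conj_mem _ hd₁D x
    obtain ⟨d₁, hd₁⟩ : ∃ d₁, d₁ = x * d * x⁻¹ := ⟨_, rfl⟩
    obtain ⟨d₂, hd₂⟩ : ∃ d₂, d₂ = x * d₁ * x⁻¹ := ⟨_, rfl⟩
    rw [← hd₁] at hd₁D hdx
    rw [← hd₁, ← hd₂] at hd₂D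
    have hback : x * d₂ * x⁻¹ = d := by
      rw [hd₂, hd₁]
      have : x * (x * (x * d * x⁻¹) * x⁻¹) * x⁻¹ = (x * x * x) * d * (x * x * x)⁻¹ := by group
      rw [this, hxxx]; group
    have h12 : d₂ ≠ d₁ := by
      intro h
      apply hdx
      have h' : x * d₁ * x⁻¹ = d₁ := by rw [← hd₂]; exact h
      calc d₁ = x⁻¹ * (x * d₁ * x⁻¹) * x := by group
        _ = x⁻¹ * d₁ * x := by rw [h']
        _ = d := by rw [hd₁]; group
    have h02 : d₂ ≠ d := by
      intro h
      apply hdx
      rw [h] at hback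
      rw [hd₁]; exact hback
    have hd1 : d ≠ 1 := by
      rintro rfl
      apply hdx
      rw [hd₁]; group
    have hd₁1 : d₁ ≠ 1 := by
      intro h
      apply hd1
      calc d = x⁻¹ * d₁ * x := by rw [hd₁]; group
        _ = 1 := by rw [h]; group
    have hd₂1 : d₂ ≠ 1 := by
      intro h
      apply hd1
      rw [← hback, h]; group
    have hall : ∀ e ∈ commutator N, e = 1 ∨ e = d ∨ e = d₁ ∨ e = d₂ := by
      intro e he
      by_contra hcon
      push Not at hcon
      have c1 : d₁ ∉ ({d₂} : Finset N) := by simp [h12.symm]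
      have c2 : d ∉ ({d₁, d₂} : Finset N) := by
        simp only [Finset.mem_insert, Finset.mem_singleton, not_or]
        exact ⟨fun h => hdx h.symm, h02.symm⟩
      have c3 : (1 : N) ∉ ({d, d₁, d₂} : Finset N) := by
        simp only [Finset.mem_insert, Finset.mem_singleton, not_or]
        exact ⟨hd1.symm, hd₁1.symm, hd₂1.symm⟩
      have c4 : e ∉ ({1, d, d₁, d₂} : Finset N) := by
        simp only [Finset.mem_insert, Finset.mem_singleton, not_or]
        exact ⟨hcon.1, hcon.2.1, hcon.2.2.1, hcon.2.2.2⟩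
      have hcard5 : ({e, 1, d, d₁, d₂} : Finset N).card = 5 := by
        rw [Finset.card_insert_of_notMem c4, Finset.card_insert_of_notMem c3,
          Finset.card_insert_of_notMem c2, Finset.card_insert_of_notMem c1, Finset.card_singleton]
      have hsub : ((({e, 1, d, d₁, d₂} : Finset N)) : Set N) ⊆ (commutator N : Set N) := by
        intro y hy
        simp only [Finset.coe_insert, Finset.coe_singleton, Set.mem_insert_iff,
          Set.mem_singleton_iff] at hy
        rcases hy with rfl | rfl | rfl | rfl | rfl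
        · exact he
        · exact one_mem _
        · exact hd
        · exact hd₁D
        · exact hd₂D
      have h5 := Set.ncard_le_ncard hsub (Set.toFinite _)
      rw [Set.ncard_coe_finset, hcard5] at h5
      have h6 : ((commutator N : Subgroup N) : Set N).ncard = Nat.card (commutator N) := rfl
      omega
    have hdd : d * d ∈ commutator N := mul_mem hd hd
    have hconj1 : d₁ * d₁ = x * (d * d) * x⁻¹ := by rw [hd₁]; group
    have hconj2 : d₂ * d₂ = x * (d₁ * d₁) * x⁻¹ := by rw [hd₂]; group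
    have hpow8 : d ^ 8 = ((d * d) * (d * d)) * ((d * d) * (d * d)) := by
      have p4 : d ^ 4 = (d * d) * (d * d) := by
        rw [show (4 : ℕ) = 2 + 2 from rfl, pow_add, sq]
      rw [show (8 : ℕ) = 4 + 4 from rfl, pow_add, p4]
    rcases hall _ hdd with h | h | h | h
    · have hd₁sq : d₁ * d₁ = 1 := by rw [hconj1, h]; group
      exact hdx (hinv d₁ (hDS hd₁D) d (hDS hd) (by rw [sq]; exact hd₁sq) (by rw [sq]; exact h)
        hd₁1 hd1)
    · apply hd1
      have : d * d = d * 1 := by rw [h, mul_one]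
      exact mul_left_cancel this
    · have e1 : d₁ * d₁ = d₂ := by rw [hconj1, h, hd₂]
      have e2 : d₂ * d₂ = d := by rw [hconj2, e1, hback]
      have : d ^ 8 = d := by rw [hpow8, h, e1, e2]
      rw [hS8 d (hDS hd)] at this
      exact hd1 this.symm
    · have e1 : d₁ * d₁ = d := by rw [hconj1, h, hback]
      have e2 : d₂ * d₂ = d₁ := by rw [hconj2, e1, hd₁]
      have : d ^ 8 = d := by rw [hpow8, h, e2, e1]
      rw [hS8 d (hDS hd)] at this
      exact hd1 this.symm
  -- hence `x` centralizes `S`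
  have hxS : ∀ s ∈ S, x * s = s * x := by
    intro s hs
    obtain ⟨n, hn⟩ : ∃ n, n = x * s * x⁻¹ * s⁻¹ := ⟨_, rfl⟩
    have hnD : n ∈ commutator N := by
      rw [hn, commutator_def, ← commutatorElement_def]
      exact Subgroup.commutator_mem_commutator (Subgroup.mem_top x) (Subgroup.mem_top s)
    have hxn : x * n * x⁻¹ = n := hxD n hnD
    have e1 : x * s * x⁻¹ = n * s := by rw [hn]; group
    have e2 : x * (x * s * x⁻¹) * x⁻¹ = n * n * s := by
      calc x * (x * s * x⁻¹) * x⁻¹ = x * (n * s) * x⁻¹ := by rw [e1]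
        _ = (x * n * x⁻¹) * (x * s * x⁻¹) := by group
        _ = n * (n * s) := by rw [hxn, e1]
        _ = n * n * s := by group
    have e3 : x * (x * (x * s * x⁻¹) * x⁻¹) * x⁻¹ = n * n * n * s := by
      calc x * (x * (x * s * x⁻¹) * x⁻¹) * x⁻¹ = x * (n * n * s) * x⁻¹ := by rw [e2]
        _ = (x * n * x⁻¹) * (x * n * x⁻¹) * (x * s * x⁻¹) := by group
        _ = n * n * (n * s) := by rw [hxn, e1]
        _ = n * n * n * s := by group
    have e4 : x * (x * (x * s * x⁻¹) * x⁻¹) * x⁻¹ = s := by
      have : x * (x * (x * s * x⁻¹) * x⁻¹) * x⁻¹ = (x * x * x) * s * (x * x * x)⁻¹ := by group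
      rw [this, hxxx]; group
    have hn3 : n ^ 3 = 1 := by
      have h' : n * n * n * s = 1 * s := by rw [← e3, e4, one_mul]
      have h'' : n * n * n = 1 := mul_right_cancel h'
      rw [← h'', pow_succ, pow_succ, pow_one]
    have hn8 := hS8 n (hDS hnD)
    have hn1 : n = 1 := by
      have h9 : n ^ 9 = 1 := by
        rw [show (9 : ℕ) = 3 * 3 from rfl, pow_mul, hn3, one_pow]
      rw [show (9 : ℕ) = 8 + 1 from rfl, pow_add, hn8, one_mul, pow_one] at h9
      exact h9
    rw [hn1, one_mul] at e1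
    calc x * s = (x * s * x⁻¹) * x := by group
      _ = s * x := by rw [e1]
  have hx2 := hcent x hxS
  apply hx1
  have h3 := hx3
  rw [show (3 : ℕ) = 2 + 1 from rfl, pow_add, hx2, one_mul, pow_one] at h3
  exact h3

end Cfsg.Agent.Lib.Helper48.Mc
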