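import Mathlib
import Cfsg.Agent.Lib.Helper48.McA

/-!
# S2436 piece ORD24 (helper48 backup)
-/

set_option autoImplicit false

namespace Cfsg.Agent.Lib.Helper48.Mc

open Cfsg Cfsg.Agent.Lib.Helper48

universe u v

/-- piece ORD24 -/
theorem mk_two_of_card_24 {N : Type u} [Group N] [Finite N] (h24 : Nat.card N = 24)
    (hcomm : (commutator N).index = 3) : mk N 2 = 4 := by
  classical
  have := Fintype.ofFinite (IrrCharacter N)
  have hsq : ∑ χ : IrrCharacter N, charDegree (χ : N → ℂ) ^ 2 = 24 := by
    rw [← h24]; exact Helper83.sum_charDegree_sq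
  have hpos : ∀ χ : IrrCharacter N, 0 < charDegree (χ : N → ℂ) := fun χ => charDegree_pos χ
  have hle : ∀ χ : IrrCharacter N, charDegree (χ : N → ℂ) ≤ 4 := by
    intro χ
    have h1 : charDegree (χ : N → ℂ) ^ 2 ≤ 24 := by
      rw [← hsq]
      exact Finset.single_le_sum (f := fun χ : IrrCharacter N => charDegree (χ : N → ℂ) ^ 2)
        (fun _ _ => Nat.zero_le _) (Finset.mem_univ χ)
    nlinarith
  have hlin : (Finset.univ.filter (fun χ : IrrCharacter N => charDegree (χ : N → ℂ) = 1)).card
      = 3 := by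
    have := Helper83.card_linear' (G := N)
    rw [hcomm, Nat.card_eq_fintype_card, Fintype.card_subtype] at this
    exact this
  have hmaps : ∀ χ ∈ (Finset.univ : Finset (IrrCharacter N)),
      charDegree (χ : N → ℂ) ∈ Finset.range 5 :=
    fun χ _ => Finset.mem_range.mpr (by have := hle χ; omega)
  have hsum := Finset.sum_fiberwise_of_maps_to hmaps
    (fun χ : IrrCharacter N => charDegree (χ : N → ℂ) ^ 2)
  rw [hsq] at hsum
  have hinner : ∀ k : ℕ, ∑ χ ∈ Finset.univ.filter
      (fun χ : IrrCharacter N => charDegree (χ : N → ℂ) = k), charDegree (χ : N → ℂ) ^ 2 =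
      (Finset.univ.filter (fun χ : IrrCharacter N => charDegree (χ : N → ℂ) = k)).card * k ^ 2 := by
    intro k
    rw [Finset.sum_congr rfl (fun χ hχ => by rw [(Finset.mem_filter.mp hχ).2]), Finset.sum_const,
      smul_eq_mul]
  simp only [hinner] at hsum
  have h0 : (Finset.univ.filter (fun χ : IrrCharacter N => charDegree (χ : N → ℂ) = 0)).card
      = 0 := by
    rw [Finset.card_eq_zero]
    ext χ
    simp only [Finset.mem_filter, Finset.mem_univ, true_and, Finset.notMem_empty, iff_false]
    have := hpos χ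
    omega
  unfold mk
  rw [Nat.card_eq_fintype_card, Fintype.card_subtype,
    Finset.card_eq_sum_card_fiberwise (f := fun χ : IrrCharacter N => charDegree (χ : N → ℂ))
      (t := Finset.range 5) (fun χ _ => hmaps χ (Finset.mem_univ _))]
  have hf : ∀ k : ℕ, (Finset.filter (fun χ : IrrCharacter N => charDegree (χ : N → ℂ) = k)
      (Finset.filter (fun χ : IrrCharacter N => ¬ 2 ∣ charDegree (χ : N → ℂ)) Finset.univ)).card =
      if 2 ∣ k then 0 else
        (Finset.univ.filter (fun χ : IrrCharacter N => charDegree (χ : N → ℂ) = k)).card := by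
    intro k
    by_cases hk : 2 ∣ k
    · rw [if_pos hk, Finset.card_eq_zero]
      ext χ
      simp only [Finset.mem_filter, Finset.mem_univ, true_and, Finset.notMem_empty, iff_false,
        not_and]
      intro h1 h2
      rw [h2] at h1
      exact h1 hk
    · rw [if_neg hk]
      congr 1
      ext χ
      simp only [Finset.mem_filter, Finset.mem_univ, true_and, and_iff_right_iff_imp]
      intro h
      rw [h]
      exact hk
  simp only [hf]
  rw [Finset.sum_range_succ, Finset.sum_range_succ, Finset.sum_range_succ, Finset.sum_range_succ,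
    Finset.sum_range_succ, Finset.sum_range_zero] at hsum ⊢
  rw [if_pos (by norm_num : (2:ℕ) ∣ 0), if_neg (by norm_num : ¬ (2:ℕ) ∣ 1),
    if_pos (by norm_num : (2:ℕ) ∣ 2), if_neg (by norm_num : ¬ (2:ℕ) ∣ 3),
    if_pos (by norm_num : (2:ℕ) ∣ 4)]
  rw [hlin] at hsum ⊢
  rw [h0] at hsum
  omega

end Cfsg.Agent.Lib.Helper48.Mc
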