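import Mathlib
import Cfsg.Agent.Lib.Helper48.McA

/-!
# S2436 piece QCOMM (helper48 backup)
-/

set_option autoImplicit false

namespace Cfsg.Agent.Lib.Helper48.Mc

open Cfsg Cfsg.Agent.Lib.Helper48
open QuaternionGroup
open scoped commutatorElement

theorem qcomm_nn (n : ℕ) : (n : ZMod (2 * n)) + n = 0 := by
  have : ((2 * n : ℕ) : ZMod (2 * n)) = 0 := ZMod.natCast_self _
  rw [← this]; push_cast; ring

theorem qcomm_inv_a (n : ℕ) (i : ZMod (2 * n)) : (a i : QuaternionGroup n)⁻¹ = a (-i) := rfl

theorem qcomm_inv_xa (n : ℕ) (i : ZMod (2 * n)) :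
    (xa i : QuaternionGroup n)⁻¹ = xa ((n : ZMod (2 * n)) + i) := rfl

/-- piece QCOMM -/
theorem quaternion_commutator_index (n : ℕ) (hn0 : n ≠ 0) :
    (commutator (QuaternionGroup n)).index = 4 := by
  haveI : NeZero n := ⟨hn0⟩
  have hnn := qcomm_nn n
  have hK : ∀ m : ZMod (2 * n), (a (2 * m) : QuaternionGroup n) ∈
      Subgroup.zpowers ((a 1 : QuaternionGroup n) ^ 2) := by
    intro m
    have : (a (2 * m) : QuaternionGroup n) = ((a 1) ^ 2) ^ m.val := by
      rw [← pow_mul, a_one_pow]
      congr 1
      push_cast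
      rw [ZMod.natCast_zmod_val]
    rw [this]
    exact pow_mem (Subgroup.mem_zpowers _) _
  have hcomm : commutator (QuaternionGroup n) =
      Subgroup.zpowers ((a 1 : QuaternionGroup n) ^ 2) := by
    apply le_antisymm
    · rw [commutator_def, Subgroup.commutator_le]
      rintro (i | i) - (j | j) -
      · have : ⁅(a i : QuaternionGroup n), a j⁆ = a (2 * 0) := by
          rw [commutatorElement_def, qcomm_inv_a, qcomm_inv_a, a_mul_a, a_mul_a, a_mul_a]
          congr 1; ring
        rw [this]; exact hK 0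
      · have : ⁅(a i : QuaternionGroup n), xa j⁆ = a (2 * i) := by
          rw [commutatorElement_def, qcomm_inv_a, qcomm_inv_xa, a_mul_xa, xa_mul_a, xa_mul_xa]
          congr 1; linear_combination hnn
        rw [this]; exact hK i
      · have : ⁅(xa i : QuaternionGroup n), a j⁆ = a (2 * (-j)) := by
          rw [commutatorElement_def, qcomm_inv_a, qcomm_inv_xa, xa_mul_a, xa_mul_xa, a_mul_a]
          congr 1; linear_combination hnn
        rw [this]; exact hK (-j)
      · have : ⁅(xa i : QuaternionGroup n), xa j⁆ = a (2 * (j - i)) := by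
          rw [commutatorElement_def, qcomm_inv_xa, qcomm_inv_xa, xa_mul_xa, a_mul_xa, xa_mul_xa]
          congr 1; linear_combination hnn
        rw [this]; exact hK (j - i)
    · rw [Subgroup.zpowers_le]
      have : (a 1 : QuaternionGroup n) ^ 2 = ⁅(a 1 : QuaternionGroup n), xa 0⁆ := by
        rw [commutatorElement_def, qcomm_inv_a, qcomm_inv_xa, a_mul_xa, xa_mul_a, xa_mul_xa,
          a_one_pow]
        congr 1; push_cast; linear_combination -hnn
      rw [this, commutator_def]
      exact Subgroup.commutator_mem_commutator (Subgroup.mem_top _) (Subgroup.mem_top _)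
  rw [hcomm]
  have hcard : Nat.card (Subgroup.zpowers ((a 1 : QuaternionGroup n) ^ 2)) = n := by
    rw [Nat.card_zpowers, orderOf_pow' _ (by norm_num), orderOf_a_one,
      Nat.gcd_eq_right (dvd_mul_right 2 n), Nat.mul_div_cancel_left n (by norm_num)]
  have h1 := (Subgroup.zpowers ((a 1 : QuaternionGroup n) ^ 2)).card_mul_index
  rw [hcard, Nat.card_eq_fintype_card, QuaternionGroup.card] at h1
  exact Nat.eq_of_mul_eq_mul_left (Nat.pos_of_ne_zero hn0) (by rw [h1]; ring)

end Cfsg.Agent.Lib.Helper48.Mc
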