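import Mathlib
import Cfsg.Agent.Lib.Helper48.McA

/-!
# S2436 pieces SPLIT, NONSPLIT (helper48)
-/

set_option autoImplicit false

namespace Cfsg.Agent.Lib.Helper48.Mc

open Cfsg Cfsg.Agent.Lib.Helper48
open Cfsg.Agent.S2429 (SL Tns)
open Cfsg.Agent.S2433 (Bor)

section Subgroups

variable {F : Type*} [Field F] [Fintype F]

/-- piece NONSPLIT -/
theorem nonsplit_torus (hodd : Odd (Fintype.card F)) :
    ∃ T : Subgroup (SL F), (∀ a ∈ T, ∀ b ∈ T, a * b = b * a) ∧ Nat.card T = Fintype.card F + 1 ∧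
      (∀ x ∈ T, x ^ 2 ≠ 1 → Subgroup.centralizer ({x} : Set (SL F)) = T) ∧
      Nat.card (Subgroup.normalizer (T : Set (SL F))) = 2 * (Fintype.card F + 1) ∧
      Nat.card (ConjClasses (Subgroup.normalizer (T : Set (SL F)))) = (Fintype.card F + 7) / 2 := by
  obtain ⟨T, hcyc, hcard, -, hcent, -, hN, hk, -⟩ := Cfsg.Agent.S2429.result hodd
  refine ⟨T, ?_, hcard, ?_, hN, hk⟩
  · intro a ha b hb
    have := hcyc
    have h := (IsCyclic.commGroup (α := T)).mul_comm ⟨a, ha⟩ ⟨b, hb⟩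
    exact congrArg Subtype.val h
  · intro x hx hx2
    apply hcent x hx
    · intro h
      apply hx2
      have : x = 1 := by ext i j; rw [h]; rfl
      rw [this]; simp
    · intro h
      apply hx2
      have : x = -1 := by ext i j; rw [h]; rfl
      rw [this]
      ext i j
      fin_cases i <;> fin_cases j <;> simp [pow_two]

open Cfsg.Agent.S2433 (mkB mkB_coe) in
/-- piece SPLIT -/
theorem split_torus (hodd : Odd (Fintype.card F)) (h5 : 5 ≤ Fintype.card F) :
    ∃ T : Subgroup (SL F), (∀ a ∈ T, ∀ b ∈ T, a * b = b * a) ∧ Nat.card T = Fintype.card F - 1 ∧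
      (∀ x ∈ T, x ^ 2 ≠ 1 → Subgroup.centralizer ({x} : Set (SL F)) = T) ∧
      Nat.card (Subgroup.normalizer (T : Set (SL F))) = 2 * (Fintype.card F - 1) ∧
      Nat.card (ConjClasses (Subgroup.normalizer (T : Set (SL F)))) = (Fintype.card F + 5) / 2 := by
  classical
  -- a unit with `a ^ 2 ≠ 1`
  have hex : ∃ a : Fˣ, (a : F) ^ 2 ≠ 1 := by
    by_contra hcon
    push Not at hcon
    have hsub : (Finset.univ : Finset F) ⊆ {0, 1, -1} := by
      intro x _
      by_cases hx : x = 0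
      · simp [hx]
      · have h := hcon (Units.mk0 x hx)
        rw [Units.val_mk0] at h
        have h' : (x - 1) * (x + 1) = 0 := by linear_combination h
        rcases mul_eq_zero.mp h' with h | h
        · have h : x = 1 := by linear_combination h
          simp [h]
        · have h : x = -1 := by linear_combination h
          simp [h]
    have h1 := Finset.card_le_card hsub
    rw [Finset.card_univ] at h1
    have h2 : ({0, 1, -1} : Finset F).card ≤ 3 := Finset.card_le_three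
    omega
  obtain ⟨a, ha⟩ := hex
  have hd01 : (mkB a 0 : SL F).1 0 1 = 0 := mkB_01 a 0
  have hd10 : (mkB a 0 : SL F).1 1 0 = 0 := mkB_10 a 0
  have hda : (mkB a 0 : SL F).1 0 0 ^ 2 ≠ 1 := by rw [mkB_00]; exact ha
  obtain ⟨hmem, hN, hk, -⟩ := Cfsg.Agent.S2428.result hodd (mkB a 0) hd01 hd10 hda
  have hdiag : ∀ t : SL F, t.1 0 1 = 0 → t.1 1 0 = 0 → ∃ b : Fˣ, t = mkB b 0 := by
    intro t h01 h10
    obtain ⟨b, x, hb⟩ := eq_mkB_of_10 t h10
    refine ⟨b, ?_⟩
    have : x = 0 := by rw [← mkB_01 b x, ← hb]; exact h01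
    rw [hb, this]
  have hmkB : ∀ b : Fˣ, (mkB b 0 : SL F) ∈ Subgroup.centralizer ({mkB a 0} : Set (SL F)) :=
    fun b => (hmem _).mpr ⟨mkB_01 b 0, mkB_10 b 0⟩
  have hmul : ∀ b c : Fˣ, (mkB b 0 : SL F) * mkB c 0 = mkB c 0 * mkB b 0 := by
    intro b c
    apply Subtype.ext
    rw [Matrix.SpecialLinearGroup.coe_mul, Matrix.SpecialLinearGroup.coe_mul, mkB_coe, mkB_coe]
    ext i j
    fin_cases i <;> fin_cases j <;> simp [Matrix.mul_apply, Fin.sum_univ_two, mul_comm]
  refine ⟨Subgroup.centralizer ({mkB a 0} : Set (SL F)), ?_, ?_, ?_, hN, hk⟩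
  · intro x hx y hy
    obtain ⟨b, rfl⟩ := hdiag x ((hmem x).mp hx).1 ((hmem x).mp hx).2
    obtain ⟨c, rfl⟩ := hdiag y ((hmem y).mp hy).1 ((hmem y).mp hy).2
    exact hmul b c
  · have hbij : Function.Bijective
        (fun b : Fˣ => (⟨mkB b 0, hmkB b⟩ : Subgroup.centralizer ({mkB a 0} : Set (SL F)))) := by
      constructor
      · intro b c h
        have h' := congrArg (fun t : Subgroup.centralizer ({mkB a 0} : Set (SL F)) => t.1.1 0 0) h
        simp only [mkB_00] at h'
        exact Units.ext h'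
      · rintro ⟨t, ht⟩
        obtain ⟨b, rfl⟩ := hdiag t ((hmem t).mp ht).1 ((hmem t).mp ht).2
        exact ⟨b, rfl⟩
    rw [← Nat.card_eq_of_bijective _ hbij, Nat.card_eq_fintype_card, Fintype.card_units]
  · intro x hx hx2
    obtain ⟨b, rfl⟩ := hdiag x ((hmem x).mp hx).1 ((hmem x).mp hx).2
    have hb : (mkB b 0 : SL F).1 0 0 ^ 2 ≠ 1 := by
      rw [mkB_00]
      intro hb2
      apply hx2
      have hbb : (b : F) * (b : F) = 1 := by rw [← sq]; exact hb2
      have hinv : (b : F)⁻¹ = (b : F) := inv_eq_of_mul_eq_one_left hbb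
      apply Subtype.ext
      rw [sq, Matrix.SpecialLinearGroup.coe_mul, mkB_coe, hinv]
      ext i j
      fin_cases i <;> fin_cases j <;> simp [Matrix.mul_apply, Fin.sum_univ_two, hbb]
    obtain ⟨hmem', -, -, -⟩ := Cfsg.Agent.S2428.result hodd (mkB b 0) (mkB_01 b 0) (mkB_10 b 0) hb
    ext g
    rw [hmem' g, hmem g]

end Subgroups

end Cfsg.Agent.Lib.Helper48.Mc
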