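import Mathlib
import Cfsg.Agent.Lib.Helper48.McA

/-!
# S2436 piece TORUS (helper48)
-/

set_option autoImplicit false

namespace Cfsg.Agent.Lib.Helper48.Mc

open Cfsg Cfsg.Agent.Lib.Helper48

universe u v

theorem torus_sq_ne_one {G : Type u} [Group G] (ℓ : ℕ) (hp : ℓ.Prime) (hℓ : ℓ ≠ 2) (x : G)
    (k : ℕ) (hk : x ^ ℓ ^ k = 1) (hx : x ≠ 1) : x ^ 2 ≠ 1 := by
  intro h2
  apply hx
  have h1 : orderOf x ∣ ℓ ^ k := orderOf_dvd_of_pow_eq_one hk
  have h3 : orderOf x ∣ 2 := orderOf_dvd_of_pow_eq_one h2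
  have hcop : Nat.Coprime (ℓ ^ k) 2 := by
    apply Nat.Coprime.pow_left
    exact (Nat.coprime_primes hp Nat.prime_two).mpr hℓ
  have : orderOf x ∣ 1 := by
    have := Nat.dvd_gcd h1 h3
    rwa [hcop] at this
  exact orderOf_eq_one_iff.mp (Nat.dvd_one.mp this)

/-- piece TORUS -/
theorem exists_sylow_normalizer_eq_torus {G : Type u} [Group G] [Finite G] (ℓ : ℕ) [Fact ℓ.Prime]
    (hℓ : ℓ ≠ 2) (T : Subgroup G) (hTab : ∀ a ∈ T, ∀ b ∈ T, a * b = b * a)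
    (hcent : ∀ x ∈ T, x ^ 2 ≠ 1 → Subgroup.centralizer ({x} : Set G) = T)
    (hdvd : ℓ ∣ Nat.card T) (hidx : ¬ ℓ ∣ T.index) :
    ∃ P : Sylow ℓ G, Subgroup.normalizer ((P : Subgroup G) : Set G) =
      Subgroup.normalizer (T : Set G) := by
  have hp := (Fact.out : ℓ.Prime)
  obtain ⟨P₀⟩ : Nonempty (Sylow ℓ T) := inferInstance
  have hPg : IsPGroup ℓ ((P₀ : Subgroup T).map T.subtype) := P₀.isPGroup'.map T.subtype
  have hidx' : ¬ ℓ ∣ ((P₀ : Subgroup T).map T.subtype).index := by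
    rw [Subgroup.index_map_subtype]
    intro h
    rcases (Nat.Prime.dvd_mul hp).mp h with h | h
    · exact P₀.not_dvd_index h
    · exact hidx h
  refine ⟨hPg.toSylow hidx', ?_⟩
  rw [IsPGroup.toSylow_coe]
  set P := (P₀ : Subgroup T).map T.subtype with hPdef
  have hPT : P ≤ T := by
    rintro y ⟨x, -, rfl⟩
    exact x.2
  have hPel : ∀ y ∈ P, ∃ k : ℕ, y ^ ℓ ^ k = 1 := by
    intro y hy
    obtain ⟨k, hk⟩ := hPg ⟨y, hy⟩
    exact ⟨k, congrArg Subtype.val hk⟩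
  -- every `ℓ`-element of `T` lies in `P`
  have hall : ∀ y : G, y ∈ T → (∃ k : ℕ, y ^ ℓ ^ k = 1) → y ∈ P := by
    rintro y hy ⟨k, hk⟩
    have hk' : (⟨y, hy⟩ : T) ^ ℓ ^ k = 1 := Subtype.ext hk
    have hQ : IsPGroup ℓ (Subgroup.zpowers (⟨y, hy⟩ : T)) := by
      rintro ⟨q, hq⟩
      obtain ⟨m, rfl⟩ := Subgroup.mem_zpowers_iff.mp hq
      refine ⟨k, Subtype.ext ?_⟩
      show ((⟨y, hy⟩ : T) ^ m) ^ ℓ ^ k = 1
      rw [← zpow_natCast, ← zpow_mul, mul_comm, zpow_mul, zpow_natCast, hk', one_zpow]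
    obtain ⟨S', hS'⟩ := hQ.exists_le_sylow
    obtain ⟨g, hg⟩ := MulAction.exists_smul_eq T P₀ S'
    have hmem : (⟨y, hy⟩ : T) ∈ (S' : Subgroup T) := hS' (Subgroup.mem_zpowers _)
    rw [← hg, Sylow.coe_subgroup_smul, Subgroup.mem_pointwise_smul_iff_inv_smul_mem] at hmem
    have e : (MulAut.conj g)⁻¹ • (⟨y, hy⟩ : T) = ⟨y, hy⟩ := by
      rw [← map_inv]
      show MulAut.conj g⁻¹ (⟨y, hy⟩ : T) = _
      rw [MulAut.conj_apply, inv_inv]
      apply Subtype.ext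
      show (g : G)⁻¹ * y * g = y
      rw [mul_assoc, hTab y hy g g.2, ← mul_assoc, inv_mul_cancel, one_mul]
    rw [e] at hmem
    exact ⟨⟨y, hy⟩, hmem, rfl⟩
  -- a non-trivial element of `P`
  have hPne : (P₀ : Subgroup T) ≠ ⊥ := P₀.ne_bot_of_dvd_card hdvd
  obtain ⟨x, hxP, hx1⟩ : ∃ x : G, x ∈ P ∧ x ≠ 1 := by
    obtain ⟨⟨x₀, hx₀P⟩, hx₀1'⟩ := (Subgroup.ne_bot_iff_exists_ne_one).mp hPne
    have hx₀1 : x₀ ≠ 1 := fun h => hx₀1' (Subtype.ext h)
    exact ⟨x₀.1, ⟨x₀, hx₀P, rfl⟩, fun h => hx₀1 (Subtype.ext h)⟩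
  have key : ∀ g ∈ Subgroup.normalizer (T : Set G), ∀ h ∈ P, g * h * g⁻¹ ∈ P := by
    intro g hg h hh
    apply hall
    · exact (Subgroup.mem_normalizer_iff.mp hg h).mp (hPT hh)
    · obtain ⟨k, hk⟩ := hPel h hh
      refine ⟨k, ?_⟩
      rw [conj_pow, hk, mul_one, mul_inv_cancel]
  ext g
  constructor
  · intro hg
    rw [Subgroup.mem_normalizer_iff] at hg ⊢
    have hy : g * x * g⁻¹ ∈ P := (hg _).mp hxP
    obtain ⟨k, hk⟩ := hPel _ hxP
    have hx2 : x ^ 2 ≠ 1 := torus_sq_ne_one ℓ hp hℓ _ k hk hx1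
    have hy2 : (g * x * g⁻¹) ^ 2 ≠ 1 := by
      rw [conj_pow]
      intro h
      apply hx2
      have : x ^ 2 = g⁻¹ * (g * x ^ 2 * g⁻¹) * g := by group
      rw [this, h]; group
    have c1 := hcent _ (hPT hxP) hx2
    have c2 := hcent _ (hPT hy) hy2
    intro h
    have m1 : h ∈ T ↔ h ∈ Subgroup.centralizer ({x} : Set G) := by rw [c1]
    have m2 : g * h * g⁻¹ ∈ T ↔
        g * h * g⁻¹ ∈ Subgroup.centralizer ({g * x * g⁻¹} : Set G) := by rw [c2]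
    rw [m1, m2, Subgroup.mem_centralizer_iff, Subgroup.mem_centralizer_iff]
    constructor
    · intro hc z hz
      rw [Set.mem_singleton_iff] at hz
      have := hc _ (Set.mem_singleton _)
      rw [hz]
      calc g * x * g⁻¹ * (g * h * g⁻¹) = g * (x * h) * g⁻¹ := by group
        _ = g * (h * x) * g⁻¹ := by rw [this]
        _ = g * h * g⁻¹ * (g * x * g⁻¹) := by group
    · intro hc z hz
      rw [Set.mem_singleton_iff] at hz
      have := hc _ (Set.mem_singleton _)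
      rw [hz]
      calc x * h = g⁻¹ * (g * x * g⁻¹ * (g * h * g⁻¹)) * g := by group
        _ = g⁻¹ * (g * h * g⁻¹ * (g * x * g⁻¹)) * g := by rw [this]
        _ = h * x := by group
  · intro hg
    rw [Subgroup.mem_normalizer_iff]
    intro h
    constructor
    · exact key g hg h
    · intro hh
      have := key g⁻¹ (inv_mem hg) _ hh
      have e : g⁻¹ * (g * h * g⁻¹) * g⁻¹⁻¹ = h := by group
      rwa [e] at this

end Cfsg.Agent.Lib.Helper48.Mc
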