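import Mathlib
import Cfsg.Agent.Lib.Helper48.McA

/-!
# S2436 piece TWODATA (helper48)
-/

set_option autoImplicit false

namespace Cfsg.Agent.Lib.Helper48.Mc

open Cfsg Cfsg.Agent.Lib.Helper48
open Cfsg.Agent.S2429 (SL Tns)
open Cfsg.Agent.S2433 (Bor)

section Subgroups

variable {F : Type*} [Field F] [Fintype F]

theorem twodata_arith (q : ℕ) (h8 : q % 8 = 3 ∨ q % 8 = 5) :
    ∃ r : ℕ, ¬ 2 ∣ r ∧ (q - 1) * q * (q + 1) = 8 * r := by
  rcases h8 with h | h
  · refine ⟨(4 * (q / 8) + 1) * q * (2 * (q / 8) + 1), ?_, ?_⟩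
    · intro hd
      rcases (Nat.Prime.dvd_mul Nat.prime_two).mp hd with h1 | h1
      · rcases (Nat.Prime.dvd_mul Nat.prime_two).mp h1 with h2 | h2
        · omega
        · omega
      · omega
    · have e1 : q - 1 = 2 * (4 * (q / 8) + 1) := by omega
      have e2 : q + 1 = 4 * (2 * (q / 8) + 1) := by omega
      rw [e1, e2]; ring
  · refine ⟨(2 * (q / 8) + 1) * q * (4 * (q / 8) + 3), ?_, ?_⟩
    · intro hd
      rcases (Nat.Prime.dvd_mul Nat.prime_two).mp hd with h1 | h1
      · rcases (Nat.Prime.dvd_mul Nat.prime_two).mp h1 with h2 | h2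
        · omega
        · omega
      · omega
    · have e1 : q - 1 = 4 * (2 * (q / 8) + 1) := by omega
      have e2 : q + 1 = 2 * (4 * (q / 8) + 3) := by omega
      rw [e1, e2]; ring

/-- piece TWODATA (three lemmas) -/
theorem sylow_two_card_eight (hodd : Odd (Fintype.card F)) (S : Sylow 2 (SL F))
    (h8 : Fintype.card F % 8 = 3 ∨ Fintype.card F % 8 = 5) : Nat.card S = 8 := by
  classical
  obtain ⟨r, hr, he⟩ := twodata_arith (Fintype.card F) h8
  have hc := S.card_eq_multiplicity
  have hG : Nat.card (SL F) = 8 * r := by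
    rw [Nat.card_eq_fintype_card, Cfsg.Agent.S2433.card_SL, he]
  have hr0 : r ≠ 0 := by rintro rfl; exact hr (dvd_zero 2)
  rw [hG, Nat.factorization_mul (by norm_num) hr0] at hc
  have h8f : (8 : ℕ).factorization 2 = 3 := by
    have : (8 : ℕ) = 2 ^ 3 := by norm_num
    rw [this, Nat.Prime.factorization_pow Nat.prime_two]
    simp
  have hrf : r.factorization 2 = 0 := Nat.factorization_eq_zero_of_not_dvd hr
  rw [Finsupp.add_apply, h8f, hrf] at hc
  rw [hc]; norm_num

theorem sl2_sq_eq_one (hodd : Odd (Fintype.card F)) (s : SL F) (hs : s ^ 2 = 1) :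
    s = 1 ∨ s = -1 := by
  have hF : ringChar F ≠ 2 := by
    intro h
    have := FiniteField.even_card_iff_char_two.mp h
    rw [Nat.odd_iff] at hodd
    omega
  have h2 : (2 : F) ≠ 0 := Ring.two_ne_zero hF
  have hdet := Cfsg.Agent.S2429.det_eq s
  rw [sq] at hs
  have e := fun i j => congrArg (fun m : SL F => m.1 i j) hs
  have e00 := e 0 0
  have e01 := e 0 1
  have e10 := e 1 0
  have e11 := e 1 1
  simp only [Matrix.SpecialLinearGroup.coe_mul, Matrix.mul_apply, Fin.sum_univ_two,
    Matrix.SpecialLinearGroup.coe_one, Matrix.one_apply_eq, ne_eq, zero_ne_one, one_ne_zero,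
    not_false_eq_true, Matrix.one_apply_ne] at e00 e01 e10 e11
  by_cases htr : s.1 0 0 + s.1 1 1 = 0
  · exfalso
    apply h2
    have hd : s.1 1 1 = -s.1 0 0 := by linear_combination htr
    rw [hd] at hdet
    linear_combination -e00 - hdet
  · have hb : s.1 0 1 = 0 := by
      have : s.1 0 1 * (s.1 0 0 + s.1 1 1) = 0 := by linear_combination e01
      exact (mul_eq_zero.mp this).resolve_right htr
    have hc : s.1 1 0 = 0 := by
      have : s.1 1 0 * (s.1 0 0 + s.1 1 1) = 0 := by linear_combination e10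
      exact (mul_eq_zero.mp this).resolve_right htr
    rw [hb] at e00 hdet
    have ha : (s.1 0 0 - 1) * (s.1 0 0 + 1) = 0 := by linear_combination e00
    rcases mul_eq_zero.mp ha with ha | ha
    · left
      have ha' : s.1 0 0 = 1 := by linear_combination ha
      have hd' : s.1 1 1 = 1 := by rw [ha'] at hdet; linear_combination hdet
      ext i j
      fin_cases i <;> fin_cases j <;> simp [ha', hd', hb, hc]
    · right
      have ha' : s.1 0 0 = -1 := by linear_combination ha
      have hd' : s.1 1 1 = -1 := by rw [ha'] at hdet; linear_combination -hdet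
      ext i j
      fin_cases i <;> fin_cases j <;> simp [ha', hd', hb, hc]

theorem sl2_center_sq (x : SL F) (hx : x ∈ Subgroup.center (SL F)) : x ^ 2 = 1 := by
  rw [Matrix.SpecialLinearGroup.mem_center_iff] at hx
  obtain ⟨r, hr, hx⟩ := hx
  rw [Fintype.card_fin] at hr
  apply Subtype.ext
  rw [sq, Matrix.SpecialLinearGroup.coe_mul, ← hx]
  ext i j
  fin_cases i <;> fin_cases j <;> simp [Matrix.mul_apply, Fin.sum_univ_two, ← sq, hr]

end Subgroups

end Cfsg.Agent.Lib.Helper48.Mc
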