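import Mathlib
import Cfsg.Agent.Lib.Helper48.McTwo

/-!
# S2436 piece TWOB (helper48): reduction to ORD24 and COMM3
-/

set_option autoImplicit false

namespace Cfsg.Agent.Lib.Helper48.Mc

open Cfsg Cfsg.Agent.Lib.Helper48
open Cfsg.Agent.S2429 (SL Tns)
open Cfsg.Agent.S2433 (Bor)

universe u v

section Subgroups

variable {F : Type*} [Field F] [Fintype F]

/-- piece TWOB, with ORD24 and COMM3 as hypotheses -/
theorem mk_normalizer_two_b_of
    (hORD24 : ∀ {N : Type u_1} [Group N] [Finite N], Nat.card N = 24 →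
      (commutator N).index = 3 → mk N 2 = 4)
    (hCOMM3 : ∀ {N : Type u_1} [Group N] [Finite N] (S : Subgroup N) [S.Normal],
      Nat.card S = 8 → Nat.card N = 24 →
      (∀ s ∈ S, ∀ t ∈ S, s ^ 2 = 1 → t ^ 2 = 1 → s ≠ 1 → t ≠ 1 → s = t) →
      (∀ x : N, (∀ s ∈ S, x * s = s * x) → x ^ 2 = 1) → (commutator N).index = 3)
    (hodd : Odd (Fintype.card F)) (S : Sylow 2 (SL F))
    (h8 : Fintype.card F % 8 = 3 ∨ Fintype.card F % 8 = 5) :
    mk ↥(Subgroup.normalizer ((S : Subgroup (SL F)) : Set (SL F))) 2 = 4 := by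
  classical
  obtain ⟨hcentS, -, hN3⟩ := Cfsg.Agent.S2431.result hodd S
  have hS8 := sylow_two_card_eight hodd S h8
  have hN := hN3 h8
  have hSN : (S : Subgroup (SL F)) ≤ Subgroup.normalizer ((S : Subgroup (SL F)) : Set (SL F)) :=
    Subgroup.le_normalizer
  have hnorm : ((S : Subgroup (SL F)).subgroupOf
      (Subgroup.normalizer ((S : Subgroup (SL F)) : Set (SL F)))).Normal :=
    Subgroup.normal_in_normalizer
  have hS' : Nat.card ((S : Subgroup (SL F)).subgroupOf
      (Subgroup.normalizer ((S : Subgroup (SL F)) : Set (SL F)))) = 8 := by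
    rw [Nat.card_congr (Subgroup.subgroupOfEquivOfLe hSN).toEquiv]
    exact hS8
  have hN24 : Nat.card (Subgroup.normalizer ((S : Subgroup (SL F)) : Set (SL F))) = 24 := by
    rw [hN]
    have : Nat.card (S : Subgroup (SL F)) = 8 := hS8
    rw [this]
  apply hORD24 hN24
  apply hCOMM3 ((S : Subgroup (SL F)).subgroupOf
      (Subgroup.normalizer ((S : Subgroup (SL F)) : Set (SL F)))) hS' hN24
  · intro s _ t _ hs2 ht2 hs1 ht1
    have hs : s.1 = -1 := by
      rcases sl2_sq_eq_one hodd s.1 (by have := congrArg Subtype.val hs2; simpa using this) with h | h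
      · exact absurd (Subtype.ext h) hs1
      · exact h
    have ht : t.1 = -1 := by
      rcases sl2_sq_eq_one hodd t.1 (by have := congrArg Subtype.val ht2; simpa using this) with h | h
      · exact absurd (Subtype.ext h) ht1
      · exact h
    exact Subtype.ext (hs.trans ht.symm)
  · intro x hx
    have hxc : x.1 ∈ Subgroup.centralizer ((S : Subgroup (SL F)) : Set (SL F)) := by
      rw [Subgroup.mem_centralizer_iff]
      intro h hh
      have := hx ⟨h, hSN hh⟩ (Subgroup.mem_subgroupOf.mpr hh)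
      exact (congrArg Subtype.val this).symm
    rw [hcentS] at hxc
    exact Subtype.ext (sl2_center_sq x.1 hxc)

end Subgroups

end Cfsg.Agent.Lib.Helper48.Mc
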