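import Mathlib
import Cfsg.Agent.Lib.Helper48.McChars
import Cfsg.Agent.Lib.Helper48.McC46
import Cfsg.Agent.Lib.Helper48.McTori
import Cfsg.Agent.Lib.Helper48.McAbs
import Cfsg.Agent.Lib.Helper48.McComb
import Cfsg.Agent.Lib.Helper48.McBor
import Cfsg.Agent.Lib.Helper48.McTwoB
import Cfsg.Agent.Lib.Helper48.McTorus
import Cfsg.Agent.Lib.Helper48.McQComm
import Cfsg.Agent.Lib.Helper48.McOrd24
import Cfsg.Agent.Lib.Helper48.McComm3

/-!
# S2436: McKay equality for `SL₂(q)`, `q` odd -- final assembly (helper48)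
-/

set_option autoImplicit false

namespace Cfsg.Agent.Lib.Helper48.Mc

open Cfsg Cfsg.Agent.Lib.Helper48
open Cfsg.Agent.S2429 (SL Tns)
open Cfsg.Agent.S2433 (Bor)

universe u v

section Chars

variable {F : Type*} [Field F] [Fintype F] [DecidableEq F]

/-- piece C3 (sub-assembly of HALF, PSINV, C3B) -/
theorem ncard_C3 (hodd : Odd (Fintype.card F)) :
    {χ : IrrCharacter (SL F) | ∃ α : MulChar F ℂ, α ≠ α⁻¹ ∧ (χ : SL F → ℂ) = PS α}.ncard ≤
      (Fintype.card F - 3) / 2 := by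
  classical
  let f : {α : MulChar F ℂ // α ≠ α⁻¹} → IrrCharacter (SL F) :=
    fun α => ⟨PS α.1, PS_irr hodd α.1 α.2⟩
  let inv : {α : MulChar F ℂ // α ≠ α⁻¹} → {α : MulChar F ℂ // α ≠ α⁻¹} :=
    fun α => ⟨α.1⁻¹, by rw [inv_inv]; exact fun h => α.2 h.symm⟩
  have hset : {χ : IrrCharacter (SL F) | ∃ α : MulChar F ℂ, α ≠ α⁻¹ ∧ (χ : SL F → ℂ) = PS α} =
      Set.range f := by
    ext χ; constructor
    · rintro ⟨α, hα, h⟩; exact ⟨⟨α, hα⟩, Subtype.ext h.symm⟩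
    · rintro ⟨α, rfl⟩; exact ⟨α.1, α.2, rfl⟩
  rw [hset]
  have h1 := two_mul_ncard_range_le f inv (fun a h => a.2 (congrArg Subtype.val h).symm)
    (fun a => Subtype.ext (PS_inv hodd a.1 a.2))
  have h2 := card_mulChar_not_selfinv (F := F) hodd
  omega

/-- piece C5 (sub-assembly of HALF, PIINV, C5B) -/
theorem ncard_C5 (ψ : AddChar F ℂ) (hψ : ψ.IsPrimitive) (ε : F) (hε : ¬ IsSquare ε)
    (h2 : (2 : F) ≠ 0) (hcard : Fintype.card F % 2 = 1) (hodd : Odd (Fintype.card F)) :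
    {χ : IrrCharacter (SL F) | ∃ θ : Tns ε →* ℂˣ, θ ≠ θ⁻¹ ∧ (χ : SL F → ℂ) = piC ψ ε θ}.ncard ≤
      (Fintype.card F - 1) / 2 := by
  classical
  let f : {θ : Tns ε →* ℂˣ // θ ≠ θ⁻¹} → IrrCharacter (SL F) :=
    fun θ => ⟨piC ψ ε θ.1, pi_irr ψ hψ ε hε h2 hcard θ.1 θ.2⟩
  let inv : {θ : Tns ε →* ℂˣ // θ ≠ θ⁻¹} → {θ : Tns ε →* ℂˣ // θ ≠ θ⁻¹} :=
    fun θ => ⟨θ.1⁻¹, fun h => θ.2 (by
      apply MonoidHom.ext; intro c
      have h' := congrArg (fun φ : Tns ε →* ℂˣ => φ c) h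
      simp only [MonoidHom.inv_apply, inv_inv] at h'
      rw [MonoidHom.inv_apply]; exact h'.symm)⟩
  have hset : {χ : IrrCharacter (SL F) | ∃ θ : Tns ε →* ℂˣ, θ ≠ θ⁻¹ ∧
      (χ : SL F → ℂ) = piC ψ ε θ} = Set.range f := by
    ext χ; constructor
    · rintro ⟨θ, hθ, h⟩; exact ⟨⟨θ, hθ⟩, Subtype.ext h.symm⟩
    · rintro ⟨θ, rfl⟩; exact ⟨θ.1, θ.2, rfl⟩
  rw [hset]
  have h1 := two_mul_ncard_range_le f inv (fun a h => a.2 (congrArg Subtype.val h).symm)
    (fun a => Subtype.ext (pi_inv ψ hψ ε hε h2 hcard a.1 a.2))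
  have h3 := card_thetaChar_not_selfinv ε hε h2 hodd
  omega

end Chars

/-! ## assembly (helper48) -/

section Assembly

variable {F : Type*} [Field F] [Fintype F]

/-- GMAIN (helper48) -/
theorem mk_SL (hodd : Odd (Fintype.card F)) (ℓ : ℕ) :
    mk (SL F) ℓ = gform (Fintype.card F) ℓ := by
  classical
  have hcard : Fintype.card F % 2 = 1 := Nat.odd_iff.mp hodd
  have hF : ringChar F ≠ 2 := by
    intro h
    have := FiniteField.even_card_iff_char_two.mp h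
    omega
  have h2 : (2 : F) ≠ 0 := Ring.two_ne_zero hF
  obtain ⟨ε, hε⟩ := FiniteField.exists_nonsquare hF
  have hψ := AddChar.FiniteField.primitiveChar_to_Complex_isPrimitive F
  let _ : Fintype (Tns ε →* ℂˣ) := Fintype.ofFinite _
  let _ : Fintype (MulChar F ℂ) := Fintype.ofFinite _
  let _ : Fintype (IrrCharacter (SL F)) := Fintype.ofFinite _
  have hq2 : 2 ≤ Fintype.card F := Fintype.one_lt_card
  let ψ := AddChar.FiniteField.primitiveChar_to_Complex F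
  let C : Fin 6 → Set (IrrCharacter (SL F)) :=
    ![{χ | (χ : SL F → ℂ) = fun _ => (1 : ℂ)},
      {χ | (χ : SL F → ℂ) = PS (1 : MulChar F ℂ) - fun _ => (1 : ℂ)},
      {χ | ∃ α : MulChar F ℂ, α ≠ α⁻¹ ∧ (χ : SL F → ℂ) = PS α},
      {χ | ∃ α : MulChar F ℂ, α ≠ 1 ∧ α = α⁻¹ ∧ classInner (PS α) (χ : SL F → ℂ) ≠ 0},
      {χ | ∃ θ : Tns ε →* ℂˣ, θ ≠ θ⁻¹ ∧ (χ : SL F → ℂ) = piC ψ ε θ},
      {χ | ∃ θ : Tns ε →* ℂˣ, θ ≠ 1 ∧ θ = θ⁻¹ ∧ classInner (piC ψ ε θ) (χ : SL F → ℂ) ≠ 0}]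
  let n : Fin 6 → ℕ := ![1, 1, (Fintype.card F - 3) / 2, 2, (Fintype.card F - 1) / 2, 2]
  let d : Fin 6 → ℕ := ![1, Fintype.card F, Fintype.card F + 1, (Fintype.card F + 1) / 2,
    Fintype.card F - 1, (Fintype.card F - 1) / 2]
  have hcover : ∀ χ : IrrCharacter (SL F), ∃ i, χ ∈ C i := by
    intro χ
    rcases irr_cases ψ hψ ε hε h2 hcard hodd χ.1 χ.2 with h | h | h | h | h | h
    · exact ⟨0, h⟩
    · exact ⟨1, h⟩
    · exact ⟨2, h⟩
    · exact ⟨3, h⟩
    · exact ⟨4, h⟩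
    · exact ⟨5, h⟩
  have hsub : ∀ (A : Set (IrrCharacter (SL F))) (f : SL F → ℂ),
      (∀ χ ∈ A, (χ : SL F → ℂ) = f) → A.ncard ≤ 1 := by
    intro A f hA
    apply (Set.ncard_le_one_iff (Set.toFinite A)).mpr
    intro a b ha hb
    exact Subtype.ext ((hA a ha).trans (hA b hb).symm)
  have hcardC : ∀ i, (C i).ncard ≤ n i := by
    intro i
    fin_cases i
    · exact hsub _ _ (fun χ h => h)
    · exact hsub _ _ (fun χ h => h)
    · exact ncard_C3 hodd
    · exact ncard_C4 hodd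
    · exact ncard_C5 ψ hψ ε hε h2 hcard hodd
    · exact ncard_C6 ψ hψ ε hε h2 hcard hodd
  have htot : ∑ i, n i ≤ Fintype.card (IrrCharacter (SL F)) := by
    rw [← Nat.card_eq_fintype_card, Cfsg.Agent.S0133.result, Cfsg.Agent.S2325.result hodd,
      Fin.sum_univ_six]
    show 1 + 1 + (Fintype.card F - 3) / 2 + 2 + (Fintype.card F - 1) / 2 + 2 ≤ Fintype.card F + 4
    omega
  have hdeg : ∀ i, ∀ χ ∈ C i, charDegree (χ : SL F → ℂ) = d i := by
    intro i χ hχ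
    obtain ⟨d1, d2, d3, d4, d5, d6⟩ := deg_cases ψ hψ ε hε h2 hcard hodd χ.1 χ.2
    fin_cases i
    · exact d1 hχ
    · exact d2 hχ
    · exact d3 hχ
    · exact d4 hχ
    · exact d5 hχ
    · exact d6 hχ
  have key := count_partition C n d (fun χ => charDegree (χ : SL F → ℂ)) hcover hcardC htot hdeg ℓ
  unfold mk gform
  rw [key, Fin.sum_univ_six]
  rfl

/-- TWOA (helper48) -/
theorem mk_normalizer_two_a (hodd : Odd (Fintype.card F)) (S : Sylow 2 (SL F))
    (h8 : Fintype.card F % 8 = 1 ∨ Fintype.card F % 8 = 7) :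
    mk ↥(Subgroup.normalizer ((S : Subgroup (SL F)) : Set (SL F))) 2 = 4 := by
  have hN := (Cfsg.Agent.S2431.result hodd S).2.1 h8
  obtain ⟨k, hk, ⟨e⟩⟩ := Cfsg.Agent.S0261.result hodd S
  rw [mk_congr ((MulEquiv.subgroupCongr hN).trans e) 2]
  have hp : IsPGroup 2 (QuaternionGroup (2 ^ k)) := by
    apply IsPGroup.of_card (n := k + 2)
    rw [Nat.card_eq_fintype_card, QuaternionGroup.card]; ring
  rw [mk_pgroup 2 hp, quaternion_commutator_index _ (by positivity)]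

/-- the torus case, abstractly -/
theorem torus_case {G : Type u} [Group G] [Finite G] (ℓ : ℕ) [Fact ℓ.Prime] (hℓ : ℓ ≠ 2)
    (T : Subgroup G) (hTab : ∀ a ∈ T, ∀ b ∈ T, a * b = b * a)
    (hcent : ∀ x ∈ T, x ^ 2 ≠ 1 → Subgroup.centralizer ({x} : Set G) = T)
    (hdvd : ℓ ∣ Nat.card T) (hidx : ¬ ℓ ∣ T.index)
    (hN : Nat.card (Subgroup.normalizer (T : Set G)) = 2 * Nat.card T) (S : Sylow ℓ G) :
    mk ↥(Subgroup.normalizer ((S : Subgroup G) : Set G)) ℓ =
      Nat.card (ConjClasses ↥(Subgroup.normalizer (T : Set G))) := by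
  obtain ⟨P, hP⟩ := exists_sylow_normalizer_eq_torus ℓ hℓ T hTab hcent hdvd hidx
  obtain ⟨e⟩ := normalizer_sylow_equiv ℓ S P
  rw [mk_congr (e.trans (MulEquiv.subgroupCongr hP)) ℓ]
  exact mk_normalizer_torus ℓ hℓ T hTab hN

theorem not_dvd_split (q ℓ : ℕ) (hq3 : 3 ≤ q) (hℓ : ℓ.Prime) (hℓ2 : ℓ ≠ 2) (h : ℓ ∣ q - 1) :
    ¬ ℓ ∣ q * (q + 1) := by
  intro hd
  rcases (Nat.Prime.dvd_mul hℓ).mp hd with h1 | h1
  · have : ℓ ∣ q - (q - 1) := Nat.dvd_sub h1 h
    have e : q - (q - 1) = 1 := by omega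
    rw [e] at this
    exact hℓ.one_lt.ne' (Nat.dvd_one.mp this)
  · have : ℓ ∣ (q + 1) - (q - 1) := Nat.dvd_sub h1 h
    have e : (q + 1) - (q - 1) = 2 := by omega
    rw [e] at this
    exact hℓ2 ((Nat.prime_dvd_prime_iff_eq hℓ Nat.prime_two).mp this)

theorem not_dvd_nonsplit (q ℓ : ℕ) (hq3 : 3 ≤ q) (hℓ : ℓ.Prime) (hℓ2 : ℓ ≠ 2) (h : ℓ ∣ q + 1) :
    ¬ ℓ ∣ (q - 1) * q := by
  intro hd
  rcases (Nat.Prime.dvd_mul hℓ).mp hd with h1 | h1
  · have : ℓ ∣ (q + 1) - (q - 1) := Nat.dvd_sub h h1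
    have e : (q + 1) - (q - 1) = 2 := by omega
    rw [e] at this
    exact hℓ2 ((Nat.prime_dvd_prime_iff_eq hℓ Nat.prime_two).mp this)
  · have : ℓ ∣ (q + 1) - q := Nat.dvd_sub h h1
    have e : (q + 1) - q = 1 := by omega
    rw [e] at this
    exact hℓ.one_lt.ne' (Nat.dvd_one.mp this)

/-- McKay equality for `SL₂(q)`, `q` odd -/
theorem mckay (hodd : Odd (Fintype.card F)) (ℓ : ℕ) [Fact ℓ.Prime] (S : Sylow ℓ (SL F)) :
    mk (SL F) ℓ = mk ↥(Subgroup.normalizer ((S : Subgroup (SL F)) : Set (SL F))) ℓ := by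
  classical
  have hℓ := (Fact.out : ℓ.Prime)
  have hq2 : 2 ≤ Fintype.card F := Fintype.one_lt_card
  have hq3 : 3 ≤ Fintype.card F := by
    obtain ⟨k, hk⟩ := hodd
    omega
  have hG : Nat.card (SL F) = (Fintype.card F - 1) * Fintype.card F * (Fintype.card F + 1) := by
    rw [Nat.card_eq_fintype_card, Cfsg.Agent.S2433.card_SL]
  by_cases hdvd : ℓ ∣ Nat.card (SL F)
  · rw [mk_SL hodd ℓ]
    by_cases h2 : ℓ = 2
    · subst h2
      rw [gform_two _ hodd hq3]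
      have h8 : (Fintype.card F % 8 = 1 ∨ Fintype.card F % 8 = 7) ∨
          (Fintype.card F % 8 = 3 ∨ Fintype.card F % 8 = 5) := by
        obtain ⟨k, hk⟩ := hodd
        omega
      rcases h8 with h | h
      · exact (mk_normalizer_two_a hodd S h).symm
      · exact (mk_normalizer_two_b_of (fun h1 h2 => mk_two_of_card_24 h1 h2)
          (fun S' _ h1 h2 h3 h4 => commutator_index_three S' h1 h2 h3 h4) hodd S h).symm
    · rw [hG] at hdvd
      rcases (Nat.Prime.dvd_mul hℓ).mp hdvd with h | h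
      · rcases (Nat.Prime.dvd_mul hℓ).mp h with h | h
        · -- split torus
          have hℓ3 : 3 ≤ ℓ := by
            have := hℓ.two_le
            omega
          have hle : ℓ ≤ Fintype.card F - 1 := Nat.le_of_dvd (by omega) h
          have h5 : 5 ≤ Fintype.card F := by
            obtain ⟨k, hk⟩ := hodd
            omega
          obtain ⟨T, hTab, hTc, hcent, hN, hk⟩ := split_torus hodd h5
          rw [gform_split _ ℓ hodd hq3 hℓ h2 h, ← hk]
          have hidx : ¬ ℓ ∣ T.index := by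
            have e := T.card_mul_index
            rw [hTc, hG, mul_assoc] at e
            have e' : T.index = Fintype.card F * (Fintype.card F + 1) :=
              Nat.eq_of_mul_eq_mul_left (by omega) e
            rw [e']
            exact not_dvd_split _ ℓ hq3 hℓ h2 h
          exact (torus_case ℓ h2 T hTab hcent (by rw [hTc]; exact h) hidx (by rw [hN, hTc]) S).symm
        · -- defining characteristic
          rw [gform_char _ ℓ hodd hq3 hℓ h]
          obtain ⟨P, hP⟩ := exists_sylow_normalizer_eq_bor ℓ h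
          obtain ⟨e⟩ := normalizer_sylow_equiv ℓ S P
          rw [mk_congr (e.trans (MulEquiv.subgroupCongr hP)) ℓ, mk_bor hodd ℓ h]
      · -- non-split torus
        obtain ⟨T, hTab, hTc, hcent, hN, hk⟩ := nonsplit_torus hodd
        rw [gform_nonsplit _ ℓ hodd hq3 hℓ h2 h, ← hk]
        have hidx : ¬ ℓ ∣ T.index := by
          have e := T.card_mul_index
          rw [hTc, hG, mul_comm ((Fintype.card F - 1) * Fintype.card F)] at e
          have e' : T.index = (Fintype.card F - 1) * Fintype.card F :=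
            Nat.eq_of_mul_eq_mul_left (by omega) e
          rw [e']
          exact not_dvd_nonsplit _ ℓ hq3 hℓ h2 h
        exact (torus_case ℓ h2 T hTab hcent (by rw [hTc]; exact h) hidx (by rw [hN, hTc]) S).symm
  · obtain ⟨e⟩ := normalizer_equiv_of_not_dvd ℓ S hdvd
    exact (mk_congr e ℓ).symm

end Assembly

end Cfsg.Agent.Lib.Helper48.Mc
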