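import Mathlib
import Cfsg.Agent.Lib.Helper48.MulA
import Cfsg.Agent.S0248
import Cfsg.Agent.S2117
import Cfsg.Agent.Lib.Helper23.MulCORE
import Cfsg.Agent.Lib.Helper87.MulHA
import Cfsg.Agent.Lib.Helper87.MulHBC4
import Cfsg.Agent.Lib.Helper5.MulHD5
import Cfsg.Agent.Lib.Helper5.MulCEN
import Cfsg.Agent.Lib.Helper40.MulHE4
import Cfsg.Agent.Lib.Helper40.MulTRIV
import Cfsg.Agent.Lib.Helper14.MulHB3
import Cfsg.Agent.Lib.Helper30.MulHC3
import Cfsg.Agent.Lib.Helper30.MulHDT
import Cfsg.Agent.Lib.Helper23.MulHD3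
import Cfsg.Agent.Lib.Lead.MulCUBES
import Cfsg.Agent.Lib.Lead.MulFLD
import Cfsg.Agent.Lib.Helper46.MulCOVER
import Cfsg.Agent.Lib.Helper17.MulHE3

set_option autoImplicit false
open scoped commutatorElement

/-! # S2086: assembly (helper48) -/

namespace Cfsg.Agent.Lib.Helper48.Mul

open Cfsg.Agent.Lib.Helper48 Cfsg.Agent.Lib.Helper48.St Cfsg.Agent.Lib.Helper70

universe u v

/-! ## Assembly (helper48) -/

section assembly

variable {Γ : Type u} [Group Γ] {K : Type*} [Field K] [Fintype K] {n : ℕ}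

theorem no_four_distinct_three (σ : Γ →* Matrix.SpecialLinearGroup (Fin 3) K) :
    HypD σ (slX : Fin 3 → Fin 3 → K → Matrix.SpecialLinearGroup (Fin 3) K) := by
  intro i j k l hij hik hil hjk hjl hkl
  exfalso
  have h1 := Fin.val_ne_of_ne hij
  have h2 := Fin.val_ne_of_ne hik
  have h3 := Fin.val_ne_of_ne hil
  have h4 := Fin.val_ne_of_ne hjk
  have h5 := Fin.val_ne_of_ne hjl
  have h6 := Fin.val_ne_of_ne hkl
  omega

theorem sln_section (hn : 3 ≤ n)
    (h32 : ¬ (n = 3 ∧ Fintype.card K = 2)) (h34 : ¬ (n = 3 ∧ Fintype.card K = 4))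
    (h42 : ¬ (n = 4 ∧ Fintype.card K = 2))
    (σ : Γ →* Matrix.SpecialLinearGroup (Fin n) K) (hs : Function.Surjective σ)
    (hc : σ.ker ≤ Subgroup.center Γ) :
    ∃ ψ : Matrix.SpecialLinearGroup (Fin n) K →* Γ, σ.comp ψ = MonoidHom.id _ := by
  have hA : HypA σ slX := hypA σ hs hc hn slX slX_rel
  have key : HypB σ slX ∧ HypC σ slX ∧ HypD σ slX ∧ HypE σ slX := by
    rcases Nat.lt_or_ge n 4 with h | h
    · have h3 : n = 3 := by omega
      subst h3
      obtain ⟨s, hs0, hs3⟩ := exists_cube_ne_one (K := K) (fun h => h32 ⟨rfl, h⟩) (fun h => h34 ⟨rfl, h⟩)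
      have hB := hypB_torus σ hs hc s hs0 hs3
      have hC := hypC_torus σ hs hc s hs0 hs3
      exact ⟨hB, hC, no_four_distinct_three σ,
        hypE_three (fun S hS => cubes_top (fun h => h34 ⟨rfl, h⟩) S hS) σ hs hc hA hB hC⟩
    · have hB := hypB4 σ hs hc h slX slX_rel
      have hC := hypC4 σ hs hc h slX slX_rel
      have hD : HypD σ slX := by
        rcases Nat.lt_or_ge n 5 with h5 | h5
        · have h4 : n = 4 := by omega
          subst h4
          rcases Nat.lt_or_ge (Fintype.card K) 4 with hq | hq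
          · have hq3 : Fintype.card K = 3 := by
              have : Fintype.card K ≠ 2 := fun h => h42 ⟨rfl, h⟩
              have hK1 : 1 < Fintype.card K := Fintype.one_lt_card
              omega
            exact hypD_three hq3 σ hs hc
          · obtain ⟨s, hs0, hs2⟩ := exists_sq_ne_one (K := K) hq
            exact hypD_torus σ hs hc s hs0 hs2
        · exact hypD5 σ hs hc h5 slX slX_rel
      exact ⟨hB, hC, hD, hypE4 σ hs hc h slX slX_rel hC hD⟩
  obtain ⟨hB, hC, hD, hE⟩ := key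
  obtain ⟨Y, hY, hσY⟩ := core σ hs hc hn slX slX_rel hA hB hC hD hE
  obtain ⟨ψ, hψ⟩ := sln_hom hn Y hY
  refine ⟨ψ, sln_hom_eq_id (by omega) _ (fun i j hij a => ?_)⟩
  rw [MonoidHom.comp_apply, hψ i j hij a, hσY i j hij a]

end assembly

/-- `SL_n(F)` has trivial Schur multiplier outside the exceptional cases. -/
theorem sl_trivial_multiplier {F : Type u} [Field F] [Fintype F] (n : ℕ) (hn : 2 ≤ n)
    (h2 : n = 2 → 4 ≤ Fintype.card F)
    (hexc : (n, Fintype.card F) ∉ ({(2, 4), (2, 9), (3, 2), (3, 4), (4, 2)} : Set (ℕ × ℕ))) :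
    Cfsg.HasCyclicSchurMultiplier (Matrix.SpecialLinearGroup (Fin n) F) 1 := by
  simp only [Set.mem_insert_iff, Set.mem_singleton_iff, Prod.mk.injEq, not_or] at hexc
  obtain ⟨e24, e29, e32, e34, e42⟩ := hexc
  rcases Nat.lt_or_ge n 3 with h | h
  · have hn2 : n = 2 := by omega
    subst hn2
    exact Cfsg.Agent.S2117.result (fun h => e24 ⟨rfl, h⟩) (fun h => e29 ⟨rfl, h⟩)
  · apply trivial_of_sections
    intro Γ _ _ σ hσ
    exact sln_section h e32 e34 e42 σ hσ.1 hσ.2.1

/-- **S2086** -/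
theorem psl_multiplier {F : Type u} [Field F] [Fintype F] {q : ℕ} (hF : Fintype.card F = q) (n : ℕ)
    (hn : 2 ≤ n) (h2 : n = 2 → 4 ≤ q)
    (hexc : (n, q) ∉ ({(2, 4), (2, 9), (3, 2), (3, 4), (4, 2)} : Set (ℕ × ℕ))) :
    Cfsg.HasCyclicSchurMultiplier (Matrix.ProjectiveSpecialLinearGroup (Fin n) F) (Nat.gcd n (q - 1)) := by
  subst hF
  have hX := sl_trivial_multiplier (F := F) n hn h2 hexc
  have hperf : commutator (Matrix.SpecialLinearGroup (Fin n) F) = ⊤ := by
    rcases Nat.lt_or_ge n 3 with h | h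
    · have hn2 : n = 2 := by omega
      subst hn2
      obtain ⟨s, hs0, hs2⟩ := exists_sq_ne_one (K := F) (h2 rfl)
      exact Matrix.SL2.commutator_eq_top hs0 hs2
    · exact Cfsg.Agent.S0248.result n h
  let σ₀ : Matrix.SpecialLinearGroup (Fin n) F →* Matrix.ProjectiveSpecialLinearGroup (Fin n) F :=
    QuotientGroup.mk' (Subgroup.center (Matrix.SpecialLinearGroup (Fin n) F))
  have hker : σ₀.ker = Subgroup.center (Matrix.SpecialLinearGroup (Fin n) F) := QuotientGroup.ker_mk' _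
  have hstem : Cfsg.IsStemExtension σ₀ := by
    refine ⟨QuotientGroup.mk'_surjective _, ?_, ?_⟩
    · rw [hker]
    · rw [hperf]; exact le_top
  obtain ⟨e⟩ := center_equiv_zmod (F := F) n hn
  exact hasSchurMultiplier_of_trivial_cover σ₀ hstem hX ⟨(MulEquiv.subgroupCongr hker).trans e⟩

end Cfsg.Agent.Lib.Helper48.Mul
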