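import Mathlib

set_option autoImplicit false

namespace Cfsg.Agent.Lib.Helper48

variable {K : Type*} [Field K] {G : Type*} [Group G]

/-- the two families of Steinberg relations in rank one -/
structure SPRel (X : Bool → K → G) : Prop where
  add : ∀ (b : Bool) (t u : K), X b t * X b u = X b (t + u)
  conj : ∀ (b : Bool) (t u : K), t ≠ 0 →
    (X b t * X (!b) (-t⁻¹) * X b t) * X b u * (X b t * X (!b) (-t⁻¹) * X b t)⁻¹ = X (!b) (-(t⁻¹ ^ 2 * u))

/-- the element `w_b(t)` -/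
def spW (X : Bool → K → G) (b : Bool) (t : K) : G := X b t * X (!b) (-t⁻¹) * X b t

namespace SPRel

variable {X : Bool → K → G} (hX : SPRel X)
include hX

theorem zero (b : Bool) : X b 0 = 1 := by
  have h := hX.add b 0 0
  rw [add_zero] at h
  exact mul_eq_left.mp h

theorem inv (b : Bool) (t : K) : (X b t)⁻¹ = X b (-t) := by
  rw [inv_eq_iff_mul_eq_one, hX.add, add_neg_cancel, hX.zero]

theorem W_inv (b : Bool) (t : K) : (spW X b t)⁻¹ = spW X b (-t) := by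
  unfold spW
  rw [mul_inv_rev, mul_inv_rev, hX.inv, hX.inv, inv_neg, neg_neg, mul_assoc]

theorem cj1 (b : Bool) (t u : K) (ht : t ≠ 0) :
    MulAut.conj (spW X b t) (X b u) = X (!b) (-(t⁻¹ ^ 2 * u)) := by
  rw [MulAut.conj_apply]
  exact hX.conj b t u ht

theorem cj2 (b : Bool) (t u : K) (ht : t ≠ 0) :
    MulAut.conj (spW X b t)⁻¹ (X b u) = X (!b) (-(t⁻¹ ^ 2 * u)) := by
  rw [hX.W_inv, hX.cj1 b (-t) u (neg_ne_zero.mpr ht)]
  congr 2
  rw [inv_neg, neg_sq]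

theorem cj3 (b : Bool) (t v : K) (ht : t ≠ 0) :
    MulAut.conj (spW X b t) (X (!b) v) = X b (-(t ^ 2 * v)) := by
  have h := hX.cj2 b t (-(t ^ 2 * v)) ht
  have e : -(t⁻¹ ^ 2 * -(t ^ 2 * v)) = v := by field_simp
  rw [e] at h
  rw [← h, ← MulAut.mul_apply, ← map_mul, mul_inv_cancel, map_one, MulAut.one_apply]

theorem cj4 (b : Bool) (t v : K) (ht : t ≠ 0) :
    MulAut.conj (spW X b t)⁻¹ (X (!b) v) = X b (-(t ^ 2 * v)) := by
  have h := hX.cj1 b t (-(t ^ 2 * v)) ht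
  have e : -(t⁻¹ ^ 2 * -(t ^ 2 * v)) = v := by field_simp
  rw [e] at h
  rw [← h, ← MulAut.mul_apply, ← map_mul, inv_mul_cancel, map_one, MulAut.one_apply]

theorem W_swap (b : Bool) (t : K) (ht : t ≠ 0) : spW X b t = spW X (!b) (-t⁻¹) := by
  have h1 : spW X b t = MulAut.conj (spW X b t) (X b t * X (!b) (-t⁻¹) * X b t) := by
    rw [MulAut.conj_apply]; unfold spW; group
  rw [h1, map_mul, map_mul, hX.cj1 b t t ht, hX.cj3 b t (-t⁻¹) ht]
  unfold spW
  rw [Bool.not_not]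
  have e1 : -(t⁻¹ ^ 2 * t) = -t⁻¹ := by field_simp
  have e2 : -(t ^ 2 * -t⁻¹) = t := by field_simp
  have e3 : -(-t⁻¹)⁻¹ = t := by field_simp
  rw [e1, e2, e3]

end SPRel

end Cfsg.Agent.Lib.Helper48
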