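import Cfsg.Agent.Lib.Helper48.SPa

set_option autoImplicit false

namespace Cfsg.Agent.Lib.Helper48

variable {K : Type*} [Field K] {G : Type*} [Group G]

theorem mul_eq_conj_mul' (a b : G) : a * b = MulAut.conj a b * a := by
  simp [MulAut.conj_apply]

/-- the element `h(t) = w(t) w(1)⁻¹` -/
def spH (X : Bool → K → G) (t : K) : G := spW X true t * (spW X true 1)⁻¹

namespace SPRel

variable {X : Bool → K → G} (hX : SPRel X)
include hX

theorem W_x (t u : K) (ht : t ≠ 0) :
    spW X true t * X true u = X false (-(t⁻¹ ^ 2 * u)) * spW X true t := by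
  rw [mul_eq_conj_mul', hX.cj1 true t u ht]; rfl

theorem W_y (t u : K) (ht : t ≠ 0) :
    spW X true t * X false u = X true (-(t ^ 2 * u)) * spW X true t := by
  rw [mul_eq_conj_mul']
  have := hX.cj3 true t u ht
  rw [show (!true) = false from rfl] at this
  rw [this]

theorem Wi_x (t u : K) (ht : t ≠ 0) :
    (spW X true t)⁻¹ * X true u = X false (-(t⁻¹ ^ 2 * u)) * (spW X true t)⁻¹ := by
  rw [mul_eq_conj_mul', hX.cj2 true t u ht]; rfl

theorem Wi_y (t u : K) (ht : t ≠ 0) :
    (spW X true t)⁻¹ * X false u = X true (-(t ^ 2 * u)) * (spW X true t)⁻¹ := by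
  rw [mul_eq_conj_mul']
  have := hX.cj4 true t u ht
  rw [show (!true) = false from rfl] at this
  rw [this]

theorem h_x (t u : K) (ht : t ≠ 0) :
    spH X t * X true u = X true (t ^ 2 * u) * spH X t := by
  unfold spH
  rw [mul_assoc, hX.Wi_x 1 u one_ne_zero, ← mul_assoc, hX.W_y t _ ht, mul_assoc]
  congr 2
  field_simp

theorem h_y (t u : K) (ht : t ≠ 0) :
    spH X t * X false u = X false (t⁻¹ ^ 2 * u) * spH X t := by
  unfold spH
  rw [mul_assoc, hX.Wi_y 1 u one_ne_zero, ← mul_assoc, hX.W_x t _ ht, mul_assoc]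
  congr 2
  field_simp

theorem W_W (s t : K) (hs : s ≠ 0) (ht : t ≠ 0) :
    spW X true s * spW X true t = spW X true (s ^ 2 * t⁻¹) * spW X true s := by
  have h0 : s ^ 2 * t⁻¹ ≠ 0 := mul_ne_zero (pow_ne_zero 2 hs) (inv_ne_zero ht)
  rw [hX.W_swap true (s ^ 2 * t⁻¹) h0]
  conv_lhs => rw [show spW X true t = X true t * X false (-t⁻¹) * X true t from rfl]
  rw [← mul_assoc, ← mul_assoc, hX.W_x s t hs, mul_assoc (X false _), hX.W_y s _ hs,
    mul_assoc (X false _), mul_assoc (X true _), hX.W_x s t hs]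
  unfold spW
  rw [show (!(!true)) = true from rfl, show (!true) = false from rfl]
  have e1 : -(s ^ 2 * t⁻¹)⁻¹ = -(s⁻¹ ^ 2 * t) := by field_simp
  have e2 : -(-(s⁻¹ ^ 2 * t))⁻¹ = s ^ 2 * t⁻¹ := by field_simp
  have e3 : -(s ^ 2 * -t⁻¹) = s ^ 2 * t⁻¹ := by ring
  rw [e1, e2, e3]
  simp only [mul_assoc]

theorem W_eq (t : K) : spW X true t = spH X t * spW X true 1 := by
  unfold spH; group

theorem w_h (t : K) (ht : t ≠ 0) :
    spW X true 1 * spH X t = spH X t⁻¹ * spW X true 1 := by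
  unfold spH
  rw [← mul_assoc, hX.W_W 1 t one_ne_zero ht, one_pow, one_mul]
  group

theorem h_neg_one : spH X (-1) = (spW X true 1)⁻¹ * (spW X true 1)⁻¹ := by
  unfold spH
  rw [← hX.W_inv]

theorem w_sq : spW X true 1 * spW X true 1 = (spH X (-1))⁻¹ := by
  rw [hX.h_neg_one, mul_inv_rev, inv_inv]

theorem h_one : spH X 1 = 1 := by
  unfold spH; group

theorem I2 (s t : K) (hs : s ≠ 0) (ht : t ≠ 0) :
    spH X s * spH X t = spH X (s ^ 2 * t) * spH X s⁻¹ := by
  have h := hX.W_W s t⁻¹ hs (inv_ne_zero ht)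
  rw [inv_inv, hX.W_eq s, hX.W_eq t⁻¹, hX.W_eq (s ^ 2 * t)] at h
  have h1 := hX.w_h t⁻¹ (inv_ne_zero ht)
  rw [inv_inv] at h1
  have h2 := hX.w_h s hs
  have h3 : spH X s * spH X t * spW X true 1 * spW X true 1
      = spH X (s ^ 2 * t) * spH X s⁻¹ * spW X true 1 * spW X true 1 := by
    calc spH X s * spH X t * spW X true 1 * spW X true 1
        = spH X s * (spH X t * spW X true 1) * spW X true 1 := by group
      _ = spH X s * (spW X true 1 * spH X t⁻¹) * spW X true 1 := by rw [h1]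
      _ = spH X s * spW X true 1 * (spH X t⁻¹ * spW X true 1) := by group
      _ = spH X (s ^ 2 * t) * spW X true 1 * (spH X s * spW X true 1) := h
      _ = spH X (s ^ 2 * t) * (spW X true 1 * spH X s) * spW X true 1 := by group
      _ = spH X (s ^ 2 * t) * (spH X s⁻¹ * spW X true 1) * spW X true 1 := by rw [h2]
      _ = spH X (s ^ 2 * t) * spH X s⁻¹ * spW X true 1 * spW X true 1 := by group
  exact mul_right_cancel (mul_right_cancel h3)

end SPRel

end Cfsg.Agent.Lib.Helper48
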