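import Cfsg.Agent.Lib.Helper48.SPb

set_option autoImplicit false

namespace Cfsg.Agent.Lib.Helper48

variable {K : Type*} [Field K] {G : Type*} [Group G]

namespace SPRel

variable {X : Bool → K → G} (hX : SPRel X)
include hX

theorem y_eq (t : K) : X false (-t⁻¹) = X true (-t) * spW X true t * X true (-t) := by
  unfold spW
  rw [show (!true) = false from rfl]
  have h1 : X true (-t) * X true t = 1 := by rw [hX.add, neg_add_cancel, hX.zero]
  have h2 : X true t * X true (-t) = 1 := by rw [hX.add, add_neg_cancel, hX.zero]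
  calc X false (-t⁻¹) = (X true (-t) * X true t) * X false (-t⁻¹) * (X true t * X true (-t)) := by
        rw [h1, h2, one_mul, mul_one]
    _ = _ := by group

theorem x_W_W (u r : K) (hr : r ≠ 0) :
    X true u * spW X true 1 * spW X true r = spW X true 1 * spW X true r * X true (r ^ 2 * u) := by
  have h1 : X true u * spW X true 1 = spW X true 1 * X false (-u) := by
    rw [hX.W_y 1 (-u) one_ne_zero]; congr 2; ring
  have h2 : X false (-u) * spW X true r = spW X true r * X true (r ^ 2 * u) := by
    rw [hX.W_x r _ hr]; congr 2; field_simp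
  rw [h1, mul_assoc, h2, mul_assoc]

theorem R3 (r : K) (hr : r ≠ 0) (hr1 : 1 + r ≠ 0) :
    spW X true (-(1 + r)⁻¹) * spW X true 1 * spW X true r = spW X true (r / (1 + r)) := by
  -- additivity of y
  have hadd : X false (-(1:K)⁻¹) * X false (-r⁻¹) = X false (-(r / (1 + r))⁻¹) := by
    rw [hX.add]; congr 1; field_simp; ring
  rw [hX.y_eq 1, hX.y_eq r, hX.y_eq (r / (1 + r))] at hadd
  -- move the outer x's
  have hc : spW X true 1 * X true (-(1 + r)) * spW X true r
      = X true (1 + r)⁻¹ * spW X true (r / (1 + r)) * X true (r ^ 2 / (1 + r)) := by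
    have e1 : X true (-(1 + r)) = X true (-1) * X true (-r) := by rw [hX.add]; congr 1; ring
    have e2 : X true (1 + r)⁻¹ = X true 1 * X true (-(r / (1 + r))) := by
      rw [hX.add]; congr 1; field_simp; ring
    have e3 : X true (r ^ 2 / (1 + r)) = X true (-(r / (1 + r))) * X true r := by
      rw [hX.add]; congr 1; field_simp; ring
    have i1 : X true 1 * X true (-1) = 1 := by rw [hX.add, add_neg_cancel, hX.zero]
    have i2 : X true (-r) * X true r = 1 := by rw [hX.add, neg_add_cancel, hX.zero]
    rw [e1, e2, e3]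
    calc spW X true 1 * (X true (-1) * X true (-r)) * spW X true r
        = (X true 1 * X true (-1)) * spW X true 1 * (X true (-1) * X true (-r)) * spW X true r
            * (X true (-r) * X true r) := by rw [i1, i2, one_mul, mul_one]
      _ = X true 1 * ((X true (-1) * spW X true 1 * X true (-1)) *
            (X true (-r) * spW X true r * X true (-r))) * X true r := by group
      _ = X true 1 * (X true (-(r / (1 + r))) * spW X true (r / (1 + r)) * X true (-(r / (1 + r))))
            * X true r := by rw [hadd]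
      _ = _ := by group
  have hd : spW X true 1 * X true (-(1 + r)) = X false (1 + r) * spW X true 1 := by
    rw [hX.W_x 1 _ one_ne_zero]; congr 2; ring
  have he : X false (1 + r) = X true (1 + r)⁻¹ * spW X true (-(1 + r)⁻¹) * X true (1 + r)⁻¹ := by
    have := hX.y_eq (-(1 + r)⁻¹)
    rw [neg_neg] at this
    rw [← this]; congr 1; field_simp
  rw [hd, he] at hc
  have hf := hX.x_W_W (1 + r)⁻¹ r hr
  have hc2 : X true (1 + r)⁻¹ * (spW X true (-(1 + r)⁻¹) * spW X true 1 * spW X true r
        * X true (r ^ 2 * (1 + r)⁻¹))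
      = X true (1 + r)⁻¹ * (spW X true (r / (1 + r)) * X true (r ^ 2 * (1 + r)⁻¹)) := by
    calc X true (1 + r)⁻¹ * (spW X true (-(1 + r)⁻¹) * spW X true 1 * spW X true r
          * X true (r ^ 2 * (1 + r)⁻¹))
        = X true (1 + r)⁻¹ * spW X true (-(1 + r)⁻¹) *
            (spW X true 1 * spW X true r * X true (r ^ 2 * (1 + r)⁻¹)) := by group
      _ = X true (1 + r)⁻¹ * spW X true (-(1 + r)⁻¹) *
            (X true (1 + r)⁻¹ * spW X true 1 * spW X true r) := by rw [hf]
      _ = X true (1 + r)⁻¹ * spW X true (-(1 + r)⁻¹) * X true (1 + r)⁻¹ * spW X true 1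
            * spW X true r := by group
      _ = X true (1 + r)⁻¹ * spW X true (r / (1 + r)) * X true (r ^ 2 / (1 + r)) := hc
      _ = _ := by rw [div_eq_mul_inv (r ^ 2), mul_assoc]
  exact mul_right_cancel (mul_left_cancel hc2)

theorem I3 (r : K) (hr : r ≠ 0) (hr1 : 1 + r ≠ 0) :
    spH X (-(1 + r)⁻¹) * (spH X (-1))⁻¹ * spH X r = spH X (r / (1 + r)) := by
  have h := hX.R3 r hr hr1
  rw [hX.W_eq (-(1 + r)⁻¹), hX.W_eq r, hX.W_eq (r / (1 + r))] at h
  rw [← hX.w_sq]
  have : spH X (-(1 + r)⁻¹) * (spW X true 1 * spW X true 1) * spH X r * spW X true 1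
      = spH X (r / (1 + r)) * spW X true 1 := by
    rw [← h]; group
  exact mul_right_cancel this

end SPRel

end Cfsg.Agent.Lib.Helper48
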