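import Cfsg.Agent.Lib.Helper48.SPc

set_option autoImplicit false

namespace Cfsg.Agent.Lib.Helper48

open Matrix

variable {K : Type*} [Field K] {G : Type*} [Group G]

/-- upper elementary matrix -/
def spXm (t : K) : Matrix.SpecialLinearGroup (Fin 2) K :=
  ⟨!![1, t; 0, 1], by simp [Matrix.det_fin_two_of]⟩

/-- lower elementary matrix -/
def spYm (t : K) : Matrix.SpecialLinearGroup (Fin 2) K :=
  ⟨!![1, 0; t, 1], by simp [Matrix.det_fin_two_of]⟩

/-- the two families of elementary matrices -/
def spM (b : Bool) (t : K) : Matrix.SpecialLinearGroup (Fin 2) K :=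
  if b then spXm t else spYm t

theorem spM_true (t : K) : (spM true t : Matrix.SpecialLinearGroup (Fin 2) K) = spXm t := rfl
theorem spM_false (t : K) : (spM false t : Matrix.SpecialLinearGroup (Fin 2) K) = spYm t := rfl

theorem spXm_coe (t : K) : (spXm t : Matrix (Fin 2) (Fin 2) K) = !![1, t; 0, 1] := rfl
theorem spYm_coe (t : K) : (spYm t : Matrix (Fin 2) (Fin 2) K) = !![1, 0; t, 1] := rfl

theorem sl2_ext {A B : Matrix.SpecialLinearGroup (Fin 2) K}
    (h00 : (A : Matrix (Fin 2) (Fin 2) K) 0 0 = (B : Matrix (Fin 2) (Fin 2) K) 0 0)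
    (h01 : (A : Matrix (Fin 2) (Fin 2) K) 0 1 = (B : Matrix (Fin 2) (Fin 2) K) 0 1)
    (h10 : (A : Matrix (Fin 2) (Fin 2) K) 1 0 = (B : Matrix (Fin 2) (Fin 2) K) 1 0)
    (h11 : (A : Matrix (Fin 2) (Fin 2) K) 1 1 = (B : Matrix (Fin 2) (Fin 2) K) 1 1) : A = B := by
  apply Subtype.ext
  ext i j
  fin_cases i <;> fin_cases j
  · exact h00
  · exact h01
  · exact h10
  · exact h11

theorem spM_rel : SPRel (spM : Bool → K → Matrix.SpecialLinearGroup (Fin 2) K) := by
  constructor
  · intro b t u
    cases b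
    · rw [spM_false, spM_false, spM_false]
      apply sl2_ext <;>
        simp [spYm_coe, Matrix.mul_apply, Fin.sum_univ_two]
    · rw [spM_true, spM_true, spM_true]
      apply sl2_ext <;>
        simp [spXm_coe, spYm_coe, Matrix.mul_apply, Fin.sum_univ_two]
      ring
  · intro b t u ht
    cases b
    · rw [show (!false) = true from rfl, spM_false, spM_false, spM_true, spM_true]
      rw [mul_inv_eq_iff_eq_mul]
      apply sl2_ext
      all_goals simp [spXm_coe, spYm_coe, Matrix.mul_apply, Fin.sum_univ_two, ht]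
      all_goals (try field_simp)
      all_goals (try ring)
    · rw [show (!true) = false from rfl, spM_false, spM_false, spM_true, spM_true]
      rw [mul_inv_eq_iff_eq_mul]
      apply sl2_ext
      all_goals simp [spXm_coe, spYm_coe, Matrix.mul_apply, Fin.sum_univ_two, ht]
      all_goals (try field_simp)
      all_goals (try ring)

theorem spW_spM_coe (t : K) (ht : t ≠ 0) :
    ((spW spM true t : Matrix.SpecialLinearGroup (Fin 2) K) : Matrix (Fin 2) (Fin 2) K)
      = !![0, t; -t⁻¹, 0] := by
  unfold spW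
  rw [show (!true) = false from rfl, spM_false, spM_true]
  ext i j
  fin_cases i <;> fin_cases j <;>
    simp [spXm_coe, spYm_coe, Matrix.mul_apply, Fin.sum_univ_two, ht]

theorem spH_spM_coe (t : K) (ht : t ≠ 0) :
    ((spH spM t : Matrix.SpecialLinearGroup (Fin 2) K) : Matrix (Fin 2) (Fin 2) K)
      = !![t, 0; 0, t⁻¹] := by
  unfold spH
  rw [Matrix.SpecialLinearGroup.coe_mul, Matrix.SpecialLinearGroup.coe_inv,
    spW_spM_coe t ht, spW_spM_coe 1 one_ne_zero]
  ext i j
  fin_cases i <;> fin_cases j <;>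
    simp [Matrix.mul_apply, Fin.sum_univ_two, Matrix.adjugate_fin_two_of]

end Cfsg.Agent.Lib.Helper48
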