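import Cfsg.Agent.Lib.Helper48.SPd

set_option autoImplicit false

namespace Cfsg.Agent.Lib.Helper48

open Matrix

variable {K : Type*} [Field K] {G : Type*} [Group G]

/-- the torus subgroup -/
def spHs (X : Bool → K → G) : Subgroup G :=
  Subgroup.closure {g | ∃ t : K, t ≠ 0 ∧ g = spH X t}

/-- Bruhat normal forms -/
def spBr (X : Bool → K → G) (g : G) : Prop :=
  (∃ u : K, ∃ k ∈ spHs X, g = X true u * k) ∨
    (∃ u : K, ∃ k ∈ spHs X, ∃ v : K, g = X true u * k * spW X true 1 * X true v)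

namespace SPRel

variable {X : Bool → K → G} (hX : SPRel X)
  (π : G →* Matrix.SpecialLinearGroup (Fin 2) K) (hπ : ∀ b t, π (X b t) = spM b t)
include hX

omit hX in
include hπ in
theorem pi_W (t : K) : π (spW X true t) = spW spM true t := by
  unfold spW; simp [hπ]

omit hX in
include hπ in
theorem pi_H (t : K) : π (spH X t) = spH spM t := by
  unfold spH; rw [map_mul, map_inv, pi_W π hπ, pi_W π hπ]

theorem spH_mem (t : K) (ht : t ≠ 0) : spH X t ∈ spHs X :=
  Subgroup.subset_closure ⟨t, ht, rfl⟩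

include hπ in
theorem Hs_prop : ∀ g ∈ spHs X, ∃ a : K, a ≠ 0 ∧
    (π g : Matrix (Fin 2) (Fin 2) K) = !![a, 0; 0, a⁻¹] ∧
    (∀ u, g * X true u = X true (a ^ 2 * u) * g) ∧
    (∀ u, g * X false u = X false (a⁻¹ ^ 2 * u) * g) := by
  intro g hg
  refine Subgroup.closure_induction (p := fun g _ => ∃ a : K, a ≠ 0 ∧
    (π g : Matrix (Fin 2) (Fin 2) K) = !![a, 0; 0, a⁻¹] ∧
    (∀ u, g * X true u = X true (a ^ 2 * u) * g) ∧
    (∀ u, g * X false u = X false (a⁻¹ ^ 2 * u) * g)) ?_ ?_ ?_ ?_ hg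
  · rintro x ⟨t, ht, rfl⟩
    refine ⟨t, ht, ?_, fun u => hX.h_x t u ht, fun u => hX.h_y t u ht⟩
    rw [pi_H π hπ, spH_spM_coe t ht]
  · refine ⟨1, one_ne_zero, ?_, fun u => by simp, fun u => by simp⟩
    rw [map_one]
    ext i j
    fin_cases i <;> fin_cases j <;> simp
  · rintro x y _ _ ⟨a, ha, hxa, hx1, hx2⟩ ⟨b, hb, hyb, hy1, hy2⟩
    refine ⟨a * b, mul_ne_zero ha hb, ?_, fun u => ?_, fun u => ?_⟩
    · rw [map_mul, Matrix.SpecialLinearGroup.coe_mul, hxa, hyb]
      ext i j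
      fin_cases i <;> fin_cases j <;> simp [Matrix.mul_apply, Fin.sum_univ_two, mul_comm]
    · rw [mul_assoc, hy1, ← mul_assoc, hx1, mul_assoc]
      congr 2; ring
    · rw [mul_assoc, hy2, ← mul_assoc, hx2, mul_assoc]
      congr 2; rw [mul_inv]; ring
  · rintro x _ ⟨a, ha, hxa, hx1, hx2⟩
    refine ⟨a⁻¹, inv_ne_zero ha, ?_, fun u => ?_, fun u => ?_⟩
    · rw [map_inv, Matrix.SpecialLinearGroup.coe_inv, hxa, Matrix.adjugate_fin_two_of]
      simp
    · rw [inv_mul_eq_iff_eq_mul, ← mul_assoc, hx1, mul_assoc, mul_inv_cancel, mul_one]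
      congr 1; field_simp
    · rw [inv_mul_eq_iff_eq_mul, ← mul_assoc, hx2, mul_assoc, mul_inv_cancel, mul_one]
      congr 1; field_simp

theorem Hs_w : ∀ k ∈ spHs X, spW X true 1 * k * (spW X true 1)⁻¹ ∈ spHs X := by
  have : spHs X ≤ (spHs X).comap (MulAut.conj (spW X true 1)).toMonoidHom := by
    unfold spHs
    rw [Subgroup.closure_le]
    rintro x ⟨t, ht, rfl⟩
    change MulAut.conj (spW X true 1) (spH X t) ∈ Subgroup.closure _
    rw [MulAut.conj_apply, hX.w_h t ht, mul_assoc, mul_inv_cancel, mul_one]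
    exact Subgroup.subset_closure ⟨t⁻¹, inv_ne_zero ht, rfl⟩
  intro k hk
  exact this hk

theorem w_sq_mem : spW X true 1 * spW X true 1 ∈ spHs X := by
  rw [hX.w_sq]
  exact inv_mem (hX.spH_mem (-1) (neg_ne_zero.mpr one_ne_zero))

theorem Hs_ww : ∀ k ∈ spHs X, spW X true 1 * k * spW X true 1 ∈ spHs X := by
  intro k hk
  have : spW X true 1 * k * spW X true 1
      = (spW X true 1 * k * (spW X true 1)⁻¹) * (spW X true 1 * spW X true 1) := by group
  rw [this]
  exact mul_mem (hX.Hs_w k hk) hX.w_sq_mem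

omit hX in
theorem br_one : spBr X (1 : G) → True := fun _ => trivial

theorem br_one' : spBr X (1 : G) := by
  left
  exact ⟨0, 1, one_mem _, by rw [hX.zero, one_mul]⟩

theorem br_x (t : K) (g : G) (hg : spBr X g) : spBr X (X true t * g) := by
  rcases hg with ⟨u, k, hk, rfl⟩ | ⟨u, k, hk, v, rfl⟩
  · left
    exact ⟨t + u, k, hk, by rw [← mul_assoc, hX.add]⟩
  · right
    exact ⟨t + u, k, hk, v, by simp only [← mul_assoc, hX.add]⟩

include hπ in
theorem br_k (k₀ : G) (hk₀ : k₀ ∈ spHs X) (g : G) (hg : spBr X g) : spBr X (k₀ * g) := by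
  obtain ⟨a, ha, -, h1, -⟩ := hX.Hs_prop π hπ k₀ hk₀
  rcases hg with ⟨u, k, hk, rfl⟩ | ⟨u, k, hk, v, rfl⟩
  · left
    exact ⟨a ^ 2 * u, k₀ * k, mul_mem hk₀ hk, by rw [← mul_assoc, h1, mul_assoc]⟩
  · right
    refine ⟨a ^ 2 * u, k₀ * k, mul_mem hk₀ hk, v, ?_⟩
    simp only [← mul_assoc]
    rw [h1]

include hπ in
theorem br_w (g : G) (hg : spBr X g) : spBr X (spW X true 1 * g) := by
  rcases hg with ⟨u, k, hk, rfl⟩ | ⟨u, k, hk, v, rfl⟩
  · -- w x(u) k = (w k w⁻¹) w x(a⁻² u)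
    obtain ⟨a, ha, -, h1, -⟩ := hX.Hs_prop π hπ k hk
    right
    refine ⟨0, spW X true 1 * k * (spW X true 1)⁻¹, hX.Hs_w k hk, a⁻¹ ^ 2 * u, ?_⟩
    have e : X true u * k = k * X true (a⁻¹ ^ 2 * u) := by
      rw [h1]; congr 2; field_simp
    rw [hX.zero, one_mul, e]
    group
  · by_cases hu : u = 0
    · subst hu
      obtain ⟨a, ha, -, h1, -⟩ := hX.Hs_prop π hπ _ (hX.Hs_ww k hk)
      left
      refine ⟨a ^ 2 * v, spW X true 1 * k * spW X true 1, hX.Hs_ww k hk, ?_⟩
      rw [← h1, hX.zero]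
      group
    · obtain ⟨a, ha, -, h1, -⟩ := hX.Hs_prop π hπ _ (hX.Hs_ww k hk)
      right
      refine ⟨-u⁻¹, spH X u⁻¹ * (spW X true 1 * (spW X true 1 * k * spW X true 1) *
        (spW X true 1)⁻¹), mul_mem (hX.spH_mem _ (inv_ne_zero hu))
          (hX.Hs_w _ (hX.Hs_ww k hk)), a⁻¹ ^ 2 * (-u⁻¹) + v, ?_⟩
      have e1 : spW X true 1 * X true u = X false (-u) * spW X true 1 := by
        rw [hX.W_x 1 u one_ne_zero]; congr 2; simp
      have e2 : X false (-u) = X true (-u⁻¹) * (spH X u⁻¹ * spW X true 1) * X true (-u⁻¹) := by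
        have := hX.y_eq u⁻¹
        rw [inv_inv] at this
        rw [this, ← hX.W_eq]
      have e3 : X true (-u⁻¹) * (spW X true 1 * k * spW X true 1)
          = (spW X true 1 * k * spW X true 1) * X true (a⁻¹ ^ 2 * (-u⁻¹)) := by
        rw [h1]; congr 2; field_simp
      calc spW X true 1 * (X true u * k * spW X true 1 * X true v)
          = (spW X true 1 * X true u) * k * spW X true 1 * X true v := by group
        _ = X true (-u⁻¹) * (spH X u⁻¹ * spW X true 1) *
              (X true (-u⁻¹) * (spW X true 1 * k * spW X true 1)) * X true v := by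
            rw [e1, e2]; group
        _ = X true (-u⁻¹) * (spH X u⁻¹ * spW X true 1) *
              ((spW X true 1 * k * spW X true 1) * X true (a⁻¹ ^ 2 * (-u⁻¹))) * X true v := by
            rw [e3]
        _ = X true (-u⁻¹) * (spH X u⁻¹ * (spW X true 1 * (spW X true 1 * k * spW X true 1) *
              (spW X true 1)⁻¹)) * spW X true 1 * (X true (a⁻¹ ^ 2 * (-u⁻¹)) * X true v) := by
            group
        _ = _ := by rw [hX.add]

include hπ in
theorem br_wi (g : G) (hg : spBr X g) : spBr X ((spW X true 1)⁻¹ * g) := by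
  have e : (spW X true 1)⁻¹ = spH X (-1) * spW X true 1 := by
    rw [hX.h_neg_one]; group
  rw [e, mul_assoc]
  exact hX.br_k π hπ _ (hX.spH_mem _ (neg_ne_zero.mpr one_ne_zero)) _ (hX.br_w π hπ g hg)

include hπ in
theorem br_y (t : K) (g : G) (hg : spBr X g) : spBr X (X false t * g) := by
  have e : X false t = (spW X true 1)⁻¹ * X true (-t) * spW X true 1 := by
    rw [hX.Wi_x 1 (-t) one_ne_zero]
    have : -((1:K)⁻¹ ^ 2 * -t) = t := by simp
    rw [this]; group
  rw [e, mul_assoc, mul_assoc]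
  exact hX.br_wi π hπ _ (hX.br_x _ _ (hX.br_w π hπ g hg))

include hπ in
theorem br_all (hgen : ∀ P : G → Prop, P 1 → (∀ b t g, P g → P (X b t * g)) → ∀ g, P g) (g : G) :
    spBr X g := by
  refine hgen (spBr X) hX.br_one' ?_ g
  intro b t g hg
  cases b
  · exact hX.br_y π hπ t g hg
  · exact hX.br_x t g hg

end SPRel

end Cfsg.Agent.Lib.Helper48
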