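import Mathlib
import Cfsg.Agent.Lib.Helper48.SVA
import Cfsg.Agent.Lib.Helper85.SVPARAB
import Cfsg.Agent.Lib.Helper37.SVTRANS
import Cfsg.Agent.Lib.Helper19.SVFIXABS
import Cfsg.Agent.Lib.Helper1.SVFLAGTR

set_option autoImplicit false

namespace Cfsg.Agent.Lib.Helper48.SV

open Cfsg
open scoped MatrixGroups Polynomial

section Flag

variable {F : Type*} [Field F] {n : ℕ}

theorem fixasm_map_mul (a b : GL (Fin n) F) (E : Submodule F (Fin n → F)) :
    E.map (Matrix.toLin' ((a * b : GL (Fin n) F) : Matrix (Fin n) (Fin n) F)) =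
      (E.map (Matrix.toLin' (b : Matrix (Fin n) (Fin n) F))).map
        (Matrix.toLin' (a : Matrix (Fin n) (Fin n) F)) := by
  rw [Units.val_mul, Matrix.toLin'_mul, Submodule.map_comp]

theorem fixasm_map_one (E : Submodule F (Fin n → F)) :
    E.map (Matrix.toLin' ((1 : GL (Fin n) F) : Matrix (Fin n) (Fin n) F)) = E := by
  rw [Units.val_one, Matrix.toLin'_one, Submodule.map_id]

theorem fixasm_inj (g : GL (Fin n) F) :
    Function.Injective (Matrix.toLin' (g : Matrix (Fin n) (Fin n) F)) := by
  intro v w h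
  have h2 := congrArg (Matrix.toLin' ((g⁻¹ : GL (Fin n) F) : Matrix (Fin n) (Fin n) F)) h
  rw [← LinearMap.comp_apply, ← LinearMap.comp_apply, ← Matrix.toLin'_mul, ← Units.val_mul,
    inv_mul_cancel, Units.val_one, Matrix.toLin'_one] at h2
  exact h2

theorem fixasm_stdSub_mono {s t : ℕ} (h : s ≤ t) : stdSub F n s ≤ stdSub F n t := by
  intro v hv j hj
  exact hv j (le_trans h hj)

/-- piece FIXASM: fixed cosets of the parabolic = `x`-stable flags -/
theorem fixed_eq_flags [Finite F] (x : GL (Fin n) F) (μ : Fin n → ℕ) (hμ : ∑ i, μ i = n) :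
    Nat.card (MulAction.fixedBy (GL (Fin n) F ⧸ parabolicGL n F μ) x) =
      Nat.card {c : Fin (n + 1) → Submodule F[X] (Nx x) // c 0 = ⊥ ∧ c (Fin.last n) = ⊤ ∧
        ∀ i : Fin n, c i.castSucc ≤ c i.succ ∧ dimS (c i.succ) = dimS (c i.castSucc) + μ i} := by
  set Ψ : GL (Fin n) F → (Fin (n + 1) → Submodule F (Fin n → F)) :=
    fun g i => (stdSub F n (psum μ i.val)).map (Matrix.toLin' (g : Matrix (Fin n) (Fin n) F)) with hΨdef
  have hΨ : ∀ a b : GL (Fin n) F, Ψ a = Ψ b ↔ a⁻¹ * b ∈ parabolicGL n F μ := by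
    intro a b
    constructor
    · intro h
      rw [mem_parabolic_iff]
      intro i
      have hi := congrFun h i
      simp only [hΨdef] at hi
      rw [fixasm_map_mul, ← hi, ← fixasm_map_mul, inv_mul_cancel, fixasm_map_one]
    · intro h
      have h' : (a⁻¹ * b)⁻¹ ∈ parabolicGL n F μ := inv_mem h
      rw [mem_parabolic_iff] at h h'
      funext i
      simp only [hΨdef]
      have e1 : (stdSub F n (psum μ i.val)).map
          (Matrix.toLin' ((a⁻¹ * b : GL (Fin n) F) : Matrix (Fin n) (Fin n) F)) =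
          stdSub F n (psum μ i.val) := by
        apply le_antisymm (h i)
        have h2 := Submodule.map_mono
          (f := Matrix.toLin' ((a⁻¹ * b : GL (Fin n) F) : Matrix (Fin n) (Fin n) F)) (h' i)
        rw [← fixasm_map_mul, mul_inv_cancel, fixasm_map_one] at h2
        exact h2
      have e2 : b = a * (a⁻¹ * b) := by group
      rw [e2, fixasm_map_mul a, e1]
  have hσ : ∀ a : GL (Fin n) F, Ψ (x * a) = (fun W i => (W i).map (phi x)) (Ψ a) := by
    intro a
    funext i
    simp only [hΨdef]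
    rw [fixasm_map_mul]
  rw [card_fixedBy_of_invariant (parabolicGL n F μ) Ψ hΨ x (fun W i => (W i).map (phi x)) hσ,
    ← card_flags_translate x μ hμ]
  have hrange : ∀ W : Fin (n + 1) → Submodule F (Fin n → F), W ∈ Set.range Ψ ↔
      (Monotone W ∧ ∀ i : Fin (n + 1), Module.finrank F (W i) = psum μ i.val) := by
    intro W
    constructor
    · rintro ⟨g, rfl⟩
      refine ⟨?_, ?_⟩
      · intro i j hij
        exact Submodule.map_mono (fixasm_stdSub_mono (psum_mono μ hij))
      · intro i
        have hle : psum μ i.val ≤ n := by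
          have h1 := psum_mono μ (Nat.lt_succ_iff.mp i.isLt)
          rw [psum_top, hμ] at h1
          exact h1
        rw [← finrank_stdSub (F := F) (psum μ i.val) hle]
        exact (LinearEquiv.finrank_eq (Submodule.equivMapOfInjective _ (fixasm_inj g) _)).symm
    · rintro ⟨hmono, hdim⟩
      obtain ⟨g, hg⟩ := exists_gl_of_flag μ hμ W hmono hdim
      exact ⟨g, funext fun i => (hg i).symm⟩
  exact Nat.card_congr (Equiv.subtypeEquivRight (fun W => and_congr (hrange W) Iff.rfl))

end Flag

end Cfsg.Agent.Lib.Helper48.SV
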