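import Mathlib
import Cfsg.Agent.Lib.Helper48.SVA
import Cfsg.Agent.Lib.Helper39.SVMOB
import Cfsg.Agent.Lib.Helper40.SVCHISUP
import Cfsg.Agent.Lib.Helper40.SVSIMPLE
import Cfsg.Agent.Lib.Helper83.SVCOMPL
import Cfsg.Agent.Lib.Helper2.SVFFUN

set_option autoImplicit false

namespace Cfsg.Agent.Lib.Helper48.SV

open Cfsg
open scoped MatrixGroups Polynomial

section Modules

variable {F : Type*} [Field F] [Finite F]
variable {N : Type*} [AddCommGroup N] [Module F[X] N] [Module F N] [IsScalarTower F F[X] N] [Finite N]

/-- a complement of an atom inside a bigger submodule -/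
theorem form_exists_compl [IsSemisimpleModule F[X] N] (A W : Submodule F[X] N) (hAW : A ≤ W) :
    ∃ C : Submodule F[X] N, Disjoint C A ∧ C ⊔ A = W := by
  obtain ⟨C', hC'⟩ := exists_isCompl A
  refine ⟨C' ⊓ W, hC'.disjoint.symm.mono_left inf_le_left, ?_⟩
  rw [sup_comm, ← sup_inf_assoc_of_le C' hAW, hC'.sup_eq_top, top_inf_eq]

/-- piece HOM -/
theorem card_hom [DecidableEq F] [IsSemisimpleModule F[X] N] (A C : Submodule F[X] N) (hA : IsAtom A) :
    Nat.card (↥C →ₗ[F[X]] ↥A) = (Nat.card F ^ (chi A).natDegree) ^
      (UniqueFactorizationMonoid.normalizedFactors (chi C)).count (chi A) := by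
  induction hk : dimS C using Nat.strong_induction_on generalizing C with
  | _ k ih =>
    by_cases hC : C = ⊥
    · subst hC
      rw [chi_bot, UniqueFactorizationMonoid.normalizedFactors_one, Multiset.count_zero, pow_zero]
      haveI : Subsingleton (↥(⊥ : Submodule F[X] N) →ₗ[F[X]] ↥A) := by
        constructor
        intro f g
        apply LinearMap.ext
        intro v
        have hv : v = 0 := Subsingleton.elim _ _
        rw [hv, map_zero, map_zero]
      exact Nat.card_unique
    · obtain ⟨B, hB, hBC⟩ := (eq_bot_or_exists_atom_le C).resolve_left hC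
      obtain ⟨C₁, hdis, hsup⟩ := form_exists_compl B C hBC
      have hlt : C₁ < C := by
        refine lt_of_le_of_ne (hsup ▸ le_sup_left) ?_
        intro heq
        have : B ≤ C₁ := heq ▸ hBC
        exact hB.1 (le_bot_iff.mp (hdis this (le_refl B)))
      subst hsup
      have hdim := dimS_strictMono hlt
      have ih' := ih (dimS C₁) (by rw [← hk]; exact hdim) C₁ rfl
      have e : (↥(C₁ ⊔ B) →ₗ[F[X]] ↥A) ≃ (↥C₁ →ₗ[F[X]] ↥A) × (↥B →ₗ[F[X]] ↥A) :=
        (((sumEquiv C₁ B hdis).arrowCongr (LinearEquiv.refl F[X] ↥A)).symm.trans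
          (LinearMap.coprodEquiv F[X]).symm).toEquiv
      rw [Nat.card_congr e, Nat.card_prod, ih', chi_sup C₁ B hdis,
        UniqueFactorizationMonoid.normalizedFactors_mul (chi_monic C₁).ne_zero (chi_monic B).ne_zero,
        Multiset.count_add,
        UniqueFactorizationMonoid.normalizedFactors_irreducible (chi_irreducible B hB),
        (chi_monic B).normalize_eq_self, Multiset.count_singleton, pow_add]
      congr 1
      by_cases hAB : chi A = chi B
      · rw [if_pos hAB, pow_one, card_hom_of_chi_eq A B hA hB hAB.symm]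
      · rw [if_neg hAB, pow_zero, card_hom_of_chi_ne A B hA hB (fun h => hAB h.symm)]

/-- piece FORM -/
theorem mob_formula [DecidableEq F] [IsSemisimpleModule F[X] N] (W : Submodule F[X] N) :
    (((-1 : ℤ) ^ dimS W * mob W : ℤ) : ℂ) = ffun (Nat.card F) (chi W) := by
  induction hk : dimS W using Nat.strong_induction_on generalizing W with
  | _ k ih =>
    by_cases hW : W = ⊥
    · subst hW
      rw [chi_bot, ffun_one, mob_bot, ← hk, dimS_bot]
      simp
    · obtain ⟨A, hA, hAW⟩ := (eq_bot_or_exists_atom_le W).resolve_left hW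
      obtain ⟨C₀, hdis, hsup⟩ := form_exists_compl A W hAW
      have hw := weisner A W hA.1 hAW
      set S := fs {c : Submodule F[X] N | c ⊔ A = W ∧ Disjoint c A} with hS
      have hins : fs {c : Submodule F[X] N | c ⊔ A = W} = insert W S := by
        ext c
        simp only [hS, mem_fs, Set.mem_ofPred_eq, Finset.mem_insert]
        constructor
        · intro h
          by_cases hd : Disjoint c A
          · exact Or.inr ⟨h, hd⟩
          · left
            rcases hA.le_iff.mp (inf_le_right : c ⊓ A ≤ A) with h1 | h1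
            · exact absurd (disjoint_iff.mpr h1) hd
            · rw [← h, sup_eq_left.mpr (inf_eq_right.mp h1)]
        · rintro (rfl | ⟨h, _⟩)
          · exact sup_eq_left.mpr hAW
          · exact h
      have hWS : W ∉ S := by
        simp only [hS, mem_fs, Set.mem_ofPred_eq, not_and]
        intro _ hd
        exact hA.1 (le_bot_iff.mp (hd hAW (le_refl A)))
      rw [hins, Finset.sum_insert hWS] at hw
      have hdA : 0 < dimS A := by
        have := dimS_strictMono (bot_lt_iff_ne_bot.mpr hA.1)
        rw [dimS_bot] at this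
        exact this
      have hdW : dimS W = dimS C₀ + dimS A := by rw [← hsup, dimS_sup C₀ A hdis]
      have hchiW : chi W = chi C₀ * chi A := by rw [← hsup, chi_sup C₀ A hdis]
      have hterm : ∀ c ∈ S, ((mob c : ℤ) : ℂ) = (-1 : ℂ) ^ dimS C₀ * ffun (Nat.card F) (chi C₀) := by
        intro c hc
        simp only [hS, mem_fs, Set.mem_ofPred_eq] at hc
        obtain ⟨hc1, hc2⟩ := hc
        have e1 : chi c = chi C₀ := by
          have h1 : chi c * chi A = chi C₀ * chi A := by rw [← chi_sup c A hc2, hc1, hchiW]
          exact mul_right_cancel₀ (chi_monic A).ne_zero h1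
        have e2 : dimS c = dimS C₀ := by
          have h1 : dimS c + dimS A = dimS C₀ + dimS A := by rw [← dimS_sup c A hc2, hc1, hdW]
          omega
        have h3 := ih (dimS c) (by omega) c rfl
        rw [e1, e2] at h3
        rw [← h3]
        push_cast
        rw [← mul_assoc, ← pow_add, ← two_mul, pow_mul]
        simp
      have hcard : S.card = (Nat.card F ^ (chi A).natDegree) ^
          (UniqueFactorizationMonoid.normalizedFactors (chi C₀)).count (chi A) := by
        rw [hS, card_fs, ← card_hom A C₀ hA, ← card_compl A C₀ hdis, hsup]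
        rfl
      have hsum : ((∑ c ∈ S, mob c : ℤ) : ℂ) =
          (S.card : ℂ) * ((-1 : ℂ) ^ dimS C₀ * ffun (Nat.card F) (chi C₀)) := by
        push_cast
        rw [Finset.sum_congr rfl hterm, Finset.sum_const, nsmul_eq_mul]
      have hmob : ((mob W : ℤ) : ℂ) = - ((∑ c ∈ S, mob c : ℤ) : ℂ) := by
        have : mob W = - ∑ c ∈ S, mob c := by linarith
        rw [this]
        push_cast
        ring
      rw [hchiW, mul_comm (chi C₀), ffun_mul _ _ _ (chi_irreducible A hA) (chi_monic A)
        (chi_monic C₀).ne_zero]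
      push_cast
      rw [hmob, hsum, hcard, ← hk, hdW, chi_natDegree]
      obtain ⟨d, hd⟩ : ∃ d, dimS A = d + 1 := ⟨dimS A - 1, by omega⟩
      rw [hd]
      push_cast
      rw [pow_add, pow_add, pow_one, ← pow_mul]
      have e : ((-1 : ℂ) ^ dimS C₀) * ((-1 : ℂ) ^ dimS C₀) = 1 := by
        rw [← pow_add, ← two_mul, pow_mul]
        simp
      linear_combination ((-1 : ℂ) ^ d * ((Nat.card F : ℂ) ^ ((d + 1) *
        (UniqueFactorizationMonoid.normalizedFactors (chi C₀)).count (chi A))) *
        ffun (Nat.card F) (chi C₀)) * e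

end Modules

end Cfsg.Agent.Lib.Helper48.SV
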