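import Mathlib
import Cfsg.Agent.Lib.Helper48.SVA
import Cfsg.Agent.Lib.Helper94.SVKAPPA
import Cfsg.Agent.Lib.Helper39.SVMOB

set_option autoImplicit false

namespace Cfsg.Agent.Lib.Helper48.SV

open Cfsg
open scoped MatrixGroups Polynomial

section Mob

variable {α : Type*} [PartialOrder α] [OrderBot α] [Finite α]

theorem perme_step_zero (d : α → ℕ) (hd : StrictMono d) (f : α → ℤ) : step d 0 f = f := by
  classical
  funext w
  unfold step
  have h : fs {w' : α | w' ≤ w ∧ d w = d w' + 0} = {w} := by
    ext w'
    simp only [mem_fs, Set.mem_ofPred_eq, Finset.mem_singleton]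
    constructor
    · rintro ⟨h1, h2⟩
      rcases h1.lt_or_eq with h3 | h3
      · have := hd h3
        omega
      · exact h3
    · rintro rfl
      exact ⟨le_refl _, by omega⟩
  rw [h, Finset.sum_singleton]

theorem perme_cnt_replicate (d : α → ℕ) (hd : StrictMono d) (l : List ℕ) (m : ℕ) :
    cnt d (l ++ List.replicate m 0) = cnt d l := by
  induction m with
  | zero => simp
  | succ m ih =>
    rw [List.replicate_succ', ← List.append_assoc, cnt_concat, ih, perme_step_zero d hd]

theorem perme_tfun_rec (d : α → ℕ) (hd : StrictMono d) (w : α) (hw : w ≠ ⊥) :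
    tfun d w = ∑ m ∈ Finset.range (d w), (-1 : ℤ) ^ m *
      ∑ w' ∈ fs {w' : α | w' ≤ w ∧ d w = d w' + (m + 1)}, tfun d w' := by
  classical
  unfold tfun
  rw [mob_rec w hw]
  have h1 : ∑ w' ∈ fs {w' : α | w' < w}, mob w' =
      ∑ m ∈ Finset.range (d w), ∑ w' ∈ fs {w' : α | w' ≤ w ∧ d w = d w' + (m + 1)}, mob w' := by
    rw [← Finset.sum_fiberwise_of_maps_to (g := fun w' => d w - d w' - 1) (t := Finset.range (d w))]
    · apply Finset.sum_congr rfl
      intro m hm
      apply Finset.sum_congr
      · ext w'
        simp only [Finset.mem_filter, mem_fs, Set.mem_ofPred_eq]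
        constructor
        · rintro ⟨h1, h2⟩
          have := hd h1
          exact ⟨h1.le, by omega⟩
        · rintro ⟨h1, h2⟩
          refine ⟨lt_of_le_of_ne h1 ?_, by omega⟩
          rintro rfl
          omega
      · intro _ _
        rfl
    · intro w' hw'
      simp only [mem_fs, Set.mem_ofPred_eq] at hw'
      have := hd hw'
      simp only [Finset.mem_range]
      omega
  rw [h1, mul_neg, Finset.mul_sum, ← Finset.sum_neg_distrib]
  apply Finset.sum_congr rfl
  intro m _
  rw [Finset.mul_sum, Finset.mul_sum, ← Finset.sum_neg_distrib]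
  apply Finset.sum_congr rfl
  intro w' hw'
  simp only [mem_fs, Set.mem_ofPred_eq] at hw'
  rw [hw'.2]
  rw [pow_add, pow_add, pow_one]
  ring

/-- piece PERME -/
theorem perm_sum_eq_tfun (d : α → ℕ)
    (hd : StrictMono d) (hd0 : d ⊥ = 0) (k : ℕ) (w : α) (hw : d w = k) :
    ∑ κ : Equiv.Perm (Fin k),
      (if valid κ then ((Equiv.Perm.sign κ : ℤˣ) : ℤ) * cnt d (muList κ) w else 0) = tfun d w := by
  classical
  induction k using Nat.strong_induction_on generalizing w with
  | _ k ih =>
    rcases Nat.eq_zero_or_pos k with hk | hk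
    · subst hk
      have hwb : w = ⊥ := by
        by_contra hne
        have := hd (bot_lt_iff_ne_bot.mpr hne)
        omega
      subst hwb
      rw [Finset.sum_eq_single_of_mem (1 : Equiv.Perm (Fin 0)) (Finset.mem_univ _)
        (fun b _ hb => absurd (Subsingleton.elim b 1) hb)]
      have hv : valid (1 : Equiv.Perm (Fin 0)) := fun i => i.elim0
      rw [if_pos hv]
      unfold tfun
      rw [hd0, mob_bot]
      unfold muList
      simp [cnt_nil]
    · obtain ⟨n, rfl⟩ : ∃ n, k = n + 1 := ⟨k - 1, by omega⟩
      have hwb : w ≠ ⊥ := by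
        rintro rfl
        omega
      have hk := kappa_rec (fun l => cnt d l w) n
      simp only [smul_eq_mul] at hk
      rw [hk, perme_tfun_rec d hd w hwb, hw]
      apply Finset.sum_congr rfl
      intro m hm
      rw [Finset.mem_range] at hm
      have h2 : ∀ κ : Equiv.Perm (Fin (n - m)),
          (if valid κ then (-1 : ℤ) ^ m * ((Equiv.Perm.sign κ : ℤˣ) : ℤ) *
            cnt d (muList κ ++ List.replicate m 0 ++ [m + 1]) w else 0) =
          (-1 : ℤ) ^ m * ∑ w' ∈ fs {w' : α | w' ≤ w ∧ n + 1 = d w' + (m + 1)},
            (if valid κ then ((Equiv.Perm.sign κ : ℤˣ) : ℤ) * cnt d (muList κ) w' else 0) := by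
        intro κ
        by_cases hv : valid κ
        · rw [if_pos hv, cnt_concat, perme_cnt_replicate d hd]
          unfold step
          rw [hw, mul_assoc, Finset.mul_sum]
          congr 1
          apply Finset.sum_congr rfl
          intro w' _
          rw [if_pos hv]
        · rw [if_neg hv]
          simp [hv]
      rw [Finset.sum_congr rfl (fun κ _ => h2 κ), ← Finset.mul_sum, Finset.sum_comm]
      congr 1
      apply Finset.sum_congr rfl
      intro w' hw'
      simp only [mem_fs, Set.mem_ofPred_eq] at hw'
      exact ih (n - m) (by omega) w' (by omega)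

end Mob

end Cfsg.Agent.Lib.Helper48.SV
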