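import Mathlib
import Cfsg.Agent.Lib.Helper48.SVA
import Cfsg.Agent.Lib.Helper48.SVPerme
import Cfsg.Agent.Lib.Helper48.SVForm
import Cfsg.Agent.Lib.Helper48.SVFix
import Cfsg.Agent.Lib.Helper39.SVPATH
import Cfsg.Agent.Lib.Helper96.SVSEMI

/-!
# S2425: values of the Steinberg character of `GL_n(q)` at `p'`-elements (assembly)
-/

set_option autoImplicit false

namespace Cfsg.Agent.Lib.Helper48.SV

open Cfsg
open scoped MatrixGroups Polynomial

section Mat

variable {F : Type*} [Field F] [Fintype F] [DecidableEq F] {n : ℕ}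

/-- piece MAIN (helper48) -/
theorem steinberg_value {q : ℕ} (hq : Fintype.card F = q) (p : ℕ) [Fact p.Prime] [CharP F p]
    (x : GL (Fin n) F) (hx : (orderOf x).Coprime p) :
    unipotentCharacterGL n F (fun _ => 1) x = ffun q (x : Matrix (Fin n) (Fin n) F).charpoly := by
  haveI := semisimple_of_coprime p x hx
  have h1 : ∀ κ : Equiv.Perm (Fin n), valid κ →
      fixedPointCharacter (parabolicGL n F fun i => 1 + i.val - (κ i).val) x =
        ((cnt dimS (muList κ) (⊤ : Submodule F[X] (Nx x)) : ℤ) : ℂ) := by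
    intro κ hκ
    have hsum : ∑ i : Fin n, (1 + i.val - (κ i).val) = n := by
      have e1 : ∑ i : Fin n, (1 + i.val - (κ i).val) + ∑ i : Fin n, (κ i).val =
          ∑ i : Fin n, (1 + i.val) := by
        rw [← Finset.sum_add_distrib]
        apply Finset.sum_congr rfl
        intro i _
        have := hκ i
        omega
      have e2 : ∑ i : Fin n, (κ i).val = ∑ i : Fin n, i.val := Equiv.sum_comp κ (fun i => i.val)
      have e3 : ∑ i : Fin n, (1 + i.val) = n + ∑ i : Fin n, i.val := by
        rw [Finset.sum_add_distrib]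
        simp
      omega
    unfold fixedPointCharacter
    rw [fixed_eq_flags x _ hsum]
    unfold muList
    rw [cnt_ofFn]
    push_cast
    rfl
  have h2 := perm_sum_eq_tfun (dimS : Submodule F[X] (Nx x) → ℕ) dimS_strictMono dimS_bot n ⊤
    (dimS_top x)
  have h3 := mob_formula (⊤ : Submodule F[X] (Nx x))
  rw [chi_top, Nat.card_eq_fintype_card, hq] at h3
  rw [← h3]
  unfold tfun at h2
  rw [← h2]
  unfold unipotentCharacterGL
  push_cast
  apply Finset.sum_congr rfl
  intro κ _
  by_cases hκ : valid κ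
  · rw [if_pos hκ, if_pos (show ∀ i : Fin n, (κ i).val ≤ 1 + i.val from hκ), h1 κ hκ]
  · rw [if_neg hκ, if_neg (show ¬ ∀ i : Fin n, (κ i).val ≤ 1 + i.val from hκ)]

end Mat

end Cfsg.Agent.Lib.Helper48.SV
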